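import Mathlib
import Cfsg.Agent.Lib.Helper18.SLGen
import Cfsg.Agent.Lib.Helper18.SLCard

set_option linter.unusedSimpArgs false

namespace Cfsg.Agent.Lib.Helper18

open Matrix Matrix.SpecialLinearGroup

variable {ι F : Type*} [Field F] [DecidableEq ι] [Fintype ι]

/-- diagonal matrix with `a` at position `i`, ones elsewhere, in GL -/
noncomputable def diagOne (i : ι) (a : F) (ha : a ≠ 0) : GL ι F :=
  Matrix.GeneralLinearGroup.mkOfDetNeZero (Matrix.diagonal (fun k => if k = i then a else 1)) (by
    rw [Matrix.det_diagonal, Finset.prod_ite_eq' Finset.univ i]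
    simpa using ha)

lemma diagOne_coe (i : ι) (a : F) (ha : a ≠ 0) :
    ((diagOne i a ha : GL ι F) : Matrix ι ι F) = Matrix.diagonal (fun k => if k = i then a else 1) := rfl

open scoped commutatorElement in
lemma toGL_transvection_eq_commutator {i j : ι} (hij : i ≠ j) (a : F) (ha : a ≠ 0) (b : F) :
    (toGL (SpecialLinearGroup.transvection hij ((a - 1) * b)) : GL ι F) =
      ⁅diagOne i a ha, toGL (SpecialLinearGroup.transvection hij b)⁆ := by
  rw [commutatorElement_def, eq_mul_inv_iff_mul_eq, eq_mul_inv_iff_mul_eq]
  apply Units.ext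
  simp only [Units.val_mul, diagOne_coe, coe_GL_coe_matrix, transvection_coe]
  ext k l
  simp only [mul_add, add_mul, mul_one, one_mul, Matrix.single_mul_single_of_ne _ _ _ _ hij.symm,
    Matrix.mul_diagonal, Matrix.diagonal_mul, Matrix.add_apply, Matrix.zero_apply, Matrix.diagonal_apply,
    Matrix.single_apply]
  by_cases hki : k = i
  · subst hki
    by_cases hlj : l = j
    · subst hlj
      simp [hij, hij.symm]
      ring
    · simp [hij, hij.symm, hlj, Ne.symm hlj]
      by_cases hlk : l = k
      · subst hlk; simp [mul_comm]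
      · simp [hlk, Matrix.one_apply_ne (Ne.symm hlk)]
  · simp [hki, Ne.symm hki]
    intro hli
    subst hli
    simp [Matrix.one_apply_ne hki]

theorem GL_commutator_eq_ker_det (n : ℕ) (h : n = 2 → ∃ a : F, a ≠ 0 ∧ a ≠ 1) :
    commutator (GL (Fin n) F) = (Matrix.GeneralLinearGroup.det : GL (Fin n) F →* Fˣ).ker := by
  apply le_antisymm (Abelianization.commutator_subset_ker _)
  intro g hg
  obtain ⟨A, hA⟩ : ∃ A : SpecialLinearGroup (Fin n) F, toGL A = g := by
    refine ⟨SLEquivKerDet.symm ⟨g, hg⟩, ?_⟩
    have := SLEquivKerDet.apply_symm_apply ⟨g, hg⟩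
    exact congrArg Subtype.val this
  subst hA
  clear hg
  rcases Nat.lt_or_ge n 2 with h2 | h2
  · have : Subsingleton (Fin n) := by
      rw [← Fintype.card_le_one_iff_subsingleton]; simp; omega
    have hA : A = 1 := Subsingleton.elim _ _
    subst hA
    simp
  rcases Nat.eq_or_lt_of_le h2 with h2 | h3
  · obtain ⟨a, ha0, ha1⟩ := h h2.symm
    have : Nontrivial (Fin n) := Fintype.one_lt_card_iff_nontrivial.mp (by simp; omega)
    refine SL_transvection_induction (fun A => toGL A ∈ commutator (GL (Fin n) F)) ?_ ?_ A
    · intro i j hij c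
      have := toGL_transvection_eq_commutator hij a ha0 (c / (a - 1))
      rw [mul_div_cancel₀ _ (sub_ne_zero.mpr ha1)] at this
      rw [this]
      exact Subgroup.commutator_mem_commutator (Subgroup.mem_top _) (Subgroup.mem_top _)
    · intro A B hA hB
      simp only [map_mul]
      exact mul_mem hA hB
  · have h1 : A ∈ commutator (SpecialLinearGroup (Fin n) F) := by
      rw [SL_commutator_eq_top (by simp; omega)]; trivial
    have h2 : (commutator (SpecialLinearGroup (Fin n) F)).map toGL ≤ commutator (GL (Fin n) F) := by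
      rw [commutator_def, Subgroup.map_commutator, commutator_def]
      exact Subgroup.commutator_mono le_top le_top
    exact h2 (Subgroup.mem_map_of_mem _ h1)

end Cfsg.Agent.Lib.Helper18
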