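import Mathlib
import Cfsg.Agent.Lib.Helper18.SpTv2

set_option linter.unusedSimpArgs false
set_option linter.unusedSectionVars false

/-! perfectness of the symplectic groups -/

namespace Cfsg.Agent.Lib.Helper18

open Matrix Cfsg Cfsg.Agent.H5Symp

section sp

variable {F : Type*} [Field F] {m : ℕ}

local notation "B" => sympForm m F

theorem comm_mem (g h : symplecticGroup (Fin m) F) :
    g * h * g⁻¹ * h⁻¹ ∈ commutator (symplecticGroup (Fin m) F) := by
  rw [commutator_def, ← commutatorElement_def]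
  exact Subgroup.commutator_mem_commutator (Subgroup.mem_top g) (Subgroup.mem_top h)

/-- the Eichler map `x ↦ x + c B(x,a) w + c B(x,w) a` -/
def spE (c : F) (a w : Fin m ⊕ Fin m → F) : symplecticGroup (Fin m) F :=
  tv (a + w) c * tv a (-c) * tv w (-c)

theorem spE_mulVec (c : F) {a w : Fin m ⊕ Fin m → F} (haw : B a w = 0) (x : Fin m ⊕ Fin m → F) :
    ((spE c a w : symplecticGroup (Fin m) F) : Matrix (Fin m ⊕ Fin m) (Fin m ⊕ Fin m) F) *ᵥ x
      = x + (c * B x a) • w + (c * B x w) • a := by
  have hwa : B w a = 0 := by rw [form_swap, haw, neg_zero]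
  unfold spE
  rw [sp_coe_mul_mulVec, sp_coe_mul_mulVec, tv_coe_mulVec, tv_coe_mulVec, tv_coe_mulVec]
  simp only [form_add_left, form_add_right, form_smul_left, form_self, haw, hwa, mul_zero,
    add_zero, zero_add]
  module

theorem conj_spE (h : symplecticGroup (Fin m) F) (c : F) (a w : Fin m ⊕ Fin m → F) :
    h * spE c a w * h⁻¹ = spE c ((h : Matrix (Fin m ⊕ Fin m) (Fin m ⊕ Fin m) F) *ᵥ a)
      ((h : Matrix (Fin m ⊕ Fin m) (Fin m ⊕ Fin m) F) *ᵥ w) := by
  unfold spE
  rw [← mulVec_add, ← sp_conj_tv, ← sp_conj_tv, ← sp_conj_tv]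
  group

/-- all transvections with the same parameter are congruent modulo the commutator subgroup -/
theorem tv_mul_tv_neg_mem {v w : Fin m ⊕ Fin m → F} (hv : v ≠ 0) (hw : w ≠ 0) (c : F) :
    tv w c * tv v (-c) ∈ commutator (symplecticGroup (Fin m) F) := by
  obtain ⟨g, hg⟩ := sp_exists_mulVec_eq hv hw
  have := comm_mem g (tv v c)
  rwa [sp_conj_tv, hg, tv_inv] at this

theorem tv_mem_of_tv_mem {v w : Fin m ⊕ Fin m → F} (hv : v ≠ 0) (c : F)
    (h : tv v c ∈ commutator (symplecticGroup (Fin m) F)) :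
    tv w c ∈ commutator (symplecticGroup (Fin m) F) := by
  by_cases hw : w = 0
  · rw [hw, tv_zero_left]
    exact Subgroup.one_mem _
  · have h1 := Subgroup.mul_mem _ (tv_mul_tv_neg_mem hv hw c) h
    rwa [mul_assoc, tv_mul_tv, neg_add_cancel, tv_zero_right, mul_one] at h1

theorem commutator_eq_top_of_tv
    (h : ∀ (v : Fin m ⊕ Fin m → F) (c : F), tv v c ∈ commutator (symplecticGroup (Fin m) F)) :
    commutator (symplecticGroup (Fin m) F) = ⊤ := by
  rw [eq_top_iff, ← Cfsg.Agent.S0765.result, Subgroup.closure_le]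
  rintro A ⟨w, c, hA⟩
  have hA' : A = tv w c := Subtype.ext hA
  rw [hA']
  exact h w c

/-- large fields -/
theorem sp_perfect_of_sq_ne_one {a : F} (ha0 : a ≠ 0) (ha : a ^ 2 ≠ 1) :
    commutator (symplecticGroup (Fin m) F) = ⊤ := by
  apply commutator_eq_top_of_tv
  intro v c
  by_cases hv : v = 0
  · rw [hv, tv_zero_left]
    exact Subgroup.one_mem _
  obtain ⟨h, hh⟩ := sp_exists_mulVec_eq hv (smul_ne_zero ha0 hv)
  have ha1 : a ^ 2 - 1 ≠ 0 := sub_ne_zero.2 ha
  have := comm_mem h (tv v (c / (a ^ 2 - 1)))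
  rw [sp_conj_tv, hh, tv_inv] at this
  have e : tv (a • v) (c / (a ^ 2 - 1)) = tv v (c / (a ^ 2 - 1) * a ^ 2) := by
    apply sp_ext
    intro x
    rw [tv_coe_mulVec, tv_coe_mulVec, form_smul_right, smul_smul]
    congr 2
    ring
  rw [e, tv_mul_tv] at this
  have e2 : c / (a ^ 2 - 1) * a ^ 2 + -(c / (a ^ 2 - 1)) = c := by
    field_simp
    ring
  rwa [e2] at this

/-- rank at least two, odd characteristic -/
theorem tv_mem_of_two {a w y : Fin m ⊕ Fin m → F} (haw : B a w = 0) (hay : B a y = 0) :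
    tv a (2 * B w y) ∈ commutator (symplecticGroup (Fin m) F) := by
  have h1 := comm_mem (spE 1 a w)⁻¹ (spE 1 a y)
  rw [inv_inv, mul_assoc, mul_assoc, ← mul_assoc (spE 1 a y), conj_spE, spE_mulVec 1 hay,
    spE_mulVec 1 hay] at h1
  simp only [form_self, haw, hay, mul_zero, zero_smul, add_zero, one_mul] at h1
  have hwa : B w a = 0 := by rw [form_swap, haw, neg_zero]
  rw [hwa, zero_smul, add_zero] at h1
  have e : spE 1 a (w + B w y • a) = spE 1 a w * tv a (2 * B w y) := by
    apply sp_ext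
    intro x
    rw [sp_coe_mul_mulVec, tv_coe_mulVec, spE_mulVec 1 haw,
      spE_mulVec 1 (by rw [form_add_right, form_smul_right, form_self, haw]; ring)]
    simp only [form_add_left, form_add_right, form_smul_left, form_smul_right, form_self, haw,
      mul_zero, add_zero]
    module
  rwa [e, inv_mul_cancel_left] at h1

/-- rank at least three -/
theorem spE_mem_of_three {a b d y : Fin m ⊕ Fin m → F} (hab : B a b = 0) (had : B a d = 0)
    (hbd : B b d = 0) (hay : B a y = 0) (hby : B b y = 0) (hdy : B d y = 1) (c : F) :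
    spE c b a ∈ commutator (symplecticGroup (Fin m) F) := by
  have hba : B b a = 0 := by rw [form_swap, hab, neg_zero]
  have hda : B d a = 0 := by rw [form_swap, had, neg_zero]
  have h1 := comm_mem (spE c b d)⁻¹ (spE 1 a y)
  rw [inv_inv, mul_assoc, mul_assoc, ← mul_assoc (spE 1 a y), conj_spE, spE_mulVec 1 hay,
    spE_mulVec 1 hay] at h1
  simp only [hba, hby, hda, hdy, mul_zero, zero_smul, add_zero, one_mul, one_smul] at h1
  have e : spE c b (d + a) = spE c b d * spE c b a := by
    apply sp_ext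
    intro x
    rw [sp_coe_mul_mulVec, spE_mulVec c hba, spE_mulVec c hbd,
      spE_mulVec c (by rw [form_add_right, hbd, hba, add_zero])]
    simp only [form_add_left, form_add_right, form_smul_left, form_smul_right, form_self, hab, hba,
      had, hbd, mul_zero, add_zero]
    module
  rwa [e, inv_mul_cancel_left] at h1

theorem tv_mem_of_three {a b d y : Fin m ⊕ Fin m → F} (hab : B a b = 0) (had : B a d = 0)
    (hbd : B b d = 0) (hay : B a y = 0) (hby : B b y = 0) (hdy : B d y = 1)
    (hb : b ≠ 0) (hba' : b + a ≠ 0) (c : F) :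
    tv a c ∈ commutator (symplecticGroup (Fin m) F) := by
  have h1 := spE_mem_of_three hab had hbd hay hby hdy (-c)
  unfold spE at h1
  have h2 := tv_mul_tv_neg_mem hb hba' (-c)
  have h3 := Subgroup.mul_mem _ (Subgroup.inv_mem _ h2) h1
  rwa [inv_mul_cancel_left, neg_neg] at h3

end sp

end Cfsg.Agent.Lib.Helper18
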