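import Mathlib

set_option linter.unusedSimpArgs false
set_option linter.unusedSectionVars false

namespace Cfsg.Agent.Lib.Helper18

open Module Submodule

section subcount

variable {K V : Type*} [Field K] [Fintype K] [AddCommGroup V] [Module K V] [Finite V]

theorem span_range_coe_eq {k : ℕ} (W : Submodule K V) (hW : finrank K W = k) (t : Fin k → W)
    (ht : LinearIndependent K t) : span K (Set.range (fun i => (t i : V))) = W := by
  have h1 : span K (Set.range t) = ⊤ :=
    ht.span_eq_top_of_card_eq_finrank' (by rw [Fintype.card_fin, hW])
  have h2 : (fun i => (t i : V)) = W.subtype ∘ t := rfl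
  rw [h2, Set.range_comp, ← Submodule.map_span, h1, Submodule.map_subtype_top]

/-- counting `k`-dimensional subspaces with a property through their ordered bases -/
theorem card_subspace_mul (k : ℕ) (P : Submodule K V → Prop) :
    Nat.card {W : Submodule K V // finrank K W = k ∧ P W}
        * ∏ i : Fin k, (Fintype.card K ^ k - Fintype.card K ^ (i : ℕ))
      = Nat.card {s : Fin k → V // LinearIndependent K s ∧ P (span K (Set.range s))} := by
  classical
  let f : {s : Fin k → V // LinearIndependent K s ∧ P (span K (Set.range s))} →
      {W : Submodule K V // finrank K W = k ∧ P W} :=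
    fun s => ⟨span K (Set.range s.1), by rw [finrank_span_eq_card s.2.1, Fintype.card_fin], s.2.2⟩
  have : Finite {W : Submodule K V // finrank K W = k ∧ P W} := inferInstance
  have := Fintype.ofFinite {W : Submodule K V // finrank K W = k ∧ P W}
  rw [← Nat.card_congr (Equiv.sigmaFiberEquiv f), Nat.card_sigma]
  have h1 : ∀ W : {W : Submodule K V // finrank K W = k ∧ P W},
      Nat.card {s // f s = W} = ∏ i : Fin k, (Fintype.card K ^ k - Fintype.card K ^ (i : ℕ)) := by
    intro W
    have h2 := card_linearIndependent (K := K) (V := W.1) (k := k) (by rw [W.2.1])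
    rw [W.2.1] at h2
    rw [← h2]
    apply Nat.card_congr
    exact
      { toFun := fun s => ⟨fun i => ⟨s.1.1 i, by
            have : span K (Set.range s.1.1) = W.1 := congrArg Subtype.val s.2
            rw [← this]
            exact subset_span (Set.mem_range_self i)⟩,
          LinearIndependent.of_comp W.1.subtype s.1.2.1⟩
        invFun := fun t => ⟨⟨fun i => (t.1 i : V),
            t.2.map' W.1.subtype (Submodule.ker_subtype _), by
              rw [span_range_coe_eq W.1 W.2.1 t.1 t.2]; exact W.2.2⟩,
            Subtype.ext (span_range_coe_eq W.1 W.2.1 t.1 t.2)⟩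
        left_inv := fun s => rfl
        right_inv := fun t => rfl }
  simp_rw [h1]
  rw [Finset.sum_const, Finset.card_univ, smul_eq_mul, Nat.card_eq_fintype_card]

end subcount

end Cfsg.Agent.Lib.Helper18
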