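import Mathlib
import Cfsg.Prelude.Def_LieClassical
import Cfsg.Agent.Lib.Helper18.Herm5
import Cfsg.Agent.Lib.Helper18.Quad1
import Cfsg.Agent.Lib.Helper18.SubCount

set_option linter.unusedSimpArgs false
set_option linter.unusedSectionVars false

namespace Cfsg.Agent.Lib.Helper18

open Matrix

section trace

variable {F : Type*} [Field F] {q : ℕ} {n : ℕ}
variable [Fintype F] (hF : Fintype.card F = q ^ 2)
include hF

theorem herm_card_fix : Nat.card {s : F // s ^ q = s} = q := by
  classical
  have hq := herm_q_pos hF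
  let e : F ≃ Σ s : {s : F // s ^ q = s}, {a : F // a ^ (q + 1) = s.1} :=
    { toFun := fun a => ⟨⟨a ^ (q + 1), herm_norm_fix hF a⟩, ⟨a, rfl⟩⟩
      invFun := fun p => p.2.1
      left_inv := fun a => rfl
      right_inv := fun p => by
        obtain ⟨⟨s, hs⟩, ⟨a, ha⟩⟩ := p
        simp only at ha
        subst ha
        rfl }
  have h1 := Nat.card_congr e
  have := Fintype.ofFinite {s : F // s ^ q = s}
  rw [Nat.card_sigma, Nat.card_eq_fintype_card, hF] at h1
  have h2 : ∀ s : {s : F // s ^ q = s}, Nat.card {a : F // a ^ (q + 1) = s.1}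
      = if s = ⟨0, zero_pow (by omega)⟩ then 1 else q + 1 := by
    intro s
    rw [herm_card_norm_fiber hF s.1 s.2]
    congr 1
    rw [Subtype.ext_iff]
  simp_rw [h2] at h1
  rw [Finset.sum_ite, Finset.sum_const, Finset.sum_const, Finset.filter_eq' , if_pos (Finset.mem_univ _),
    Finset.card_singleton, Finset.filter_ne', Finset.card_erase_of_mem (Finset.mem_univ _),
    Finset.card_univ, ← Nat.card_eq_fintype_card] at h1
  simp only [smul_eq_mul, mul_one] at h1
  have hpos : 0 < Nat.card {s : F // s ^ q = s} := Nat.card_pos_iff.mpr ⟨⟨⟨0, zero_pow (by omega)⟩⟩, inferInstance⟩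
  obtain ⟨k, hk⟩ : ∃ k, Nat.card {s : F // s ^ q = s} = k + 1 := ⟨_, (Nat.succ_pred_eq_of_pos hpos).symm⟩
  rw [hk] at h1 ⊢
  simp only [Nat.add_sub_cancel] at h1
  have h3 : (q - 1 + 1) = q := by omega
  have h4 : (q + 1) * (q - 1) = k * (q + 1) := by
    have : q ^ 2 = (q + 1) * (q - 1) + 1 := by
      obtain ⟨j, rfl⟩ : ∃ j, q = j + 1 := ⟨q - 1, by omega⟩
      simp only [Nat.add_sub_cancel]
      ring
    omega
  have h5 : q - 1 = k := by
    rw [mul_comm] at h4
    exact Nat.eq_of_mul_eq_mul_right (by omega) h4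
  omega

theorem herm_exists_not_fix : ∃ x : F, x ^ q ≠ x := by
  have hq := herm_q_pos hF
  by_contra hcon
  push Not at hcon
  have h1 := herm_card_fix hF
  have h2 : Nat.card {s : F // s ^ q = s} = Nat.card F :=
    Nat.card_congr (Equiv.subtypeUnivEquiv hcon)
  rw [h1, Nat.card_eq_fintype_card, hF] at h2
  nlinarith

theorem herm_trace_surj (s : F) (hs : s ^ q = s) : ∃ c : F, c + c ^ q = s := by
  have hq := herm_q_pos hF
  obtain ⟨c0, hc0⟩ : ∃ c0 : F, c0 + c0 ^ q ≠ 0 := by
    by_contra hcon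
    push Not at hcon
    have h1 := hcon 1
    rw [one_pow] at h1
    obtain ⟨x, hx⟩ := herm_exists_not_fix hF
    apply hx
    have h2 := hcon x
    have h3 : x + x = 0 := by
      have : x * (1 + 1) = 0 := by rw [h1, mul_zero]
      linear_combination this
    linear_combination h2 - h3
  have hd : (c0 + c0 ^ q) ^ q = c0 + c0 ^ q := by
    rw [herm_add_pow hF, herm_pow_pow hF, add_comm]
  refine ⟨s / (c0 + c0 ^ q) * c0, ?_⟩
  rw [mul_pow, div_pow, hs, hd]
  field_simp

theorem herm_neg_pow (x : F) : (-x) ^ q = -(x ^ q) := by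
  have hq := herm_q_pos hF
  have := herm_sub_pow hF 0 x
  rw [zero_sub, zero_pow (by omega), zero_sub] at this
  exact this

theorem herm_shift_left {u : Fin n → F} (huu : Cfsg.hermForm n F q u u = 0) (v : Fin n → F) (c : F) :
    Cfsg.hermForm n F q (v + c • u) u = Cfsg.hermForm n F q v u := by
  rw [herm_add_left, herm_smul_left, huu, mul_zero, add_zero]

theorem herm_shift_self {u : Fin n → F} (huu : Cfsg.hermForm n F q u u = 0) (v : Fin n → F) (c : F) :
    Cfsg.hermForm n F q (v + c • u) (v + c • u)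
      = Cfsg.hermForm n F q v v + c ^ q * Cfsg.hermForm n F q v u
        + c * (Cfsg.hermForm n F q v u) ^ q := by
  rw [herm_add_left, herm_add_right hF, herm_add_right hF, herm_smul_left, herm_smul_left,
    herm_smul_right, herm_smul_right, huu, herm_form_conj hF]
  ring

theorem herm_shift_val {d g : F} (hd : d ≠ 0) :
    (g / d ^ q) ^ q * d + (g / d ^ q) * d ^ q = g + g ^ q := by
  rw [div_pow, herm_pow_pow hF]
  have : d ^ q ≠ 0 := pow_ne_zero _ hd
  field_simp
  ring

theorem herm_card_nonperp_iso (u : Fin n → F) (huu : Cfsg.hermForm n F q u u = 0) :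
    q * Nat.card {v : Fin n → F // Cfsg.hermForm n F q v u ≠ 0 ∧ Cfsg.hermForm n F q v v = 0}
      = Nat.card {v : Fin n → F // Cfsg.hermForm n F q v u ≠ 0} := by
  classical
  choose γ hγ using fun s : {s : F // s ^ q = s} => herm_trace_surj hF s.1 s.2
  have e : {v : Fin n → F // Cfsg.hermForm n F q v u ≠ 0} ≃ {s : F // s ^ q = s} ×
      {v : Fin n → F // Cfsg.hermForm n F q v u ≠ 0 ∧ Cfsg.hermForm n F q v v = 0} :=
    { toFun := fun v => (⟨Cfsg.hermForm n F q v.1 v.1, herm_form_conj hF n v.1 v.1⟩,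
        ⟨v.1 + (-(γ ⟨Cfsg.hermForm n F q v.1 v.1, herm_form_conj hF n v.1 v.1⟩
            / (Cfsg.hermForm n F q v.1 u) ^ q)) • u, by
          rw [herm_shift_left hF huu]; exact v.2, by
          rw [herm_shift_self hF huu, herm_neg_pow hF]
          have h1 := herm_shift_val hF (g := γ ⟨Cfsg.hermForm n F q v.1 v.1,
            herm_form_conj hF n v.1 v.1⟩) v.2
          have h2 := hγ ⟨Cfsg.hermForm n F q v.1 v.1, herm_form_conj hF n v.1 v.1⟩
          simp only at h2
          linear_combination -h1 - h2⟩)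
      invFun := fun p => ⟨p.2.1 + (γ p.1 / (Cfsg.hermForm n F q p.2.1 u) ^ q) • u, by
          rw [herm_shift_left hF huu]; exact p.2.2.1⟩
      left_inv := fun v => by
        apply Subtype.ext
        simp only [herm_shift_left hF huu]
        rw [add_assoc, ← add_smul]
        simp
      right_inv := fun p => by
        have h1 : Cfsg.hermForm n F q (p.2.1 + (γ p.1 / (Cfsg.hermForm n F q p.2.1 u) ^ q) • u)
            (p.2.1 + (γ p.1 / (Cfsg.hermForm n F q p.2.1 u) ^ q) • u) = p.1.1 := by
          rw [herm_shift_self hF huu, p.2.2.2, zero_add, herm_shift_val hF p.2.2.1, hγ]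
        have h1' : (⟨Cfsg.hermForm n F q (p.2.1 + (γ p.1 / (Cfsg.hermForm n F q p.2.1 u) ^ q) • u)
            (p.2.1 + (γ p.1 / (Cfsg.hermForm n F q p.2.1 u) ^ q) • u), herm_form_conj hF n _ _⟩
              : {s : F // s ^ q = s}) = p.1 := Subtype.ext h1
        refine Prod.ext h1' (Subtype.ext ?_)
        simp only [h1', herm_shift_left hF huu]
        rw [add_assoc, ← add_smul]
        simp }
  have h := Nat.card_congr e
  rw [Nat.card_prod, herm_card_fix hF] at h
  exact h.symm

end trace

theorem card_subtype_and_add {α : Type*} [Finite α] (p r : α → Prop) :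
    Nat.card {a : α // p a ∧ r a} + Nat.card {a : α // ¬ p a ∧ r a} = Nat.card {a : α // r a} := by
  classical
  have := Fintype.ofFinite α
  simp only [Nat.card_eq_fintype_card, Fintype.card_subtype]
  rw [← Finset.card_filter_add_card_filter_not (s := Finset.univ.filter r) p,
    Finset.filter_filter, Finset.filter_filter]
  simp only [and_comm]

theorem card_subtype_add_not {α : Type*} [Finite α] (p : α → Prop) :
    Nat.card {a : α // p a} + Nat.card {a : α // ¬ p a} = Nat.card α := by
  classical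
  have := Fintype.ofFinite α
  simp only [Nat.card_eq_fintype_card, Fintype.card_subtype]
  rw [Finset.card_filter_add_card_filter_not, Finset.card_univ]

section iso

variable {F : Type*} [Field F] {q : ℕ} {n : ℕ}
variable [Fintype F] (hF : Fintype.card F = q ^ 2)
include hF

theorem herm_exists_ne_zero (u : Fin n → F) (hu : u ≠ 0) : ∃ v, Cfsg.hermForm n F q v u ≠ 0 := by
  classical
  obtain ⟨k, hk⟩ := Function.ne_iff.mp hu
  refine ⟨Pi.single k 1, ?_⟩
  unfold Cfsg.hermForm
  rw [Finset.sum_eq_single k]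
  · simp only [Pi.single_eq_same, one_mul]
    exact pow_ne_zero _ hk
  · intro b _ hb
    simp [Pi.single_eq_of_ne hb]
  · simp

/-- `q^2 * #(u^⊥) = q^(2n)` -/
theorem herm_card_perp (u : Fin n → F) (hu : u ≠ 0) :
    q ^ 2 * Nat.card {v : Fin n → F // Cfsg.hermForm n F q v u = 0} = q ^ (2 * n) := by
  have := card_fiber_linear (hermL q u) (herm_exists_ne_zero hF u hu) 0
  rw [hF, herm_card_vec hF] at this
  exact this

/-- number of isotropic vectors in `u^⊥` outside `⟨u⟩`, in additive form -/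
theorem herm_card_iso_perp (u : Fin n → F) (hu : u ≠ 0) (huu : Cfsg.hermForm n F q u u = 0) :
    q ^ 3 * (Nat.card {v : Fin n → F // (∀ a : F, a • u ≠ v) ∧
        (Cfsg.hermForm n F q v u = 0 ∧ Cfsg.hermForm n F q v v = 0)} + q ^ 2) + q ^ (2 * n) * q ^ 2
      = q ^ 3 * Nat.card {v : Fin n → F // Cfsg.hermForm n F q v v = 0} + q ^ (2 * n) := by
  have h1 := card_subtype_and_add (fun v : Fin n → F => Cfsg.hermForm n F q v u = 0)
    (fun v => Cfsg.hermForm n F q v v = 0)
  have h2 := herm_card_nonperp_iso hF u huu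
  have h3 := card_subtype_add_not (fun v : Fin n → F => Cfsg.hermForm n F q v u = 0)
  have h4 := herm_card_perp hF u hu
  have h5 := card_subtype_and_add (fun v : Fin n → F => ∀ a : F, a • u ≠ v)
    (fun v => Cfsg.hermForm n F q v u = 0 ∧ Cfsg.hermForm n F q v v = 0)
  have h6 : Nat.card {v : Fin n → F // ¬ (∀ a : F, a • u ≠ v) ∧
      (Cfsg.hermForm n F q v u = 0 ∧ Cfsg.hermForm n F q v v = 0)} = q ^ 2 := by
    rw [← hF, ← Nat.card_eq_fintype_card]
    apply Nat.card_congr
    symm
    refine Equiv.ofBijective (fun a => ⟨a • u, ?_, ?_, ?_⟩) ⟨?_, ?_⟩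
    · push Not
      exact ⟨a, rfl⟩
    · rw [herm_smul_left, huu, mul_zero]
    · rw [herm_smul_left, herm_smul_right, huu, mul_zero, mul_zero]
    · intro a b hab
      have : a • u = b • u := congrArg Subtype.val hab
      exact smul_left_injective F hu this
    · rintro ⟨v, hv, -⟩
      push Not at hv
      obtain ⟨a, ha⟩ := hv
      exact ⟨a, Subtype.ext ha⟩
  rw [herm_card_vec hF] at h3
  rw [h6] at h5
  simp only [ne_eq] at h2 h1 h3
  generalize Nat.card {v : Fin n → F // (∀ a : F, a • u ≠ v) ∧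
        (Cfsg.hermForm n F q v u = 0 ∧ Cfsg.hermForm n F q v v = 0)} = J at *
  generalize Nat.card {v : Fin n → F // Cfsg.hermForm n F q v v = 0} = A at *
  generalize Nat.card {v : Fin n → F // Cfsg.hermForm n F q v u = 0 ∧
    Cfsg.hermForm n F q v v = 0} = I at *
  generalize Nat.card {v : Fin n → F // ¬ Cfsg.hermForm n F q v u = 0 ∧
    Cfsg.hermForm n F q v v = 0} = X at *
  generalize Nat.card {v : Fin n → F // Cfsg.hermForm n F q v u = 0} = P at *
  generalize Nat.card {v : Fin n → F // ¬ Cfsg.hermForm n F q v u = 0} = N at *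
  generalize q ^ (2 * n) = T at *
  -- J + q^2 = I, I + X = A, q X = N, P + N = T, q^2 P = T
  subst h5
  subst h1
  subst h2
  subst h3
  nlinarith [h4]

theorem herm_ti_span_iff {k : ℕ} (s : Fin k → (Fin n → F)) :
    (∀ x ∈ Submodule.span F (Set.range s), ∀ y ∈ Submodule.span F (Set.range s),
      Cfsg.hermForm n F q x y = 0) ↔ ∀ i j, Cfsg.hermForm n F q (s i) (s j) = 0 := by
  constructor
  · intro h i j
    exact h _ (Submodule.subset_span (Set.mem_range_self i)) _
      (Submodule.subset_span (Set.mem_range_self j))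
  · intro h
    have h1 : ∀ x ∈ Submodule.span F (Set.range s), ∀ j, Cfsg.hermForm n F q x (s j) = 0 := by
      intro x hx j
      have : Submodule.span F (Set.range s) ≤ LinearMap.ker (hermL q (s j)) := by
        rw [Submodule.span_le]
        rintro _ ⟨i, rfl⟩
        exact h i j
      exact this hx
    intro x hx y hy
    apply herm_eq_zero_symm hF
    have : Submodule.span F (Set.range s) ≤ LinearMap.ker (hermL q x) := by
      rw [Submodule.span_le]
      rintro _ ⟨i, rfl⟩
      exact herm_eq_zero_symm hF (h1 x hx i)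
    exact this hy

theorem herm_card_ti2 (J0 : ℕ)
    (hJ : q ^ 3 * (J0 + q ^ 2) + q ^ (2 * n) * q ^ 2
      = q ^ 3 * Nat.card {v : Fin n → F // Cfsg.hermForm n F q v v = 0} + q ^ (2 * n)) :
    Nat.card {W : Submodule F (Fin n → F) // Module.finrank F W = 2 ∧
        ∀ u ∈ W, ∀ v ∈ W, Cfsg.hermForm n F q u v = 0}
      * ∏ i : Fin 2, ((q ^ 2) ^ 2 - (q ^ 2) ^ (i : ℕ))
      = (Nat.card {v : Fin n → F // Cfsg.hermForm n F q v v = 0} - 1) * J0 := by
  classical
  have hq := herm_q_pos hF
  have h0 := card_subspace_mul (K := F) (V := Fin n → F) 2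
    (fun W => ∀ u ∈ W, ∀ v ∈ W, Cfsg.hermForm n F q u v = 0)
  rw [hF] at h0
  rw [h0]
  let e : {s : Fin 2 → (Fin n → F) // LinearIndependent F s ∧
      ∀ u ∈ Submodule.span F (Set.range s), ∀ v ∈ Submodule.span F (Set.range s),
        Cfsg.hermForm n F q u v = 0} ≃
      Σ u : {u : Fin n → F // u ≠ 0 ∧ Cfsg.hermForm n F q u u = 0},
        {v : Fin n → F // (∀ a : F, a • u.1 ≠ v) ∧
          (Cfsg.hermForm n F q v u.1 = 0 ∧ Cfsg.hermForm n F q v v = 0)} :=
    { toFun := fun s => ⟨⟨s.1 1, (linearIndependent_fin2.mp s.2.1).1,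
          (herm_ti_span_iff hF s.1).mp s.2.2 1 1⟩,
        ⟨s.1 0, (linearIndependent_fin2.mp s.2.1).2, (herm_ti_span_iff hF s.1).mp s.2.2 0 1,
          (herm_ti_span_iff hF s.1).mp s.2.2 0 0⟩⟩
      invFun := fun p => ⟨![p.2.1, p.1.1], linearIndependent_fin2.mpr ⟨p.1.2.1, p.2.2.1⟩, by
        rw [herm_ti_span_iff hF]
        intro i j
        fin_cases i <;> fin_cases j
        · exact p.2.2.2.2
        · exact p.2.2.2.1
        · exact herm_eq_zero_symm hF p.2.2.2.1
        · exact p.1.2.2⟩
      left_inv := fun s => Subtype.ext (by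
        funext i
        fin_cases i <;> rfl)
      right_inv := fun p => rfl }
  have := Fintype.ofFinite {u : Fin n → F // u ≠ 0 ∧ Cfsg.hermForm n F q u u = 0}
  rw [Nat.card_congr e, Nat.card_sigma]
  have h1 : ∀ u : {u : Fin n → F // u ≠ 0 ∧ Cfsg.hermForm n F q u u = 0},
      Nat.card {v : Fin n → F // (∀ a : F, a • u.1 ≠ v) ∧
          (Cfsg.hermForm n F q v u.1 = 0 ∧ Cfsg.hermForm n F q v v = 0)} = J0 := by
    intro u
    have h2 := herm_card_iso_perp hF u.1 u.2.1 u.2.2
    rw [← hJ] at h2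
    have h3 := Nat.add_right_cancel h2
    have h4 := Nat.eq_of_mul_eq_mul_left (by positivity) h3
    omega
  simp_rw [h1]
  rw [Finset.sum_const, Finset.card_univ, smul_eq_mul, ← Nat.card_eq_fintype_card]
  congr 1
  have h5 := card_subtype_and_add (fun v : Fin n → F => v ≠ 0)
    (fun v => Cfsg.hermForm n F q v v = 0)
  have h6 : Nat.card {v : Fin n → F // ¬ (v ≠ 0) ∧ Cfsg.hermForm n F q v v = 0} = 1 := by
    have : Unique {v : Fin n → F // ¬ (v ≠ 0) ∧ Cfsg.hermForm n F q v v = 0} :=
      { default := ⟨0, by simp, by simp [Cfsg.hermForm]⟩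
        uniq := fun v => Subtype.ext (by simpa using v.2.1) }
    exact Nat.card_unique
  omega

end iso

end Cfsg.Agent.Lib.Helper18
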