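import Mathlib
import Cfsg.Prelude.Def_LieClassical
import Cfsg.Agent.Lib.Helper18.Quad5
import Cfsg.Agent.Lib.Helper18.Herm6

set_option linter.unusedSimpArgs false
set_option linter.unusedSectionVars false

namespace Cfsg.Agent.Lib.Helper18

section irred

variable {F : Type*} [Field F] [Fintype F]

/-- there are at most `(q^2-q)/2` monic quadratics without a root -/
theorem card_noroot_le :
    2 * Nat.card {p : F × F // ∀ r : F, r ^ 2 + p.1 * r + p.2 ≠ 0}
      + Fintype.card F * (Fintype.card F + 1) ≤ 2 * Fintype.card F ^ 2 := by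
  classical
  let f : Sym2 F → {p : F × F // ¬ ∀ r : F, r ^ 2 + p.1 * r + p.2 ≠ 0} :=
    fun x => ⟨Sym2.lift ⟨fun r s => (-(r + s), r * s), fun r s => by
      simp [add_comm, mul_comm]⟩ x, by
      induction x using Sym2.ind with
      | _ r s =>
        push Not
        refine ⟨r, ?_⟩
        simp only [Sym2.lift_mk]
        ring⟩
  have hf : Function.Injective f := by
    intro x y hxy
    have h := congrArg Subtype.val hxy
    induction x using Sym2.ind with
    | _ r s =>
      induction y using Sym2.ind with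
      | _ r' s' =>
        simp only [f, Sym2.lift_mk, Prod.mk.injEq, neg_inj] at h
        obtain ⟨h1, h2⟩ := h
        rw [Sym2.eq_iff]
        have h3 : (r' - r) * (r' - s) = 0 := by
          linear_combination (-r') * h1 + h2
        rcases mul_eq_zero.mp h3 with h4 | h4
        · left
          have : r = r' := (sub_eq_zero.mp h4).symm
          subst this
          exact ⟨rfl, add_left_cancel h1⟩
        · right
          have : s = r' := (sub_eq_zero.mp h4).symm
          subst this
          refine ⟨?_, rfl⟩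
          have : r + s = s + s' := h1
          linear_combination this
  have h1 := Nat.card_le_card_of_injective f hf
  rw [Nat.card_eq_fintype_card, Sym2.card] at h1
  have h2 := card_subtype_add_not (fun p : F × F => ∀ r : F, r ^ 2 + p.1 * r + p.2 ≠ 0)
  rw [Nat.card_prod, Nat.card_eq_fintype_card (α := F)] at h2
  have h3 : 2 * (Fintype.card F + 1).choose 2 = Fintype.card F * (Fintype.card F + 1) := by
    rw [Nat.choose_two_right, Nat.add_sub_cancel, mul_comm (Fintype.card F + 1)]
    exact Nat.two_mul_div_two_of_even (Nat.even_mul_succ_self _)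
  nlinarith [h1, h2, h3]

end irred

section base

variable {F : Type*} [Field F] [Fintype F] {V : Type*} [AddCommGroup V] [Module F V] [Finite V]
variable {Q : QuadraticForm F V} {U : Submodule F V}

theorem plane_fiber_le (hc : Nat.card U = Fintype.card F ^ 2)
    (han : ∀ u ∈ U, Q u = 0 → u = 0) (hnd : ∀ x ∈ U, x ≠ 0 → ∃ y ∈ U, Q.polarBilin x y ≠ 0)
    (z0 : V) (hz0 : z0 ∈ U) (hz00 : z0 ≠ 0) (p : F × F) :
    Nat.card {z : U // (Q.polarBilin z0 z.1, Q z.1) = p} ≤ 2 := by
  classical
  have := Fintype.ofFinite U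
  rw [Nat.card_eq_fintype_card, Fintype.card_subtype]
  by_contra hcon
  push Not at hcon
  obtain ⟨z1, h1, z2, h2, z3, h3, h12, h13, h23⟩ := Finset.two_lt_card.mp hcon
  simp only [Finset.mem_filter, Finset.mem_univ, true_and, Prod.ext_iff] at h1 h2 h3
  obtain ⟨y, hyU, hy⟩ := hnd z0 hz0 hz00
  obtain ⟨w, hw⟩ : ∃ w : V, w = z2.1 - z1.1 := ⟨_, rfl⟩
  have hwU : w ∈ U := by rw [hw]; exact U.sub_mem z2.2 z1.2
  have hw0 : w ≠ 0 := by
    rw [hw]
    intro h
    exact h12 (Subtype.ext (sub_eq_zero.mp h).symm)
  have hBw : Q.polarBilin z0 w = 0 := by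
    rw [hw, map_sub, h1.1, h2.1, sub_self]
  let g : F × F → U := fun st => ⟨st.1 • w + st.2 • y, U.add_mem (U.smul_mem _ hwU) (U.smul_mem _ hyU)⟩
  have hg : Function.Injective g := by
    intro st st' h
    have h' : st.1 • w + st.2 • y = st'.1 • w + st'.2 • y := congrArg Subtype.val h
    have e1 := congrArg (Q.polarBilin z0) h'
    simp only [map_add, map_smul, hBw, smul_eq_mul, mul_zero, zero_add] at e1
    have e2 : st.2 = st'.2 := mul_right_cancel₀ hy e1
    rw [e2] at h'
    have e3 : st.1 • w = st'.1 • w := add_right_cancel h'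
    exact Prod.ext (smul_left_injective F hw0 e3) e2
  have hgb : Function.Bijective g := by
    rw [Fintype.bijective_iff_injective_and_card]
    refine ⟨hg, ?_⟩
    rw [Fintype.card_prod, ← Nat.card_eq_fintype_card (α := U), hc, pow_two]
  obtain ⟨⟨s, t⟩, hst⟩ := hgb.2 ⟨z3.1 - z1.1, U.sub_mem z3.2 z1.2⟩
  have hst' : s • w + t • y = z3.1 - z1.1 := congrArg Subtype.val hst
  have ht : t = 0 := by
    have e1 := congrArg (Q.polarBilin z0) hst'
    simp only [map_add, map_smul, map_sub, hBw, smul_eq_mul, mul_zero, zero_add, h1.1, h3.1,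
      sub_self] at e1
    exact (mul_eq_zero.mp e1).resolve_right hy
  rw [ht, zero_smul, add_zero] at hst'
  have hQw : Q w ≠ 0 := fun h => hw0 (han w hwU h)
  have e2 : Q w + Q.polarBilin z1.1 w = 0 := by
    have : z2.1 = z1.1 + w := by rw [hw]; abel
    have h4 := h2.2
    rw [this, qB_add, h1.2] at h4
    linear_combination h4
  have e3 : s * s * Q w + s * Q.polarBilin z1.1 w = 0 := by
    have : z3.1 = z1.1 + s • w := by rw [hst']; abel
    have h4 := h3.2
    rw [this, qB_add, qB_smul, map_smul, smul_eq_mul, h1.2] at h4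
    linear_combination h4
  have e4 : s * (s - 1) * Q w = 0 := by linear_combination e3 - s * e2
  rcases mul_eq_zero.mp e4 with h5 | h5
  · rcases mul_eq_zero.mp h5 with h6 | h6
    · rw [h6, zero_smul] at hst'
      exact h13 (Subtype.ext (sub_eq_zero.mp hst'.symm).symm)
    · have : s = 1 := sub_eq_zero.mp h6
      rw [this, one_smul, hw] at hst'
      exact h23 (Subtype.ext (sub_left_injective hst'))
  · exact hQw h5

theorem plane_root_card_le (han : ∀ u ∈ U, Q u = 0 → u = 0)
    (z0 : V) (hz0 : z0 ∈ U) (hQ0 : Q z0 = 1) :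
    Nat.card {z : U // ¬ ∀ r : F, r ^ 2 + Q.polarBilin z0 z.1 * r + Q z.1 ≠ 0} ≤ Fintype.card F := by
  classical
  rw [← Nat.card_eq_fintype_card]
  have hex : ∀ z : {z : U // ¬ ∀ r : F, r ^ 2 + Q.polarBilin z0 z.1 * r + Q z.1 ≠ 0},
      ∃ r : F, r • z0 + z.1.1 = 0 := by
    intro z
    have h := z.2
    push Not at h
    obtain ⟨r, hr⟩ := h
    refine ⟨r, han _ (U.add_mem (U.smul_mem _ hz0) z.1.2) ?_⟩
    rw [qB_add, qB_smul, hQ0, map_smul, LinearMap.smul_apply, smul_eq_mul]
    linear_combination hr
  choose ρ hρ using hex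
  apply Nat.card_le_card_of_injective ρ
  intro z z' h
  apply Subtype.ext
  apply Subtype.ext
  have h1 := hρ z
  have h2 := hρ z'
  rw [h] at h1
  exact add_left_cancel (h1.trans h2.symm)

/-- in an anisotropic nondegenerate plane, a vector of norm `1` extends in exactly two ways -/
theorem plane_card_second (hc : Nat.card U = Fintype.card F ^ 2)
    (han : ∀ u ∈ U, Q u = 0 → u = 0) (hnd : ∀ x ∈ U, x ≠ 0 → ∃ y ∈ U, Q.polarBilin x y ≠ 0)
    (z0 : V) (hz0 : z0 ∈ U) (hQ0 : Q z0 = 1) (a b : F) (hab : ∀ r : F, r ^ 2 + a * r + b ≠ 0) :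
    Nat.card {z : U // (Q.polarBilin z0 z.1, Q z.1) = (a, b)} = 2 := by
  classical
  have hz00 : z0 ≠ 0 := by
    rintro rfl
    simp at hQ0
  have hq : 1 < Fintype.card F := Fintype.one_lt_card
  apply le_antisymm (plane_fiber_le hc han hnd z0 hz0 hz00 (a, b))
  have := Fintype.ofFinite U
  let Ψ : U → F × F := fun z => (Q.polarBilin z0 z.1, Q z.1)
  let I : Finset (F × F) := Finset.univ.filter (fun p => ∀ r : F, r ^ 2 + p.1 * r + p.2 ≠ 0)
  have hI : 2 * I.card + Fintype.card F * (Fintype.card F + 1) ≤ 2 * Fintype.card F ^ 2 := by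
    have := card_noroot_le (F := F)
    rwa [Nat.card_eq_fintype_card, Fintype.card_subtype] at this
  have hp0 : (a, b) ∈ I := by
    simp only [I, Finset.mem_filter, Finset.mem_univ, true_and]
    exact hab
  let A' : Finset U := Finset.univ.filter (fun z => Ψ z ∈ I ∧ Ψ z ≠ (a, b))
  let A0 : Finset U := Finset.univ.filter (fun z => Ψ z = (a, b))
  let R : Finset U := Finset.univ.filter (fun z => Ψ z ∉ I)
  have hR : R.card ≤ Fintype.card F := by
    have := plane_root_card_le (Q := Q) (U := U) han z0 hz0 hQ0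
    rw [Nat.card_eq_fintype_card, Fintype.card_subtype] at this
    refine le_trans (le_of_eq ?_) this
    congr 1
    ext z
    simp [R, I, Ψ]
  have hA' : A'.card ≤ 2 * (I.card - 1) := by
    have h1 := Finset.card_le_mul_card_image (f := Ψ) A' 2 (by
      intro p _
      have h2 := plane_fiber_le hc han hnd z0 hz0 hz00 p
      rw [Nat.card_eq_fintype_card, Fintype.card_subtype] at h2
      refine le_trans (Finset.card_le_card ?_) h2
      intro z hz
      simp only [Finset.mem_filter, Finset.mem_univ, true_and] at hz ⊢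
      exact hz.2)
    refine le_trans h1 (Nat.mul_le_mul_left 2 ?_)
    rw [← Finset.card_erase_of_mem hp0]
    apply Finset.card_le_card
    intro p hp
    obtain ⟨z, hz, rfl⟩ := Finset.mem_image.mp hp
    simp only [A', Finset.mem_filter, Finset.mem_univ, true_and] at hz
    exact Finset.mem_erase.mpr ⟨hz.2, hz.1⟩
  have htot : A'.card + A0.card + R.card = Fintype.card F ^ 2 := by
    rw [← hc, Nat.card_eq_fintype_card, ← Finset.card_univ]
    rw [← Finset.card_union_of_disjoint, ← Finset.card_union_of_disjoint]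
    · congr 1
      ext z
      simp only [A', A0, R, Finset.mem_union, Finset.mem_filter, Finset.mem_univ, true_and,
        iff_true]
      by_cases h1 : Ψ z ∈ I
      · by_cases h2 : Ψ z = (a, b)
        · exact Or.inl (Or.inr h2)
        · exact Or.inl (Or.inl ⟨h1, h2⟩)
      · exact Or.inr h1
    · rw [Finset.disjoint_left]
      intro z hz hz'
      simp only [A', A0, R, Finset.mem_union, Finset.mem_filter, Finset.mem_univ,
        true_and] at hz hz'
      rcases hz with hz | hz
      · exact hz' hz.1
      · rw [hz] at hz'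
        exact hz' hp0
    · rw [Finset.disjoint_left]
      intro z hz hz'
      simp only [A', A0, Finset.mem_filter, Finset.mem_univ, true_and] at hz hz'
      exact hz.2 hz'
  have hIpos : 1 ≤ I.card := Finset.card_pos.mpr ⟨_, hp0⟩
  rw [Nat.card_eq_fintype_card, Fintype.card_subtype]
  show 2 ≤ A0.card
  have e1 : Fintype.card F * (Fintype.card F + 1) = Fintype.card F ^ 2 + Fintype.card F := by ring
  omega

end base

end Cfsg.Agent.Lib.Helper18
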