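import Mathlib
import Cfsg.Prelude.Def_LieClassical
import Cfsg.Agent.Lib.Helper18.Quad6

set_option linter.unusedSimpArgs false
set_option linter.unusedSectionVars false

namespace Cfsg.Agent.Lib.Helper18

section conic

variable {F : Type*} [Field F] [Fintype F] (a b : F)

theorem aniso_noroot
    (hab : ∀ z₁ z₂ : F, z₁ ^ 2 + a * z₁ * z₂ + b * z₂ ^ 2 = 0 → z₁ = 0 ∧ z₂ = 0) (r : F) :
    r ^ 2 + a * r + b ≠ 0 := by
  intro h
  have := hab r 1 (by linear_combination h)
  exact one_ne_zero this.2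

theorem aniso_char_two
    (hab : ∀ z₁ z₂ : F, z₁ ^ 2 + a * z₁ * z₂ + b * z₂ ^ 2 = 0 → z₁ = 0 ∧ z₂ = 0)
    (h2 : (2 : F) = 0) : a ≠ 0 := by
  intro ha
  have hc : ringChar F = 2 := by
    have : CharP F 2 := CharTwo.of_one_ne_zero_of_two_eq_zero one_ne_zero h2
    exact ringChar.eq F 2
  obtain ⟨s, hs⟩ := FiniteField.isSquare_of_char_two hc b
  have := hab s 1 (by
    rw [ha, hs]
    have : s ^ 2 + 0 * s * 1 + s * s * 1 ^ 2 = 2 * (s * s) := by ring
    rw [this, h2, zero_mul])
  exact one_ne_zero this.2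

/-- the affine part of the conic, parametrised by the slopes of lines through `(1,0)` -/
theorem conic_card_off
    (hab : ∀ z₁ z₂ : F, z₁ ^ 2 + a * z₁ * z₂ + b * z₂ ^ 2 = 0 → z₁ = 0 ∧ z₂ = 0) :
    Nat.card {p : F × F // ¬ p.2 = 0 ∧ p.1 ^ 2 + a * p.1 * p.2 + b * p.2 ^ 2 = 1}
      = Nat.card {r : F // 2 * r + a ≠ 0} := by
  apply Nat.card_congr
  refine
    { toFun := fun p => ⟨(p.1.1 - 1) / p.1.2, ?_⟩
      invFun := fun r => ⟨(1 + r.1 * (-(2 * r.1 + a) / (r.1 ^ 2 + a * r.1 + b)),
        -(2 * r.1 + a) / (r.1 ^ 2 + a * r.1 + b)), ?_, ?_⟩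
      left_inv := ?_
      right_inv := ?_ }
  · obtain ⟨⟨x, y⟩, hy, h⟩ := p
    simp only at hy h ⊢
    intro h0
    have h1 : 2 * (x - 1) + a * y = 0 := by
      field_simp at h0
      linear_combination h0
    have h3 := hab (x - 1) y (by linear_combination h - h1)
    exact hy h3.2
  · have h1 := aniso_noroot a b hab r.1
    have h2 := r.2
    simp only
    intro h
    rcases div_eq_zero_iff.mp h with h | h
    · exact h2 (neg_eq_zero.mp h)
    · exact h1 h
  · have h1 := aniso_noroot a b hab r.1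
    simp only
    obtain ⟨l, hl⟩ : ∃ l, l = -(2 * r.1 + a) / (r.1 ^ 2 + a * r.1 + b) := ⟨_, rfl⟩
    rw [← hl]
    have hl' : l * (r.1 ^ 2 + a * r.1 + b) = -(2 * r.1 + a) := by
      rw [hl, div_mul_cancel₀ _ h1]
    linear_combination l * hl'
  · rintro ⟨⟨x, y⟩, hy, h⟩
    simp only at hy h
    have h1 := aniso_noroot a b hab ((x - 1) / y)
    have h4 : ((x - 1) / y) ^ 2 + a * ((x - 1) / y) + b = ((x - 1) ^ 2 + a * (x - 1) * y + b * y ^ 2) / y ^ 2 := by
      field_simp
    have h5 : (x - 1) ^ 2 + a * (x - 1) * y + b * y ^ 2 ≠ 0 := by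
      intro h6
      rw [h4, h6, zero_div] at h1
      exact h1 rfl
    have h6 : -(2 * ((x - 1) / y) + a) / (((x - 1) / y) ^ 2 + a * ((x - 1) / y) + b) = y := by
      rw [h4, div_eq_iff (div_ne_zero h5 (pow_ne_zero 2 hy))]
      field_simp
      linear_combination (-1 : F) * h
    apply Subtype.ext
    simp only
    rw [h6]
    ext
    · simp only
      field_simp
      ring
    · rfl
  · rintro ⟨r, hr⟩
    have h1 := aniso_noroot a b hab r
    apply Subtype.ext
    simp only
    have h3 : -(2 * r + a) ≠ 0 := neg_ne_zero.mpr hr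
    have h4 : -(2 * r + a) / (r ^ 2 + a * r + b) ≠ 0 := div_ne_zero h3 h1
    rw [add_sub_cancel_left, mul_div_assoc, div_self h4, mul_one]

theorem conic_card
    (hab : ∀ z₁ z₂ : F, z₁ ^ 2 + a * z₁ * z₂ + b * z₂ ^ 2 = 0 → z₁ = 0 ∧ z₂ = 0) :
    Nat.card {p : F × F // p.1 ^ 2 + a * p.1 * p.2 + b * p.2 ^ 2 = 1} = Fintype.card F + 1 := by
  classical
  rw [← card_subtype_and_add (fun p : F × F => p.2 = 0), conic_card_off a b hab]
  have h1 : Nat.card {p : F × F // p.2 = 0 ∧ p.1 ^ 2 + a * p.1 * p.2 + b * p.2 ^ 2 = 1}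
      = Nat.card {z : F // (fun z : F => z ^ 2) z = 1} := by
    apply Nat.card_congr
    exact
      { toFun := fun p => ⟨p.1.1, by
          have h := p.2.2
          rw [p.2.1] at h
          simpa using h⟩
        invFun := fun z => ⟨(z.1, 0), rfl, by
          have h := z.2
          simpa using h⟩
        left_inv := fun p => Subtype.ext (Prod.ext rfl p.2.1.symm)
        right_inv := fun z => rfl }
  rw [h1]
  by_cases h2 : (2 : F) = 0
  · have ha := aniso_char_two a b hab h2
    have h3 : Nat.card {r : F // 2 * r + a ≠ 0} = Fintype.card F := by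
      rw [← Nat.card_eq_fintype_card]
      apply Nat.card_congr
      exact Equiv.subtypeUnivEquiv (fun r => by rw [h2, zero_mul, zero_add]; exact ha)
    have h4 : Nat.card {z : F // (fun z : F => z ^ 2) z = 1} = 1 := by
      have : Unique {z : F // (fun z : F => z ^ 2) z = 1} :=
        { default := ⟨1, by simp⟩
          uniq := fun z => Subtype.ext (by
            have h := z.2
            simp only at h
            have h5 : (z.1 - 1) ^ 2 = 0 := by linear_combination h - z.1 * h2 + h2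
            exact sub_eq_zero.mp (pow_eq_zero_iff (two_ne_zero) |>.mp h5)) }
      exact Nat.card_unique
    rw [h3, h4, add_comm]
  · rw [card_sq_eq_one h2]
    have h3 := card_subtype_add_not (fun r : F => 2 * r + a = 0)
    have h4 : Nat.card {r : F // 2 * r + a = 0} = 1 := by
      have : Unique {r : F // 2 * r + a = 0} :=
        { default := ⟨-a / 2, by field_simp; ring⟩
          uniq := fun z => Subtype.ext (by
            have h := z.2
            show z.1 = -a / 2
            field_simp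
            linear_combination h) }
      exact Nat.card_unique
    rw [h4, Nat.card_eq_fintype_card (α := F)] at h3
    have h5 : Nat.card {r : F // 2 * r + a ≠ 0} = Nat.card {r : F // ¬ (2 * r + a = 0)} := rfl
    omega

theorem conic_card_zero
    (hab : ∀ z₁ z₂ : F, z₁ ^ 2 + a * z₁ * z₂ + b * z₂ ^ 2 = 0 → z₁ = 0 ∧ z₂ = 0) :
    Nat.card {p : F × F // p.1 ^ 2 + a * p.1 * p.2 + b * p.2 ^ 2 = 0} = 1 := by
  have : Unique {p : F × F // p.1 ^ 2 + a * p.1 * p.2 + b * p.2 ^ 2 = 0} :=
    { default := ⟨(0, 0), by simp⟩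
      uniq := fun z => Subtype.ext (Prod.ext (hab _ _ z.2).1 (hab _ _ z.2).2) }
  exact Nat.card_unique

end conic

end Cfsg.Agent.Lib.Helper18
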