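import Mathlib
import Cfsg.Prelude.Def_LieClassical
import Cfsg.Agent.Lib.Helper18.Quad7
import Cfsg.Agent.Lib.Helper15.Std

set_option linter.unusedSimpArgs false
set_option linter.unusedSectionVars false

namespace Cfsg.Agent.Lib.Helper18

open Matrix Cfsg.Agent.Lib.Helper15

section minus

variable {F : Type*} [Field F] {m : ℕ} (a b : F)

local notation "VV" => ((Fin m ⊕ Fin m) ⊕ Fin 2 → F)

theorem qMinus_polar (u v : (Fin m ⊕ Fin m) ⊕ Fin 2 → F) : (minusQ m F a b).polarBilin u v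
    = (∑ i : Fin m, (u (Sum.inl (Sum.inl i)) * v (Sum.inl (Sum.inr i))
          + u (Sum.inl (Sum.inr i)) * v (Sum.inl (Sum.inl i))))
        + (2 * u (Sum.inr 0) * v (Sum.inr 0)
          + a * (u (Sum.inr 0) * v (Sum.inr 1) + u (Sum.inr 1) * v (Sum.inr 0))
          + 2 * b * u (Sum.inr 1) * v (Sum.inr 1)) := by
  rw [QuadraticMap.polarBilin_apply_apply, coe_minusQ, polar_minus]

theorem qMinus_single (j : Fin m ⊕ Fin m) : minusQ m F a b (Pi.single (Sum.inl j) 1) = 0 := by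
  rw [minusQ_apply]
  unfold Cfsg.quadFormMinus
  rw [Finset.sum_eq_zero]
  · simp
  · intro i _
    rcases j with j | j <;> simp [Pi.single_apply]

theorem qMinus_single0 : minusQ m F a b (Pi.single (Sum.inr 0) 1) = 1 := by
  rw [minusQ_apply]
  simp [Cfsg.quadFormMinus, Pi.single_apply]

theorem qMinus_single1 : minusQ m F a b (Pi.single (Sum.inr 1) 1) = b := by
  rw [minusQ_apply]
  simp [Cfsg.quadFormMinus, Pi.single_apply]

theorem qMinus_polar_01 : (minusQ m F a b).polarBilin (Pi.single (Sum.inr 0) 1)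
    (Pi.single (Sum.inr 1) 1) = a := by
  rw [qMinus_polar]
  simp [Pi.single_apply]

theorem qMinus_polar_0 (j : Fin m ⊕ Fin m) (k : Fin 2) :
    (minusQ m F a b).polarBilin (Pi.single (Sum.inl j) 1) (Pi.single (Sum.inr k) 1) = 0 := by
  rw [qMinus_polar]
  rcases j with j | j <;> simp [Pi.single_apply]

theorem qMinus_polar_ll (i l : Fin m) : (minusQ m F a b).polarBilin
    (Pi.single (Sum.inl (Sum.inl i)) 1) (Pi.single (Sum.inl (Sum.inl l)) 1) = 0 := by
  rw [qMinus_polar]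
  simp [Pi.single_apply]

theorem qMinus_polar_rr (i l : Fin m) : (minusQ m F a b).polarBilin
    (Pi.single (Sum.inl (Sum.inr i)) 1) (Pi.single (Sum.inl (Sum.inr l)) 1) = 0 := by
  rw [qMinus_polar]
  simp [Pi.single_apply]

theorem qMinus_polar_lr (i l : Fin m) : (minusQ m F a b).polarBilin
    (Pi.single (Sum.inl (Sum.inl i)) 1) (Pi.single (Sum.inl (Sum.inr l)) 1)
      = if i = l then 1 else 0 := by
  rw [qMinus_polar]
  simp [Pi.single_apply, eq_comm]

variable [Fintype F]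

theorem qMinus_nondeg
    (hab : ∀ z₁ z₂ : F, z₁ ^ 2 + a * z₁ * z₂ + b * z₂ ^ 2 = 0 → z₁ = 0 ∧ z₂ = 0)
    (x : (Fin m ⊕ Fin m) ⊕ Fin 2 → F) (hx : x ≠ 0) :
    ∃ y, (minusQ m F a b).polarBilin x y ≠ 0 := by
  by_contra hcon
  push Not at hcon
  exact hx ((minusQ_nondegenerate m a b hab).1 x hcon)

theorem qMinus_good
    (hab : ∀ z₁ z₂ : F, z₁ ^ 2 + a * z₁ * z₂ + b * z₂ ^ 2 = 0 → z₁ = 0 ∧ z₂ = 0) :
    OGood (minusQ m F a b) (Nat.card (F × F))
    (fun t => Nat.card {z : F × F //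
      (fun p : F × F => p.1 ^ 2 + a * p.1 * p.2 + b * p.2 ^ 2) z = t})
    (⊤ : Submodule F ((Fin m ⊕ Fin m) ⊕ Fin 2 → F)) m := by
  apply oGood_top_aux (minusQ m F a b) (fun p : F × F => p.1 ^ 2 + a * p.1 * p.2 + b * p.2 ^ 2) m
    { toFun := fun v => (fun i => v (Sum.inl (Sum.inl i)), fun i => v (Sum.inl (Sum.inr i)),
        (v (Sum.inr 0), v (Sum.inr 1)))
      invFun := fun p => Sum.elim (Sum.elim p.1 p.2.1) ![p.2.2.1, p.2.2.2]
      left_inv := fun v => by
        ext ((i | i) | i)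
        · rfl
        · rfl
        · fin_cases i <;> rfl
      right_inv := fun p => rfl }
  · intro v
    rw [minusQ_apply]
    rfl
  · exact qMinus_nondeg a b hab

theorem card_gram_minus : Nat.card {c : (Fin m ⊕ Fin m) ⊕ Fin 2 → ((Fin m ⊕ Fin m) ⊕ Fin 2 → F) //
      (∀ i, minusQ m F a b (c i) = minusQ m F a b (Pi.single i 1)) ∧
      ∀ i j, (minusQ m F a b).polarBilin (c i) (c j)
        = (minusQ m F a b).polarBilin (Pi.single i 1) (Pi.single j 1)}
    = Nat.card (OFrameB (minusQ m F a b)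
        (fun z : Fin 2 → ((Fin m ⊕ Fin m) ⊕ Fin 2 → F) => minusQ m F a b (z 0) = 1 ∧
          minusQ m F a b (z 1) = b ∧ (minusQ m F a b).polarBilin (z 0) (z 1) = a)
        (⊤ : Submodule F ((Fin m ⊕ Fin m) ⊕ Fin 2 → F)) m) := by
  apply Nat.card_congr
  let e : ((Fin m ⊕ Fin m) ⊕ Fin 2 → ((Fin m ⊕ Fin m) ⊕ Fin 2 → F)) ≃
      (Fin m → ((Fin m ⊕ Fin m) ⊕ Fin 2 → F) × ((Fin m ⊕ Fin m) ⊕ Fin 2 → F))
        × (Fin 2 → ((Fin m ⊕ Fin m) ⊕ Fin 2 → F)) :=
    { toFun := fun c => (fun i => (c (Sum.inl (Sum.inl i)), c (Sum.inl (Sum.inr i))),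
        fun k => c (Sum.inr k))
      invFun := fun p => Sum.elim (Sum.elim (fun i => (p.1 i).1) (fun i => (p.1 i).2)) p.2
      left_inv := fun c => by ext ((i | i) | i) <;> rfl
      right_inv := fun p => rfl }
  refine e.subtypeEquiv (fun c => ?_)
  show _ ↔ IsOFrame (minusQ m F a b) (fun z => minusQ m F a b (z 0) = 1 ∧
          minusQ m F a b (z 1) = b ∧ (minusQ m F a b).polarBilin (z 0) (z 1) = a) ⊤
    (fun i => (c (Sum.inl (Sum.inl i)), c (Sum.inl (Sum.inr i)))) (fun k : Fin 2 => c (Sum.inr k))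
  constructor
  · rintro ⟨h1, h2⟩
    refine ⟨fun i => ⟨Submodule.mem_top, Submodule.mem_top⟩, fun j => Submodule.mem_top,
      fun i => ⟨?_, ?_⟩, fun i l => ⟨?_, ?_, ?_⟩, fun i j => ⟨?_, ?_⟩, ?_, ?_, ?_⟩
    · rw [h1, qMinus_single]
    · rw [h1, qMinus_single]
    · rw [h2, qMinus_polar_ll]
    · rw [h2, qMinus_polar_rr]
    · rw [h2, qMinus_polar_lr]
    · rw [h2, qMinus_polar_0]
    · rw [h2, qMinus_polar_0]
    · show minusQ m F a b (c (Sum.inr 0)) = 1
      rw [h1, qMinus_single0]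
    · show minusQ m F a b (c (Sum.inr 1)) = b
      rw [h1, qMinus_single1]
    · show (minusQ m F a b).polarBilin (c (Sum.inr 0)) (c (Sum.inr 1)) = a
      rw [h2, qMinus_polar_01]
  · rintro ⟨-, -, h3, h4, h5, h6, h7, h8⟩
    have hQ : ∀ i, minusQ m F a b (c i) = minusQ m F a b (Pi.single i 1) := by
      rintro ((i | i) | i)
      · rw [qMinus_single]; exact (h3 i).1
      · rw [qMinus_single]; exact (h3 i).2
      · fin_cases i
        · show minusQ m F a b (c (Sum.inr 0)) = minusQ m F a b (Pi.single (Sum.inr 0) 1)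
          rw [qMinus_single0]; exact h6
        · show minusQ m F a b (c (Sum.inr 1)) = minusQ m F a b (Pi.single (Sum.inr 1) 1)
          rw [qMinus_single1]; exact h7
    refine ⟨hQ, ?_⟩
    rintro ((i | i) | i) ((l | l) | l)
    · rw [qMinus_polar_ll]; exact (h4 i l).1
    · rw [qMinus_polar_lr]; exact (h4 i l).2.2
    · rw [qMinus_polar_0]; exact (h5 i l).1
    · rw [qB_comm, qB_comm _ (Pi.single _ _), qMinus_polar_lr]; exact (h4 l i).2.2
    · rw [qMinus_polar_rr]; exact (h4 i l).2.1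
    · rw [qMinus_polar_0]; exact (h5 i l).2
    · rw [qB_comm, qB_comm _ (Pi.single _ _), qMinus_polar_0]; exact (h5 l i).1
    · rw [qB_comm, qB_comm _ (Pi.single _ _), qMinus_polar_0]; exact (h5 l i).2
    · by_cases hil : i = l
      · subst hil
        rw [QuadraticMap.polarBilin_apply_apply, QuadraticMap.polarBilin_apply_apply,
          QuadraticMap.polar_self, QuadraticMap.polar_self, hQ]
      · have h01 : (minusQ m F a b).polarBilin (c (Sum.inr 0)) (c (Sum.inr 1))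
            = (minusQ m F a b).polarBilin (Pi.single (Sum.inr 0) 1) (Pi.single (Sum.inr 1) 1) := by
          rw [qMinus_polar_01]; exact h8
        fin_cases i <;> fin_cases l
        · exact absurd rfl hil
        · exact h01
        · show (minusQ m F a b).polarBilin (c (Sum.inr 1)) (c (Sum.inr 0))
            = (minusQ m F a b).polarBilin (Pi.single (Sum.inr 1) 1) (Pi.single (Sum.inr 0) 1)
          rw [qB_comm, qB_comm _ (Pi.single _ _)]; exact h01
        · exact absurd rfl hil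

theorem card_base_minus {V : Type*} [AddCommGroup V] [Module F V] [Finite V]
    (Q : QuadraticForm F V)
    (hab : ∀ z₁ z₂ : F, z₁ ^ 2 + a * z₁ * z₂ + b * z₂ ^ 2 = 0 → z₁ = 0 ∧ z₂ = 0)
    (U : Submodule F V) (hU : OGood Q (Nat.card (F × F))
    (fun t => Nat.card {z : F × F //
      (fun p : F × F => p.1 ^ 2 + a * p.1 * p.2 + b * p.2 ^ 2) z = t}) U 0) :
    Nat.card {z : Fin 2 → V // (∀ j, z j ∈ U) ∧ (Q (z 0) = 1 ∧ Q (z 1) = b ∧
      Q.polarBilin (z 0) (z 1) = a)} = 2 * (Fintype.card F + 1) := by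
  classical
  obtain ⟨hc, hN, hnd⟩ := hU
  have hc' : Nat.card U = Fintype.card F ^ 2 := by
    rw [hc, Nat.card_prod, Nat.card_eq_fintype_card]
    ring
  have h0 := hN 0
  have h1 := hN 1
  simp only [oSeq] at h0 h1
  rw [conic_card_zero a b hab] at h0
  rw [conic_card a b hab] at h1
  have han : ∀ u ∈ U, Q u = 0 → u = 0 := by
    intro u hu hQu
    have := Nat.card_eq_one_iff_unique.mp h0
    have h2 := this.1.elim (⟨⟨u, hu⟩, hQu⟩ : {u : U // Q u.1 = 0}) ⟨0, by simp⟩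
    exact congrArg (fun x => x.1.1) h2
  let e : {z : Fin 2 → V // (∀ j, z j ∈ U) ∧ (Q (z 0) = 1 ∧ Q (z 1) = b ∧
      Q.polarBilin (z 0) (z 1) = a)} ≃
      Σ z0 : {u : U // Q u.1 = 1}, {z : U // (Q.polarBilin z0.1.1 z.1, Q z.1) = (a, b)} :=
    { toFun := fun z => ⟨⟨⟨z.1 0, z.2.1 0⟩, z.2.2.1⟩, ⟨⟨z.1 1, z.2.1 1⟩,
        Prod.ext z.2.2.2.2 z.2.2.2.1⟩⟩
      invFun := fun p => ⟨![p.1.1.1, p.2.1.1], by
        intro j
        fin_cases j
        · exact p.1.1.2
        · exact p.2.1.2, p.1.2, (Prod.ext_iff.mp p.2.2).2, (Prod.ext_iff.mp p.2.2).1⟩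
      left_inv := fun z => Subtype.ext (by
        funext j
        fin_cases j <;> rfl)
      right_inv := fun p => rfl }
  have := Fintype.ofFinite {u : U // Q u.1 = 1}
  rw [Nat.card_congr e, Nat.card_sigma]
  have h2 : ∀ z0 : {u : U // Q u.1 = 1},
      Nat.card {z : U // (Q.polarBilin z0.1.1 z.1, Q z.1) = (a, b)} = 2 := fun z0 =>
    plane_card_second hc' han hnd z0.1.1 z0.1.2 z0.2 a b (aniso_noroot a b hab)
  simp_rw [h2]
  rw [Finset.sum_const, Finset.card_univ, ← Nat.card_eq_fintype_card, h1, smul_eq_mul, mul_comm]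

theorem card_isometry_minus
    (hab : ∀ z₁ z₂ : F, z₁ ^ 2 + a * z₁ * z₂ + b * z₂ ^ 2 = 0 → z₁ = 0 ∧ z₂ = 0) :
    Nat.card (Cfsg.isometryGroup F (Cfsg.quadFormMinus m F a b))
    = 2 * (Fintype.card F + 1) * ∏ i ∈ Finset.range m,
      ((oSeq (Fintype.card F) (Fintype.card F ^ 2) 1 (i + 1) - 1)
      * (Fintype.card F ^ (2 * i) * Fintype.card F ^ 2)) := by
  rw [card_isometryGroup_eq_gram (minusQ m F a b) (qMinus_nondeg a b hab) _
    (fun v => (minusQ_apply m a b v).symm),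
    card_gram_minus, oFrameB_card (b0 := 2 * (Fintype.card F + 1)) _ ?_ (qMinus_good a b hab)]
  · rw [conic_card_zero a b hab, Nat.card_prod, Nat.card_eq_fintype_card, pow_two]
  · intro U hU
    exact card_base_minus a b _ hab U hU

end minus

end Cfsg.Agent.Lib.Helper18
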