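import Mathlib

set_option linter.unusedSimpArgs false

namespace Cfsg.Agent.Lib.Helper18

open Matrix

variable {K : Type*} [Field K]

local notation "SL2K" => Matrix.SpecialLinearGroup (Fin 2) K

lemma det_SL2' (g : SL2K) : g 0 0 * g 1 1 - g 0 1 * g 1 0 = 1 := by
  have := g.det_coe
  rwa [Matrix.det_fin_two] at this

/-- involutions of SL2 in char ≠ 2 -/
theorem SL2_involution (h2ne : (2 : K) ≠ 0) (g : SL2K) (h1 : g ≠ 1) (h2 : g * g = 1) :
    (g : Matrix (Fin 2) (Fin 2) K) = -1 := by
  have hinv : g = g⁻¹ := eq_inv_of_mul_eq_one_left h2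
  have hdet := g.det_coe
  rw [Matrix.det_fin_two] at hdet
  have e00 : g 0 0 = g 1 1 := by
    have := congrArg (fun x : SL2K => x 0 0) hinv
    simpa [Matrix.SpecialLinearGroup.SL2_inv_expl] using this
  have e01 : g 0 1 = - g 0 1 := by
    have := congrArg (fun x : SL2K => x 0 1) hinv
    simpa [Matrix.SpecialLinearGroup.SL2_inv_expl] using this
  have e10 : g 1 0 = - g 1 0 := by
    have := congrArg (fun x : SL2K => x 1 0) hinv
    simpa [Matrix.SpecialLinearGroup.SL2_inv_expl] using this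
  have b0 : g 0 1 = 0 := by
    have : 2 * g 0 1 = 0 := by linear_combination e01
    exact (mul_eq_zero.mp this).resolve_left h2ne
  have c0 : g 1 0 = 0 := by
    have : 2 * g 1 0 = 0 := by linear_combination e10
    exact (mul_eq_zero.mp this).resolve_left h2ne
  have ha : (g 0 0 - 1) * (g 0 0 + 1) = 0 := by
    change (g 0 0) * (g 1 1) - (g 0 1) * (g 1 0) = 1 at hdet
    rw [b0, c0, ← e00] at hdet
    linear_combination hdet
  rcases mul_eq_zero.mp ha with h | h
  · exfalso
    apply h1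
    ext i j
    fin_cases i <;> fin_cases j
    · simpa using sub_eq_zero.mp h
    · simpa using b0
    · simpa using c0
    · simpa using (e00.symm.trans (sub_eq_zero.mp h))
  · have ha' : g 0 0 = -1 := eq_neg_of_add_eq_zero_left h
    ext i j
    fin_cases i <;> fin_cases j
    · simpa using ha'
    · simpa using b0
    · simpa using c0
    · simpa using (e00.symm.trans ha')

/-- an element of SL2 fixing a nonzero vector has trace 2 -/
lemma trace_eq_two_of_fix (g : SL2K) (v : Fin 2 → K) (hv : v ≠ 0)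
    (hg : (g : Matrix (Fin 2) (Fin 2) K) *ᵥ v = v) : g 0 0 + g 1 1 = 2 := by
  have hdet := det_SL2' g
  have h0 := congrFun hg 0
  have h1 := congrFun hg 1
  simp only [Matrix.mulVec, dotProduct, Fin.sum_univ_two] at h0 h1
  have hv' : v 0 ≠ 0 ∨ v 1 ≠ 0 := by
    by_contra hcon
    push Not at hcon
    apply hv
    ext i; fin_cases i
    · exact hcon.1
    · exact hcon.2
  change g 0 0 * v 0 + g 0 1 * v 1 = v 0 at h0
  change g 1 0 * v 0 + g 1 1 * v 1 = v 1 at h1
  generalize g 0 0 = a at *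
  generalize g 0 1 = b at *
  generalize g 1 0 = c at *
  generalize g 1 1 = d at *
  -- (a-1) v0 + b v1 = 0 ; c v0 + (d-1) v1 = 0 ⇒ (a-1)(d-1) - bc = 0
  have key0 : ((a - 1) * (d - 1) - b * c) * v 0 = 0 := by
    linear_combination (d - 1) * h0 - b * h1
  have key1 : ((a - 1) * (d - 1) - b * c) * v 1 = 0 := by
    linear_combination (a - 1) * h1 - c * h0
  have key : (a - 1) * (d - 1) - b * c = 0 := by
    rcases hv' with h | h
    · exact (mul_eq_zero.mp key0).resolve_right h
    · exact (mul_eq_zero.mp key1).resolve_right h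
  linear_combination hdet - key

/-- powers of a trace 2 element -/
lemma pow_of_trace_two (g : SL2K) (ht : g 0 0 + g 1 1 = 2) (n : ℕ) :
    ((g ^ n : SL2K) : Matrix (Fin 2) (Fin 2) K) =
      1 + (n : K) • ((g : Matrix (Fin 2) (Fin 2) K) - 1) := by
  have hdet := det_SL2' g
  have hsq : ((g : Matrix (Fin 2) (Fin 2) K) - 1) * ((g : Matrix (Fin 2) (Fin 2) K) - 1) = 0 := by
    ext i j
    fin_cases i <;> fin_cases j <;>
      simp [Matrix.mul_apply, Fin.sum_univ_two]
    · linear_combination (g 0 0) * ht - hdet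
    · linear_combination (g 0 1) * ht
    · linear_combination (g 1 0) * ht
    · linear_combination (g 1 1) * ht - hdet
  induction n with
  | zero => simp
  | succ n ih =>
    rw [pow_succ, Matrix.SpecialLinearGroup.coe_mul, ih]
    set N := (g : Matrix (Fin 2) (Fin 2) K) - 1 with hN
    have hg : (g : Matrix (Fin 2) (Fin 2) K) = 1 + N := by rw [hN]; abel
    rw [hg, mul_add, mul_one, add_mul, one_mul, Matrix.smul_mul, hsq, smul_zero, add_zero]
    push_cast
    rw [add_smul, one_smul]
    abel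

/-- (FV) -/
theorem eq_one_of_fix (g : SL2K) (v : Fin 2 → K) (hv : v ≠ 0)
    (hg : (g : Matrix (Fin 2) (Fin 2) K) *ᵥ v = v) (m : ℕ) (hm : (m : K) ≠ 0) (hgm : g ^ m = 1) :
    g = 1 := by
  have h1 := pow_of_trace_two g (trace_eq_two_of_fix g v hv hg) m
  rw [hgm] at h1
  have h2 : (m : K) • ((g : Matrix (Fin 2) (Fin 2) K) - 1) = 0 := by
    have : (1 : Matrix (Fin 2) (Fin 2) K) = 1 + (m : K) • ((g : Matrix (Fin 2) (Fin 2) K) - 1) := by
      simpa using h1
    exact (left_eq_add.mp this)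
  have h3 := (smul_eq_zero.mp h2).resolve_left hm
  apply Subtype.ext
  simpa using sub_eq_zero.mp h3

/-- parallel vectors -/
lemma exists_smul_of_det_zero (v w : Fin 2 → K) (hv : v ≠ 0) (hD : v 0 * w 1 - v 1 * w 0 = 0) :
    ∃ μ : K, w = μ • v := by
  by_cases h0 : v 0 = 0
  · have h1 : v 1 ≠ 0 := by
      intro h1; apply hv; ext i; fin_cases i
      · exact h0
      · exact h1
    refine ⟨w 1 / v 1, ?_⟩
    ext i; fin_cases i
    · simp [h0]
      rw [h0] at hD
      have : v 1 * w 0 = 0 := by linear_combination -hD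
      exact (mul_eq_zero.mp this).resolve_left h1
    · simp; field_simp
  · refine ⟨w 0 / v 0, ?_⟩
    ext i; fin_cases i
    · simp; field_simp
    · simp; field_simp; linear_combination hD

/-- two eigenvectors for the same eigenvalue `λ`, `λ² ≠ 1`, are parallel -/
lemma det_zero_of_eigen (a : SL2K) (v w : Fin 2 → K) (l : K) (hl : l ^ 2 ≠ 1)
    (hav : (a : Matrix (Fin 2) (Fin 2) K) *ᵥ v = l • v)
    (haw : (a : Matrix (Fin 2) (Fin 2) K) *ᵥ w = l • w) : v 0 * w 1 - v 1 * w 0 = 0 := by
  have hdet := det_SL2' a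
  have v0 := congrFun hav 0
  have v1 := congrFun hav 1
  have w0 := congrFun haw 0
  have w1 := congrFun haw 1
  simp only [Matrix.mulVec, dotProduct, Fin.sum_univ_two, Pi.smul_apply, smul_eq_mul] at v0 v1 w0 w1
  change a 0 0 * v 0 + a 0 1 * v 1 = l * v 0 at v0
  change a 1 0 * v 0 + a 1 1 * v 1 = l * v 1 at v1
  change a 0 0 * w 0 + a 0 1 * w 1 = l * w 0 at w0
  change a 1 0 * w 0 + a 1 1 * w 1 = l * w 1 at w1
  generalize a 0 0 = p at *
  generalize a 0 1 = q at *
  generalize a 1 0 = r at *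
  generalize a 1 1 = s at *
  -- det(a) D = l^2 D
  have key : (l ^ 2 - 1) * (v 0 * w 1 - v 1 * w 0) = 0 := by
    have e : (p * v 0 + q * v 1) * (r * w 0 + s * w 1) - (r * v 0 + s * v 1) * (p * w 0 + q * w 1)
        = (p * s - q * r) * (v 0 * w 1 - v 1 * w 0) := by ring
    rw [v0, v1, w0, w1, hdet] at e
    linear_combination e
  exact (mul_eq_zero.mp key).resolve_left (sub_ne_zero.mpr hl)

/-- χ-lemma -/
theorem exists_eigen_of_commute (a g : SL2K) (v : Fin 2 → K) (hv : v ≠ 0) (l : K) (hl : l ^ 2 ≠ 1)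
    (hav : (a : Matrix (Fin 2) (Fin 2) K) *ᵥ v = l • v) (hc : g * a = a * g) :
    ∃ μ : K, (g : Matrix (Fin 2) (Fin 2) K) *ᵥ v = μ • v := by
  apply exists_smul_of_det_zero v _ hv
  apply det_zero_of_eigen a v _ l hl hav
  rw [Matrix.mulVec_mulVec, ← Matrix.SpecialLinearGroup.coe_mul, ← hc,
    Matrix.SpecialLinearGroup.coe_mul, ← Matrix.mulVec_mulVec, hav, Matrix.mulVec_smul]

end Cfsg.Agent.Lib.Helper18
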