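import Mathlib
import Cfsg.Agent.Lib.Helper18.SL2Torus

set_option linter.unusedSimpArgs false

namespace Cfsg.Agent.Lib.Helper18

open Matrix

variable {K : Type*} [Field K]

local notation "SL2K" => Matrix.SpecialLinearGroup (Fin 2) K

theorem isCyclic_of_common_eigenvector {C : Type*} [Group C] [Finite C] (ρ : C →* SL2K)
    (hρ : Function.Injective ρ) (hcard : (Nat.card C : K) ≠ 0) (v : Fin 2 → K) (hv : v ≠ 0)
    (h : ∀ g : C, ∃ μ : K, (ρ g : Matrix (Fin 2) (Fin 2) K) *ᵥ v = μ • v) : IsCyclic C := by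
  choose μ hμ using h
  have huniq : ∀ x y : K, x • v = y • v → x = y := fun x y hxy => smul_left_injective K hv hxy
  let f : C →* K :=
    { toFun := μ
      map_one' := by
        apply huniq
        rw [← hμ 1]; simp
      map_mul' := by
        intro g h
        apply huniq
        rw [← hμ (g * h), map_mul, Matrix.SpecialLinearGroup.coe_mul, ← Matrix.mulVec_mulVec, hμ h,
          Matrix.mulVec_smul, hμ g, smul_smul, mul_comm] }
  apply isCyclic_of_injective_ringHom f
  intro g h hgh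
  have h1 : f g * f (g⁻¹ * h) = f g := by rw [← map_mul, mul_inv_cancel_left, hgh]
  have hne : f g ≠ 0 := by
    intro h0
    have : f g * f g⁻¹ = 1 := by rw [← map_mul, mul_inv_cancel, map_one]
    rw [h0, zero_mul] at this
    exact zero_ne_one this
  have h2 : f (g⁻¹ * h) = 1 := by
    have := mul_left_cancel₀ hne (h1.trans (mul_one _).symm)
    exact this
  have h3 : ρ (g⁻¹ * h) = 1 := by
    apply eq_one_of_fix _ v hv _ (Nat.card C) hcard
    · rw [← map_pow, pow_card_eq_one', map_one]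
    · have := hμ (g⁻¹ * h)
      rw [show μ (g⁻¹ * h) = 1 from h2, one_smul] at this
      exact this
  have h4 : g⁻¹ * h = 1 := hρ (by rw [h3, map_one])
  exact (inv_mul_eq_one.mp h4)

lemma exists_eigenvector [IsAlgClosed K] (a : SL2K) :
    ∃ (l : K) (v : Fin 2 → K), v ≠ 0 ∧ (a : Matrix (Fin 2) (Fin 2) K) *ᵥ v = l • v := by
  obtain ⟨l, hl⟩ := Module.End.exists_eigenvalue (Matrix.toLin' (a : Matrix (Fin 2) (Fin 2) K))
  obtain ⟨v, hv⟩ := hl.exists_hasEigenvector
  exact ⟨l, v, hv.2, by simpa using hv.apply_eq_smul⟩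

/-- eigenvalue of an element of order prime to the characteristic with `l^2 = 1` forces `a^2 = 1` -/
lemma sq_eq_one_of_eigen {P : Type*} [Group P] [Finite P] (ρ : P →* SL2K)
    (hρ : Function.Injective ρ) (hcard : (Nat.card P : K) ≠ 0) (a : P) (v : Fin 2 → K) (hv : v ≠ 0)
    (l : K) (hav : (ρ a : Matrix (Fin 2) (Fin 2) K) *ᵥ v = l • v) (hl : l ^ 2 = 1) : a ^ 2 = 1 := by
  apply hρ
  rw [map_one]
  apply eq_one_of_fix _ v hv _ (Nat.card P) hcard
  · rw [← map_pow, pow_card_eq_one', map_one]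
  · rw [map_pow, pow_two, Matrix.SpecialLinearGroup.coe_mul, ← Matrix.mulVec_mulVec, hav,
      Matrix.mulVec_smul, hav, smul_smul, ← pow_two, hl, one_smul]

theorem isCyclic_of_odd_pgroup [IsAlgClosed K] {P : Type*} [Group P] [Finite P] (r : ℕ)
    [Fact r.Prime] (hr2 : r ≠ 2) (hrK : (r : K) ≠ 0) (hP : IsPGroup r P) (ρ : P →* SL2K)
    (hρ : Function.Injective ρ) : IsCyclic P := by
  have hr := Fact.out (p := r.Prime)
  obtain ⟨k, hk⟩ := IsPGroup.iff_card.mp hP
  have hcard : (Nat.card P : K) ≠ 0 := by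
    rw [hk]; push_cast; exact pow_ne_zero _ hrK
  rcases subsingleton_or_nontrivial P with hs | hn
  · exact isCyclic_of_subsingleton
  have hcn : Nontrivial (Subgroup.center P) := hP.center_nontrivial
  obtain ⟨z, hz⟩ := exists_ne (1 : Subgroup.center P)
  obtain ⟨l, v, hv, hav⟩ := exists_eigenvector (ρ (z : P))
  have hl : l ^ 2 ≠ 1 := by
    intro hl
    have h2 := sq_eq_one_of_eigen ρ hρ hcard (z : P) v hv l hav hl
    have h3 : (z : P) ^ (r ^ k) = 1 := by rw [← hk]; exact pow_card_eq_one'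
    have hcop : Nat.Coprime 2 (r ^ k) := by
      apply Nat.Coprime.pow_right
      exact (Nat.coprime_primes Nat.prime_two hr).mpr (Ne.symm hr2)
    have h4 : orderOf (z : P) ∣ Nat.gcd 2 (r ^ k) :=
      Nat.dvd_gcd (orderOf_dvd_of_pow_eq_one h2) (orderOf_dvd_of_pow_eq_one h3)
    rw [hcop.gcd_eq_one, Nat.dvd_one, orderOf_eq_one_iff] at h4
    apply hz
    exact Subtype.ext h4
  apply isCyclic_of_common_eigenvector ρ hρ hcard v hv
  intro g
  apply exists_eigen_of_commute (ρ (z : P)) (ρ g) v hv l hl hav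
  rw [← map_mul, ← map_mul]
  congr 1
  exact (Subgroup.mem_center_iff.mp z.2 g)

end Cfsg.Agent.Lib.Helper18
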