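import Mathlib
import Cfsg.Agent.Lib.Helper18.SL2Cyc
import Cfsg.Agent.Lib.Helper18.Quat

set_option linter.unusedSimpArgs false

namespace Cfsg.Agent.Lib.Helper18

open Matrix

variable {K : Type*} [Field K]

local notation "SL2K" => Matrix.SpecialLinearGroup (Fin 2) K

lemma det_eigen_mul (g : SL2K) (v w : Fin 2 → K) (m m' : K)
    (hv : (g : Matrix (Fin 2) (Fin 2) K) *ᵥ v = m • v)
    (hw : (g : Matrix (Fin 2) (Fin 2) K) *ᵥ w = m' • w) :
    (m * m' - 1) * (v 0 * w 1 - v 1 * w 0) = 0 := by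
  have hdet := det_SL2' g
  have v0 := congrFun hv 0
  have v1 := congrFun hv 1
  have w0 := congrFun hw 0
  have w1 := congrFun hw 1
  simp only [Matrix.mulVec, dotProduct, Fin.sum_univ_two, Pi.smul_apply, smul_eq_mul] at v0 v1 w0 w1
  change g 0 0 * v 0 + g 0 1 * v 1 = m * v 0 at v0
  change g 1 0 * v 0 + g 1 1 * v 1 = m * v 1 at v1
  change g 0 0 * w 0 + g 0 1 * w 1 = m' * w 0 at w0
  change g 1 0 * w 0 + g 1 1 * w 1 = m' * w 1 at w1
  generalize g 0 0 = p at *
  generalize g 0 1 = q at *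
  generalize g 1 0 = r at *
  generalize g 1 1 = s at *
  have e : (p * v 0 + q * v 1) * (r * w 0 + s * w 1) - (r * v 0 + s * v 1) * (p * w 0 + q * w 1)
      = (p * s - q * r) * (v 0 * w 1 - v 1 * w 0) := by ring
  rw [v0, v1, w0, w1, hdet] at e
  linear_combination e

lemma det_ne_zero_of_eigen_ne (a : SL2K) (v w : Fin 2 → K) (l l' : K) (hll : l ≠ l')
    (hv0 : v ≠ 0) (hw0 : w ≠ 0)
    (hv : (a : Matrix (Fin 2) (Fin 2) K) *ᵥ v = l • v)
    (hw : (a : Matrix (Fin 2) (Fin 2) K) *ᵥ w = l' • w) : v 0 * w 1 - v 1 * w 0 ≠ 0 := by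
  intro hD
  obtain ⟨κ, hκ⟩ := exists_smul_of_det_zero v w hv0 hD
  apply hll
  have h1 : l • w = l' • w := by
    rw [← hw, hκ, Matrix.mulVec_smul, hv, smul_comm]
  exact smul_left_injective K hw0 h1

theorem cyclic_or_quaternion [IsAlgClosed K] (h2 : (2 : K) ≠ 0) {P : Type*} [Group P] [Finite P]
    (hP : IsPGroup 2 P) (ρ : P →* SL2K) (hρ : Function.Injective ρ) :
    IsCyclic P ∨ ∃ k : ℕ, 1 ≤ k ∧ Nonempty (P ≃* QuaternionGroup (2 ^ k)) := by
  have : Fact (Nat.Prime 2) := ⟨Nat.prime_two⟩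
  by_cases hcyc : IsCyclic P
  · exact Or.inl hcyc
  right
  obtain ⟨s, hs⟩ := IsPGroup.iff_card.mp hP
  have hcardK : ∀ j : ℕ, ((2 ^ j : ℕ) : K) ≠ 0 := by
    intro j; push_cast; exact pow_ne_zero _ h2
  have hcard : (Nat.card P : K) ≠ 0 := by rw [hs]; exact hcardK s
  have hnt : Nontrivial P := by
    by_contra hcon
    rw [not_nontrivial_iff_subsingleton] at hcon
    exact hcyc isCyclic_of_subsingleton
  have hs0 : s ≠ 0 := by
    rintro rfl
    have : Nat.card P = 1 := by simpa using hs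
    rw [Nat.card_eq_one_iff_unique] at this
    exact not_subsingleton P this.1
  obtain ⟨z, hz⟩ := exists_prime_orderOf_dvd_card' (G := P) 2 (by rw [hs]; exact dvd_pow_self 2 hs0)
  have hz1 : z ≠ 1 := by
    rintro rfl; simp at hz
  have hzz : z * z = 1 := by rw [← pow_two, ← hz]; exact pow_orderOf_eq_one z
  have hρne : ∀ t : P, t ≠ 1 → ρ t ≠ 1 := fun t ht h => ht (hρ (by rw [h, map_one]))
  have hneg : ∀ t : P, t ≠ 1 → t * t = 1 → (ρ t : Matrix (Fin 2) (Fin 2) K) = -1 := by
    intro t ht htt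
    exact SL2_involution h2 (ρ t) (hρne t ht) (by rw [← map_mul, htt, map_one])
  have hinv : ∀ t : P, t ≠ 1 → t * t = 1 → t = z := by
    intro t ht htt
    apply hρ
    apply Subtype.ext
    rw [hneg t ht htt, hneg z hz1 hzz]
  have hzc : ∀ g : P, g * z = z * g := by
    intro g
    apply hρ
    apply Subtype.ext
    rw [map_mul, map_mul, Matrix.SpecialLinearGroup.coe_mul, Matrix.SpecialLinearGroup.coe_mul,
      hneg z hz1 hzz]
    simp
  have hZmem : ∀ t : P, t ∈ Subgroup.zpowers z ↔ t = 1 ∨ t = z := by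
    intro t
    constructor
    · rintro ⟨k, rfl⟩
      rcases Int.even_or_odd' k with ⟨m, rfl | rfl⟩
      · left
        show z ^ (2 * m) = 1
        rw [_root_.zpow_mul, zpow_ofNat, pow_two, hzz, _root_.one_zpow]
      · right
        show z ^ (2 * m + 1) = z
        rw [_root_.zpow_add, _root_.zpow_mul, zpow_ofNat, pow_two, hzz, _root_.one_zpow, one_mul, zpow_one]
    · rintro (h | h)
      · rw [h]; exact one_mem _
      · rw [h]; exact Subgroup.mem_zpowers z
  have hZn : (Subgroup.zpowers z).Normal := by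
    constructor
    intro t ht g
    rcases (hZmem t).mp ht with h | h
    · rw [h]; simp
    · rw [h, hzc g, mul_assoc, mul_inv_cancel, mul_one]; exact Subgroup.mem_zpowers z
  have hQnt : Nontrivial (P ⧸ Subgroup.zpowers z) := by
    by_contra hcon
    rw [not_nontrivial_iff_subsingleton] at hcon
    apply hcyc
    refine ⟨z, fun g => ?_⟩
    have : (QuotientGroup.mk g : P ⧸ Subgroup.zpowers z) = 1 := Subsingleton.elim _ _
    exact (QuotientGroup.eq_one_iff g).mp this
  have hQc : Nontrivial (Subgroup.center (P ⧸ Subgroup.zpowers z)) :=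
    (hP.to_quotient (Subgroup.zpowers z)).center_nontrivial
  obtain ⟨abar, habar⟩ := exists_ne (1 : Subgroup.center (P ⧸ Subgroup.zpowers z))
  obtain ⟨a, ha⟩ := QuotientGroup.mk_surjective (abar : P ⧸ Subgroup.zpowers z)
  have haZ : a ∉ Subgroup.zpowers z := by
    intro h
    apply habar
    apply Subtype.ext
    rw [← ha]
    exact (QuotientGroup.eq_one_iff a).mpr h
  have hcomm : ∀ g : P, g * a = a * g ∨ g * a = z * a * g := by
    intro g
    have h1 := Subgroup.mem_center_iff.mp abar.2 (QuotientGroup.mk g)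
    rw [← ha, ← QuotientGroup.mk_mul, ← QuotientGroup.mk_mul, QuotientGroup.eq] at h1
    rcases (hZmem _).mp h1 with h | h
    · left
      exact (inv_mul_eq_one.mp h)
    · right
      have : a * g = g * a * z := by rw [← h]; group
      rw [mul_assoc, this, ← mul_assoc, ← hzc, mul_assoc, mul_assoc, hzz, mul_one]
  obtain ⟨l, v, hv, hav⟩ := exists_eigenvector (ρ a)
  have hl : l ^ 2 ≠ 1 := by
    intro hl
    have h2' := sq_eq_one_of_eigen ρ hρ hcard a v hv l hav hl
    rw [pow_two] at h2'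
    apply haZ
    by_cases ha1 : a = 1
    · rw [ha1]; exact one_mem _
    · rw [hinv a ha1 h2']; exact Subgroup.mem_zpowers z
  set C := Subgroup.centralizer ({a} : Set P) with hC
  have hCmem : ∀ g : P, g ∈ C ↔ g * a = a * g := by
    intro g; rw [hC, Subgroup.mem_centralizer_singleton_iff]
  have hCeig : ∀ g ∈ C, ∃ μ : K, (ρ g : Matrix (Fin 2) (Fin 2) K) *ᵥ v = μ • v := fun g hg =>
    exists_eigen_of_commute (ρ a) (ρ g) v hv l hl hav (by rw [← map_mul, ← map_mul, (hCmem g).mp hg])
  obtain ⟨j, hj⟩ := IsPGroup.iff_card.mp (hP.to_subgroup C)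
  have hCcyc : IsCyclic C := by
    apply isCyclic_of_common_eigenvector (ρ.comp C.subtype) (hρ.comp C.subtype_injective)
      (by rw [hj]; exact hcardK j) v hv
    intro g; exact hCeig g g.2
  have hCtop : C ≠ ⊤ := by
    intro ht
    apply hcyc
    have e : C ≃* P := (MulEquiv.subgroupCongr ht).trans Subgroup.topEquiv
    exact isCyclic_of_surjective e e.surjective
  obtain ⟨x, hxC⟩ : ∃ x, x ∉ C := by
    by_contra hcon
    push Not at hcon
    exact hCtop (eq_top_iff.mpr fun g _ => hcon g)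
  have hxa : x * a = z * a * x := (hcomm x).resolve_left (fun h => hxC ((hCmem x).mpr h))
  have hidx : C.index = 2 := by
    rw [Subgroup.index_eq_two_iff]
    refine ⟨x, fun b => ?_⟩
    by_cases hb : b ∈ C
    · right
      refine ⟨hb, fun hbx => hxC ?_⟩
      have := C.mul_mem (C.inv_mem hb) hbx
      simpa using this
    · left
      refine ⟨?_, hb⟩
      have hba := (hcomm b).resolve_left (fun h => hb ((hCmem b).mpr h))
      rw [hCmem]
      calc b * x * a = b * (x * a) := by group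
        _ = b * (z * a * x) := by rw [hxa]
        _ = (b * z) * a * x := by group
        _ = (z * b) * a * x := by rw [hzc b]
        _ = z * (b * a) * x := by group
        _ = z * (z * a * b) * x := by rw [hba]
        _ = (z * z) * a * b * x := by group
        _ = a * (b * x) := by rw [hzz]; group
  have hcardP : Nat.card P = 2 * Nat.card C := by
    rw [← hidx, mul_comm]; exact (Subgroup.card_mul_index C).symm
  have hzC : z ∈ C := (hCmem z).mpr (hzc a).symm
  have haC : a ∈ C := (hCmem a).mpr rfl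
  have hj2 : 2 ≤ j := by
    by_contra hcon
    have hle : Subgroup.zpowers z ≤ C := by rw [Subgroup.zpowers_le]; exact hzC
    have hcz : Nat.card (Subgroup.zpowers z) = 2 := by rw [Nat.card_zpowers, hz]
    have : Subgroup.zpowers z = C := Subgroup.eq_of_le_of_card_ge hle (by
      rw [hcz, hj]
      have : j ≤ 1 := by omega
      calc 2 ^ j ≤ 2 ^ 1 := Nat.pow_le_pow_right (by norm_num) this
        _ = 2 := by norm_num)
    exact haZ (this ▸ haC)
  obtain ⟨k, rfl⟩ : ∃ k, j = k + 1 := ⟨j - 1, by omega⟩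
  have hk : 1 ≤ k := by omega
  obtain ⟨c, hc⟩ := IsCyclic.exists_generator (α := C)
  have hordc : orderOf (c : P) = 2 * 2 ^ k := by
    rw [Subgroup.orderOf_coe, orderOf_eq_card_of_forall_mem_zpowers hc, hj, pow_succ, mul_comm]
  set w : Fin 2 → K := (ρ x⁻¹ : Matrix (Fin 2) (Fin 2) K) *ᵥ v with hw
  have hxw : (ρ x : Matrix (Fin 2) (Fin 2) K) *ᵥ w = v := by
    rw [hw, Matrix.mulVec_mulVec, ← Matrix.SpecialLinearGroup.coe_mul, ← map_mul, mul_inv_cancel,
      map_one]
    simp
  have hw0 : w ≠ 0 := by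
    intro h0; rw [h0, Matrix.mulVec_zero] at hxw; exact hv hxw.symm
  have haw : (ρ a : Matrix (Fin 2) (Fin 2) K) *ᵥ w = (-l) • w := by
    have e1 : a * x⁻¹ = x⁻¹ * z * a := by
      calc a * x⁻¹ = x⁻¹ * (x * a) * x⁻¹ := by group
        _ = x⁻¹ * (z * a * x) * x⁻¹ := by rw [hxa]
        _ = x⁻¹ * z * a := by group
    rw [hw, Matrix.mulVec_mulVec, ← Matrix.SpecialLinearGroup.coe_mul, ← map_mul, e1, map_mul,
      map_mul, Matrix.SpecialLinearGroup.coe_mul, Matrix.SpecialLinearGroup.coe_mul,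
      hneg z hz1 hzz, ← Matrix.mulVec_mulVec, hav, mul_neg, mul_one, Matrix.neg_mulVec,
      Matrix.mulVec_smul, neg_smul]
  have hlne : l ≠ -l := by
    intro h
    have h3 : 2 * l = 0 := by linear_combination h
    have hl0 : l = 0 := (mul_eq_zero.mp h3).resolve_left h2
    rw [hl0, zero_smul] at hav
    have : v = (ρ a⁻¹ : Matrix (Fin 2) (Fin 2) K) *ᵥ ((ρ a : Matrix (Fin 2) (Fin 2) K) *ᵥ v) := by
      rw [Matrix.mulVec_mulVec, ← Matrix.SpecialLinearGroup.coe_mul, ← map_mul, inv_mul_cancel,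
        map_one]
      simp
    rw [hav, Matrix.mulVec_zero] at this
    exact hv this
  have hD := det_ne_zero_of_eigen_ne (ρ a) v w l (-l) hlne hv hw0 hav haw
  have hinvC : ∀ g ∈ C, x * g * x⁻¹ = g⁻¹ := by
    intro g hg
    obtain ⟨μ, hμ⟩ := hCeig g hg
    obtain ⟨μ', hμ'⟩ := exists_eigen_of_commute (ρ a) (ρ g) w hw0 (-l) (by rwa [neg_sq]) haw
      (by rw [← map_mul, ← map_mul, (hCmem g).mp hg])
    have hmm : μ * μ' = 1 := by
      have := det_eigen_mul (ρ g) v w μ μ' hμ hμ'
      exact sub_eq_zero.mp ((mul_eq_zero.mp this).resolve_right hD)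
    have hfix : ρ (g * (x * g * x⁻¹)) = 1 := by
      apply eq_one_of_fix _ v hv _ (Nat.card P) hcard
      · rw [← map_pow, pow_card_eq_one', map_one]
      · simp only [map_mul, Matrix.SpecialLinearGroup.coe_mul, ← Matrix.mulVec_mulVec]
        rw [← hw, hμ', Matrix.mulVec_smul, hxw, Matrix.mulVec_smul, hμ, smul_smul, mul_comm, hmm,
          one_smul]
    have := hρ (hfix.trans (map_one ρ).symm)
    exact eq_inv_of_mul_eq_one_right this
  have hx2C : x * x ∈ C := by
    rw [hCmem]
    calc x * x * a = x * (x * a) := by group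
      _ = x * (z * a * x) := by rw [hxa]
      _ = (x * z) * a * x := by group
      _ = (z * x) * a * x := by rw [hzc x]
      _ = z * (x * a) * x := by group
      _ = z * (z * a * x) * x := by rw [hxa]
      _ = (z * z) * a * x * x := by group
      _ = a * (x * x) := by rw [hzz]; group
  have hx4 : (x * x) * (x * x) = 1 := by
    have := hinvC (x * x) hx2C
    have e : x * (x * x) * x⁻¹ = x * x := by group
    rw [e] at this
    exact mul_eq_one_iff_eq_inv.mpr this
  have hx2ne : x * x ≠ 1 := by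
    intro h
    by_cases hx1 : x = 1
    · exact hxC (hx1 ▸ C.one_mem)
    · exact hxC ((hinv x hx1 h) ▸ hzC)
  have hx2z : x * x = z := hinv _ hx2ne hx4
  have hcn : (c : P) ^ (2 ^ k) = z := by
    apply hinv
    · apply pow_ne_one_of_lt_orderOf (by positivity)
      rw [hordc]
      have : 0 < 2 ^ k := by positivity
      omega
    · rw [← pow_add, ← two_mul, ← hordc]; exact pow_orderOf_eq_one _
  refine ⟨k, hk, ?_⟩
  have : NeZero (2 ^ k) := ⟨by positivity⟩
  apply mulEquiv_quaternion (2 ^ k) (c : P) x hordc ?_ (by rw [pow_two, hx2z, hcn]) (hinvC c c.2)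
    (by rw [hcardP, hj]; ring)
  intro hmem
  apply hxC
  have : Subgroup.zpowers (c : P) ≤ C := by rw [Subgroup.zpowers_le]; exact c.2
  exact this hmem

end Cfsg.Agent.Lib.Helper18
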