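import Mathlib
import Cfsg.Agent.Lib.Helper18.Coset

namespace Cfsg.Agent.Lib.Helper18

/-- Coset enumeration bound without a generation hypothesis. -/
theorem card_closure_le {G : Type*} [Group G] (H : Subgroup G) [Finite H] (S : Set G) (n : ℕ)
    (c : Fin (n + 1) → G ⧸ H) (h0 : c 0 = QuotientGroup.mk 1)
    (hcl : ∀ s ∈ S, ∀ i, ∃ j, s • c i = c j) :
    Finite (Subgroup.closure S) ∧ Nat.card (Subgroup.closure S) ≤ (n + 1) * Nat.card H := by
  classical
  set T : Set (G ⧸ H) := Set.range c with hT
  have hTfin : T.Finite := Set.finite_range c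
  have hmaps : ∀ s ∈ S, ∀ x ∈ T, s • x ∈ T := by
    rintro s hs _ ⟨i, rfl⟩
    obtain ⟨j, hj⟩ := hcl s hs i
    exact ⟨j, hj.symm⟩
  have hsurjOn : ∀ a : G, (∀ x ∈ T, a • x ∈ T) → ∀ x ∈ T, ∃ y ∈ T, a • y = x := by
    intro a ha x hx
    have : Finite T := hTfin
    let f : T → T := fun y => ⟨a • y.1, ha y.1 y.2⟩
    have hf : Function.Injective f := by
      intro y y' h
      have := congrArg Subtype.val h
      exact Subtype.ext (MulAction.injective a this)
    obtain ⟨y, hy⟩ := (Finite.injective_iff_surjective.mp hf) ⟨x, hx⟩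
    exact ⟨y.1, y.2, congrArg Subtype.val hy⟩
  have hall : ∀ g ∈ Subgroup.closure S, ∀ x ∈ T, g • x ∈ T := by
    intro g hg
    induction hg using Subgroup.closure_induction with
    | mem s hs => exact fun x hx => hmaps s hs x hx
    | one => intro x hx; simpa using hx
    | mul a b _ _ iha ihb => intro x hx; rw [mul_smul]; exact iha _ (ihb _ hx)
    | inv a _ iha =>
      intro x hx
      obtain ⟨y, hy, hyx⟩ := hsurjOn a iha x hx
      have : a⁻¹ • x = y := by rw [← hyx]; simp
      rw [this]; exact hy
  have hmk : ∀ g ∈ Subgroup.closure S, (QuotientGroup.mk g : G ⧸ H) ∈ T := by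
    intro g hg
    have := hall g hg (QuotientGroup.mk 1) ⟨0, h0⟩
    rwa [MulAction.Quotient.smul_mk, smul_eq_mul, mul_one] at this
  have : Finite T := hTfin
  let e := Subgroup.groupEquivQuotientProdSubgroup (s := H)
  have he1 : ∀ g : G, (e g).1 = QuotientGroup.mk g := fun g => rfl
  let ι : Subgroup.closure S → T × H := fun k => (⟨(e k.1).1, by rw [he1]; exact hmk k.1 k.2⟩, (e k.1).2)
  have hι : Function.Injective ι := by
    intro k k' h
    apply Subtype.ext
    apply e.injective
    have h1 := congrArg (fun p : T × H => (p.1 : G ⧸ H)) h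
    have h2 := congrArg (fun p : T × H => p.2) h
    exact Prod.ext h1 h2
  refine ⟨Finite.of_injective ι hι, ?_⟩
  have h1 := Nat.card_le_card_of_injective ι hι
  rw [Nat.card_prod] at h1
  have h2 : Nat.card T ≤ n + 1 := by
    have := Nat.card_le_card_of_surjective (Set.rangeFactorization c) Set.rangeFactorization_surjective
    simpa using this
  exact h1.trans (Nat.mul_le_mul_right _ h2)

end Cfsg.Agent.Lib.Helper18
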