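import Mathlib
import Cfsg.Agent.Lib.Helper18.Coset2

namespace Cfsg.Agent.Lib.Helper18

theorem carm_step4 {G : Type*} [Group G] (a b : G)
    (hr0 : a * a * a = 1)
    (hr1 : b * b * b = 1)
    (hr2 : a * b * a * b = 1)
    (hHfin : Finite (Subgroup.closure ({a} : Set G))) :
    Finite (Subgroup.closure ({a, b} : Set G)) ∧ Nat.card (Subgroup.closure ({a, b} : Set G)) ≤ 4 * Nat.card (Subgroup.closure ({a} : Set G)) := by
  set H : Subgroup G := Subgroup.closure ({a} : Set G) with hH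
  let X := G ⧸ H
  have hrel0 : ∀ x : X, a • a • a • x = x := fun x => by
    have h := congrArg (fun g : G => g • x) hr0
    simpa only [mul_smul, one_smul] using h
  have hrel1 : ∀ x : X, b • b • b • x = x := fun x => by
    have h := congrArg (fun g : G => g • x) hr1
    simpa only [mul_smul, one_smul] using h
  have hrel2 : ∀ x : X, a • b • a • b • x = x := fun x => by
    have h := congrArg (fun g : G => g • x) hr2
    simpa only [mul_smul, one_smul] using h
  obtain ⟨c0, hc0⟩ : ∃ y : X, y = (QuotientGroup.mk (1 : G) : G ⧸ H) := ⟨_, rfl⟩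
  have hsub0 : a • c0 = c0 := by
    have hm : a ∈ H := Subgroup.subset_closure (by simp)
    have h := Cfsg.Agent.Lib.Helper18.smul_mk_one_of_mem H hm
    rw [← hc0] at h
    simpa only [mul_smul] using h
  have f1 : a • c0 = c0 := by
    have h := hsub0
    exact h
  have f2 : a⁻¹ • c0 = c0 := inv_smul_eq_iff.mpr f1.symm
  obtain ⟨c1, f3⟩ : ∃ y : X, b • c0 = y := ⟨_, rfl⟩
  have f4 : b⁻¹ • c1 = c0 := inv_smul_eq_iff.mpr f3.symm
  obtain ⟨c2, f5⟩ : ∃ y : X, b • c1 = y := ⟨_, rfl⟩
  have f6 : b⁻¹ • c2 = c1 := inv_smul_eq_iff.mpr f5.symm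
  have f7 : b • c2 = c0 := by
    have h := hrel1 c0
    rw [f3, f5] at h
    exact h
  have f8 : b⁻¹ • c0 = c2 := inv_smul_eq_iff.mpr f7.symm
  have f9 : a • c1 = c2 := by
    have h := hrel2 c0
    rw [f3] at h
    rw [smul_eq_iff_eq_inv_smul, f2] at h
    rw [smul_eq_iff_eq_inv_smul, f8] at h
    exact h
  have f10 : a⁻¹ • c2 = c1 := inv_smul_eq_iff.mpr f9.symm
  obtain ⟨c3, f11⟩ : ∃ y : X, a • c2 = y := ⟨_, rfl⟩
  have f12 : a⁻¹ • c3 = c2 := inv_smul_eq_iff.mpr f11.symm
  have f13 : a • c3 = c1 := by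
    have h := hrel0 c1
    rw [f9, f11] at h
    exact h
  have f14 : a⁻¹ • c1 = c3 := inv_smul_eq_iff.mpr f13.symm
  have f15 : b • c3 = c3 := by
    have h := hrel2 c1
    rw [f5, f11] at h
    rw [smul_eq_iff_eq_inv_smul, f14] at h
    exact h
  have f16 : b⁻¹ • c3 = c3 := inv_smul_eq_iff.mpr f15.symm
  refine Cfsg.Agent.Lib.Helper18.card_closure_le H ({a, b} : Set G) 3 ![c0, c1, c2, c3] hc0 ?_
  intro s hs i
  simp only [Set.mem_insert_iff, Set.mem_singleton_iff] at hs
  rcases hs with rfl | rfl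
  · fin_cases i
    · exact ⟨0, f1⟩
    · exact ⟨2, f9⟩
    · exact ⟨3, f11⟩
    · exact ⟨1, f13⟩
  · fin_cases i
    · exact ⟨1, f3⟩
    · exact ⟨2, f5⟩
    · exact ⟨0, f7⟩
    · exact ⟨3, f15⟩

theorem carm_step5 {G : Type*} [Group G] (a b c : G)
    (hr0 : a * a * a = 1)
    (hr1 : b * b * b = 1)
    (hr2 : c * c * c = 1)
    (hr3 : a * b * a * b = 1)
    (hr4 : a * c * a * c = 1)
    (hr5 : b * c * b * c = 1)
    (hHfin : Finite (Subgroup.closure ({a, b} : Set G))) :
    Finite (Subgroup.closure ({a, b, c} : Set G)) ∧ Nat.card (Subgroup.closure ({a, b, c} : Set G)) ≤ 5 * Nat.card (Subgroup.closure ({a, b} : Set G)) := by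
  set H : Subgroup G := Subgroup.closure ({a, b} : Set G) with hH
  let X := G ⧸ H
  have hrel0 : ∀ x : X, a • a • a • x = x := fun x => by
    have h := congrArg (fun g : G => g • x) hr0
    simpa only [mul_smul, one_smul] using h
  have hrel1 : ∀ x : X, b • b • b • x = x := fun x => by
    have h := congrArg (fun g : G => g • x) hr1
    simpa only [mul_smul, one_smul] using h
  have hrel2 : ∀ x : X, c • c • c • x = x := fun x => by
    have h := congrArg (fun g : G => g • x) hr2
    simpa only [mul_smul, one_smul] using h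
  have hrel3 : ∀ x : X, a • b • a • b • x = x := fun x => by
    have h := congrArg (fun g : G => g • x) hr3
    simpa only [mul_smul, one_smul] using h
  have hrel4 : ∀ x : X, a • c • a • c • x = x := fun x => by
    have h := congrArg (fun g : G => g • x) hr4
    simpa only [mul_smul, one_smul] using h
  have hrel5 : ∀ x : X, b • c • b • c • x = x := fun x => by
    have h := congrArg (fun g : G => g • x) hr5
    simpa only [mul_smul, one_smul] using h
  obtain ⟨c0, hc0⟩ : ∃ y : X, y = (QuotientGroup.mk (1 : G) : G ⧸ H) := ⟨_, rfl⟩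
  have hsub0 : a • c0 = c0 := by
    have hm : a ∈ H := Subgroup.subset_closure (by simp)
    have h := Cfsg.Agent.Lib.Helper18.smul_mk_one_of_mem H hm
    rw [← hc0] at h
    simpa only [mul_smul] using h
  have hsub1 : b • c0 = c0 := by
    have hm : b ∈ H := Subgroup.subset_closure (by simp)
    have h := Cfsg.Agent.Lib.Helper18.smul_mk_one_of_mem H hm
    rw [← hc0] at h
    simpa only [mul_smul] using h
  have f1 : a • c0 = c0 := by
    have h := hsub0
    exact h
  have f2 : a⁻¹ • c0 = c0 := inv_smul_eq_iff.mpr f1.symm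
  have f3 : b • c0 = c0 := by
    have h := hsub1
    exact h
  have f4 : b⁻¹ • c0 = c0 := inv_smul_eq_iff.mpr f3.symm
  obtain ⟨c1, f5⟩ : ∃ y : X, c • c0 = y := ⟨_, rfl⟩
  have f6 : c⁻¹ • c1 = c0 := inv_smul_eq_iff.mpr f5.symm
  obtain ⟨c2, f7⟩ : ∃ y : X, c • c1 = y := ⟨_, rfl⟩
  have f8 : c⁻¹ • c2 = c1 := inv_smul_eq_iff.mpr f7.symm
  have f9 : c • c2 = c0 := by
    have h := hrel2 c0
    rw [f5, f7] at h
    exact h
  have f10 : c⁻¹ • c0 = c2 := inv_smul_eq_iff.mpr f9.symm
  have f11 : a • c1 = c2 := by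
    have h := hrel4 c0
    rw [f5] at h
    rw [smul_eq_iff_eq_inv_smul, f2] at h
    rw [smul_eq_iff_eq_inv_smul, f10] at h
    exact h
  have f12 : a⁻¹ • c2 = c1 := inv_smul_eq_iff.mpr f11.symm
  have f13 : b • c1 = c2 := by
    have h := hrel5 c0
    rw [f5] at h
    rw [smul_eq_iff_eq_inv_smul, f4] at h
    rw [smul_eq_iff_eq_inv_smul, f10] at h
    exact h
  have f14 : b⁻¹ • c2 = c1 := inv_smul_eq_iff.mpr f13.symm
  obtain ⟨c3, f15⟩ : ∃ y : X, a • c2 = y := ⟨_, rfl⟩
  have f16 : a⁻¹ • c3 = c2 := inv_smul_eq_iff.mpr f15.symm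
  have f17 : a • c3 = c1 := by
    have h := hrel0 c1
    rw [f11, f15] at h
    exact h
  have f18 : a⁻¹ • c1 = c3 := inv_smul_eq_iff.mpr f17.symm
  obtain ⟨c4, f19⟩ : ∃ y : X, b • c2 = y := ⟨_, rfl⟩
  have f20 : b⁻¹ • c4 = c2 := inv_smul_eq_iff.mpr f19.symm
  have f21 : b • c4 = c1 := by
    have h := hrel1 c1
    rw [f13, f19] at h
    exact h
  have f22 : b⁻¹ • c1 = c4 := inv_smul_eq_iff.mpr f21.symm
  have f23 : b • c3 = c3 := by
    have h := hrel3 c1
    rw [f13, f15] at h
    rw [smul_eq_iff_eq_inv_smul, f18] at h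
    exact h
  have f24 : b⁻¹ • c3 = c3 := inv_smul_eq_iff.mpr f23.symm
  have f25 : c • c3 = c3 := by
    have h := hrel4 c1
    rw [f7, f15] at h
    rw [smul_eq_iff_eq_inv_smul, f18] at h
    exact h
  have f26 : c⁻¹ • c3 = c3 := inv_smul_eq_iff.mpr f25.symm
  have f27 : c • c4 = c4 := by
    have h := hrel5 c1
    rw [f7, f19] at h
    rw [smul_eq_iff_eq_inv_smul, f22] at h
    exact h
  have f28 : c⁻¹ • c4 = c4 := inv_smul_eq_iff.mpr f27.symm
  have f29 : a • c4 = c4 := by
    have h := hrel3 c2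
    rw [f19] at h
    rw [smul_eq_iff_eq_inv_smul, f12] at h
    rw [smul_eq_iff_eq_inv_smul, f22] at h
    exact h
  have f30 : a⁻¹ • c4 = c4 := inv_smul_eq_iff.mpr f29.symm
  refine Cfsg.Agent.Lib.Helper18.card_closure_le H ({a, b, c} : Set G) 4 ![c0, c1, c2, c3, c4] hc0 ?_
  intro s hs i
  simp only [Set.mem_insert_iff, Set.mem_singleton_iff] at hs
  rcases hs with rfl | rfl | rfl
  · fin_cases i
    · exact ⟨0, f1⟩
    · exact ⟨2, f11⟩
    · exact ⟨3, f15⟩
    · exact ⟨1, f17⟩
    · exact ⟨4, f29⟩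
  · fin_cases i
    · exact ⟨0, f3⟩
    · exact ⟨2, f13⟩
    · exact ⟨4, f19⟩
    · exact ⟨3, f23⟩
    · exact ⟨1, f21⟩
  · fin_cases i
    · exact ⟨1, f5⟩
    · exact ⟨2, f7⟩
    · exact ⟨0, f9⟩
    · exact ⟨3, f25⟩
    · exact ⟨4, f27⟩

theorem carm_step6 {G : Type*} [Group G] (a b c d : G)
    (hr0 : a * a * a = 1)
    (hr1 : b * b * b = 1)
    (hr2 : c * c * c = 1)
    (hr3 : d * d * d = 1)
    (hr4 : a * b * a * b = 1)
    (hr5 : a * c * a * c = 1)
    (hr6 : a * d * a * d = 1)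
    (hr7 : b * c * b * c = 1)
    (hr8 : b * d * b * d = 1)
    (hr9 : c * d * c * d = 1)
    (hHfin : Finite (Subgroup.closure ({a, b, c} : Set G))) :
    Finite (Subgroup.closure ({a, b, c, d} : Set G)) ∧ Nat.card (Subgroup.closure ({a, b, c, d} : Set G)) ≤ 6 * Nat.card (Subgroup.closure ({a, b, c} : Set G)) := by
  set H : Subgroup G := Subgroup.closure ({a, b, c} : Set G) with hH
  let X := G ⧸ H
  have hrel0 : ∀ x : X, a • a • a • x = x := fun x => by
    have h := congrArg (fun g : G => g • x) hr0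
    simpa only [mul_smul, one_smul] using h
  have hrel1 : ∀ x : X, b • b • b • x = x := fun x => by
    have h := congrArg (fun g : G => g • x) hr1
    simpa only [mul_smul, one_smul] using h
  have hrel2 : ∀ x : X, c • c • c • x = x := fun x => by
    have h := congrArg (fun g : G => g • x) hr2
    simpa only [mul_smul, one_smul] using h
  have hrel3 : ∀ x : X, d • d • d • x = x := fun x => by
    have h := congrArg (fun g : G => g • x) hr3
    simpa only [mul_smul, one_smul] using h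
  have hrel4 : ∀ x : X, a • b • a • b • x = x := fun x => by
    have h := congrArg (fun g : G => g • x) hr4
    simpa only [mul_smul, one_smul] using h
  have hrel5 : ∀ x : X, a • c • a • c • x = x := fun x => by
    have h := congrArg (fun g : G => g • x) hr5
    simpa only [mul_smul, one_smul] using h
  have hrel6 : ∀ x : X, a • d • a • d • x = x := fun x => by
    have h := congrArg (fun g : G => g • x) hr6
    simpa only [mul_smul, one_smul] using h
  have hrel7 : ∀ x : X, b • c • b • c • x = x := fun x => by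
    have h := congrArg (fun g : G => g • x) hr7
    simpa only [mul_smul, one_smul] using h
  have hrel8 : ∀ x : X, b • d • b • d • x = x := fun x => by
    have h := congrArg (fun g : G => g • x) hr8
    simpa only [mul_smul, one_smul] using h
  have hrel9 : ∀ x : X, c • d • c • d • x = x := fun x => by
    have h := congrArg (fun g : G => g • x) hr9
    simpa only [mul_smul, one_smul] using h
  obtain ⟨c0, hc0⟩ : ∃ y : X, y = (QuotientGroup.mk (1 : G) : G ⧸ H) := ⟨_, rfl⟩
  have hsub0 : a • c0 = c0 := by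
    have hm : a ∈ H := Subgroup.subset_closure (by simp)
    have h := Cfsg.Agent.Lib.Helper18.smul_mk_one_of_mem H hm
    rw [← hc0] at h
    simpa only [mul_smul] using h
  have hsub1 : b • c0 = c0 := by
    have hm : b ∈ H := Subgroup.subset_closure (by simp)
    have h := Cfsg.Agent.Lib.Helper18.smul_mk_one_of_mem H hm
    rw [← hc0] at h
    simpa only [mul_smul] using h
  have hsub2 : c • c0 = c0 := by
    have hm : c ∈ H := Subgroup.subset_closure (by simp)
    have h := Cfsg.Agent.Lib.Helper18.smul_mk_one_of_mem H hm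
    rw [← hc0] at h
    simpa only [mul_smul] using h
  have f1 : a • c0 = c0 := by
    have h := hsub0
    exact h
  have f2 : a⁻¹ • c0 = c0 := inv_smul_eq_iff.mpr f1.symm
  have f3 : b • c0 = c0 := by
    have h := hsub1
    exact h
  have f4 : b⁻¹ • c0 = c0 := inv_smul_eq_iff.mpr f3.symm
  have f5 : c • c0 = c0 := by
    have h := hsub2
    exact h
  have f6 : c⁻¹ • c0 = c0 := inv_smul_eq_iff.mpr f5.symm
  obtain ⟨c1, f7⟩ : ∃ y : X, d • c0 = y := ⟨_, rfl⟩
  have f8 : d⁻¹ • c1 = c0 := inv_smul_eq_iff.mpr f7.symm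
  obtain ⟨c2, f9⟩ : ∃ y : X, d • c1 = y := ⟨_, rfl⟩
  have f10 : d⁻¹ • c2 = c1 := inv_smul_eq_iff.mpr f9.symm
  have f11 : d • c2 = c0 := by
    have h := hrel3 c0
    rw [f7, f9] at h
    exact h
  have f12 : d⁻¹ • c0 = c2 := inv_smul_eq_iff.mpr f11.symm
  have f13 : a • c1 = c2 := by
    have h := hrel6 c0
    rw [f7] at h
    rw [smul_eq_iff_eq_inv_smul, f2] at h
    rw [smul_eq_iff_eq_inv_smul, f12] at h
    exact h
  have f14 : a⁻¹ • c2 = c1 := inv_smul_eq_iff.mpr f13.symm
  have f15 : b • c1 = c2 := by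
    have h := hrel8 c0
    rw [f7] at h
    rw [smul_eq_iff_eq_inv_smul, f4] at h
    rw [smul_eq_iff_eq_inv_smul, f12] at h
    exact h
  have f16 : b⁻¹ • c2 = c1 := inv_smul_eq_iff.mpr f15.symm
  have f17 : c • c1 = c2 := by
    have h := hrel9 c0
    rw [f7] at h
    rw [smul_eq_iff_eq_inv_smul, f6] at h
    rw [smul_eq_iff_eq_inv_smul, f12] at h
    exact h
  have f18 : c⁻¹ • c2 = c1 := inv_smul_eq_iff.mpr f17.symm
  obtain ⟨c3, f19⟩ : ∃ y : X, a • c2 = y := ⟨_, rfl⟩
  have f20 : a⁻¹ • c3 = c2 := inv_smul_eq_iff.mpr f19.symm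
  have f21 : a • c3 = c1 := by
    have h := hrel0 c1
    rw [f13, f19] at h
    exact h
  have f22 : a⁻¹ • c1 = c3 := inv_smul_eq_iff.mpr f21.symm
  obtain ⟨c4, f23⟩ : ∃ y : X, b • c2 = y := ⟨_, rfl⟩
  have f24 : b⁻¹ • c4 = c2 := inv_smul_eq_iff.mpr f23.symm
  have f25 : b • c4 = c1 := by
    have h := hrel1 c1
    rw [f15, f23] at h
    exact h
  have f26 : b⁻¹ • c1 = c4 := inv_smul_eq_iff.mpr f25.symm
  obtain ⟨c5, f27⟩ : ∃ y : X, c • c2 = y := ⟨_, rfl⟩
  have f28 : c⁻¹ • c5 = c2 := inv_smul_eq_iff.mpr f27.symm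
  have f29 : c • c5 = c1 := by
    have h := hrel2 c1
    rw [f17, f27] at h
    exact h
  have f30 : c⁻¹ • c1 = c5 := inv_smul_eq_iff.mpr f29.symm
  have f31 : b • c3 = c3 := by
    have h := hrel4 c1
    rw [f15, f19] at h
    rw [smul_eq_iff_eq_inv_smul, f22] at h
    exact h
  have f32 : b⁻¹ • c3 = c3 := inv_smul_eq_iff.mpr f31.symm
  have f33 : c • c3 = c3 := by
    have h := hrel5 c1
    rw [f17, f19] at h
    rw [smul_eq_iff_eq_inv_smul, f22] at h
    exact h
  have f34 : c⁻¹ • c3 = c3 := inv_smul_eq_iff.mpr f33.symm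
  have f35 : d • c3 = c3 := by
    have h := hrel6 c1
    rw [f9, f19] at h
    rw [smul_eq_iff_eq_inv_smul, f22] at h
    exact h
  have f36 : d⁻¹ • c3 = c3 := inv_smul_eq_iff.mpr f35.symm
  have f37 : c • c4 = c4 := by
    have h := hrel7 c1
    rw [f17, f23] at h
    rw [smul_eq_iff_eq_inv_smul, f26] at h
    exact h
  have f38 : c⁻¹ • c4 = c4 := inv_smul_eq_iff.mpr f37.symm
  have f39 : d • c4 = c4 := by
    have h := hrel8 c1
    rw [f9, f23] at h
    rw [smul_eq_iff_eq_inv_smul, f26] at h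
    exact h
  have f40 : d⁻¹ • c4 = c4 := inv_smul_eq_iff.mpr f39.symm
  have f41 : d • c5 = c5 := by
    have h := hrel9 c1
    rw [f9, f27] at h
    rw [smul_eq_iff_eq_inv_smul, f30] at h
    exact h
  have f42 : d⁻¹ • c5 = c5 := inv_smul_eq_iff.mpr f41.symm
  have f43 : a • c4 = c4 := by
    have h := hrel4 c2
    rw [f23] at h
    rw [smul_eq_iff_eq_inv_smul, f14] at h
    rw [smul_eq_iff_eq_inv_smul, f26] at h
    exact h
  have f44 : a⁻¹ • c4 = c4 := inv_smul_eq_iff.mpr f43.symm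
  have f45 : a • c5 = c5 := by
    have h := hrel5 c2
    rw [f27] at h
    rw [smul_eq_iff_eq_inv_smul, f14] at h
    rw [smul_eq_iff_eq_inv_smul, f30] at h
    exact h
  have f46 : a⁻¹ • c5 = c5 := inv_smul_eq_iff.mpr f45.symm
  have f47 : b • c5 = c5 := by
    have h := hrel7 c2
    rw [f27] at h
    rw [smul_eq_iff_eq_inv_smul, f16] at h
    rw [smul_eq_iff_eq_inv_smul, f30] at h
    exact h
  have f48 : b⁻¹ • c5 = c5 := inv_smul_eq_iff.mpr f47.symm
  refine Cfsg.Agent.Lib.Helper18.card_closure_le H ({a, b, c, d} : Set G) 5 ![c0, c1, c2, c3, c4, c5] hc0 ?_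
  intro s hs i
  simp only [Set.mem_insert_iff, Set.mem_singleton_iff] at hs
  rcases hs with rfl | rfl | rfl | rfl
  · fin_cases i
    · exact ⟨0, f1⟩
    · exact ⟨2, f13⟩
    · exact ⟨3, f19⟩
    · exact ⟨1, f21⟩
    · exact ⟨4, f43⟩
    · exact ⟨5, f45⟩
  · fin_cases i
    · exact ⟨0, f3⟩
    · exact ⟨2, f15⟩
    · exact ⟨4, f23⟩
    · exact ⟨3, f31⟩
    · exact ⟨1, f25⟩
    · exact ⟨5, f47⟩
  · fin_cases i
    · exact ⟨0, f5⟩
    · exact ⟨2, f17⟩
    · exact ⟨5, f27⟩
    · exact ⟨3, f33⟩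
    · exact ⟨4, f37⟩
    · exact ⟨1, f29⟩
  · fin_cases i
    · exact ⟨1, f7⟩
    · exact ⟨2, f9⟩
    · exact ⟨0, f11⟩
    · exact ⟨3, f35⟩
    · exact ⟨4, f39⟩
    · exact ⟨5, f41⟩

theorem carm_step7 {G : Type*} [Group G] (a b c d e : G)
    (hr0 : a * a * a = 1)
    (hr1 : b * b * b = 1)
    (hr2 : c * c * c = 1)
    (hr3 : d * d * d = 1)
    (hr4 : e * e * e = 1)
    (hr5 : a * b * a * b = 1)
    (hr6 : a * c * a * c = 1)
    (hr7 : a * d * a * d = 1)
    (hr8 : a * e * a * e = 1)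
    (hr9 : b * c * b * c = 1)
    (hr10 : b * d * b * d = 1)
    (hr11 : b * e * b * e = 1)
    (hr12 : c * d * c * d = 1)
    (hr13 : c * e * c * e = 1)
    (hr14 : d * e * d * e = 1)
    (hHfin : Finite (Subgroup.closure ({a, b, c, d} : Set G))) :
    Finite (Subgroup.closure ({a, b, c, d, e} : Set G)) ∧ Nat.card (Subgroup.closure ({a, b, c, d, e} : Set G)) ≤ 7 * Nat.card (Subgroup.closure ({a, b, c, d} : Set G)) := by
  set H : Subgroup G := Subgroup.closure ({a, b, c, d} : Set G) with hH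
  let X := G ⧸ H
  have hrel0 : ∀ x : X, a • a • a • x = x := fun x => by
    have h := congrArg (fun g : G => g • x) hr0
    simpa only [mul_smul, one_smul] using h
  have hrel1 : ∀ x : X, b • b • b • x = x := fun x => by
    have h := congrArg (fun g : G => g • x) hr1
    simpa only [mul_smul, one_smul] using h
  have hrel2 : ∀ x : X, c • c • c • x = x := fun x => by
    have h := congrArg (fun g : G => g • x) hr2
    simpa only [mul_smul, one_smul] using h
  have hrel3 : ∀ x : X, d • d • d • x = x := fun x => by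
    have h := congrArg (fun g : G => g • x) hr3
    simpa only [mul_smul, one_smul] using h
  have hrel4 : ∀ x : X, e • e • e • x = x := fun x => by
    have h := congrArg (fun g : G => g • x) hr4
    simpa only [mul_smul, one_smul] using h
  have hrel5 : ∀ x : X, a • b • a • b • x = x := fun x => by
    have h := congrArg (fun g : G => g • x) hr5
    simpa only [mul_smul, one_smul] using h
  have hrel6 : ∀ x : X, a • c • a • c • x = x := fun x => by
    have h := congrArg (fun g : G => g • x) hr6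
    simpa only [mul_smul, one_smul] using h
  have hrel7 : ∀ x : X, a • d • a • d • x = x := fun x => by
    have h := congrArg (fun g : G => g • x) hr7
    simpa only [mul_smul, one_smul] using h
  have hrel8 : ∀ x : X, a • e • a • e • x = x := fun x => by
    have h := congrArg (fun g : G => g • x) hr8
    simpa only [mul_smul, one_smul] using h
  have hrel9 : ∀ x : X, b • c • b • c • x = x := fun x => by
    have h := congrArg (fun g : G => g • x) hr9
    simpa only [mul_smul, one_smul] using h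
  have hrel10 : ∀ x : X, b • d • b • d • x = x := fun x => by
    have h := congrArg (fun g : G => g • x) hr10
    simpa only [mul_smul, one_smul] using h
  have hrel11 : ∀ x : X, b • e • b • e • x = x := fun x => by
    have h := congrArg (fun g : G => g • x) hr11
    simpa only [mul_smul, one_smul] using h
  have hrel12 : ∀ x : X, c • d • c • d • x = x := fun x => by
    have h := congrArg (fun g : G => g • x) hr12
    simpa only [mul_smul, one_smul] using h
  have hrel13 : ∀ x : X, c • e • c • e • x = x := fun x => by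
    have h := congrArg (fun g : G => g • x) hr13
    simpa only [mul_smul, one_smul] using h
  have hrel14 : ∀ x : X, d • e • d • e • x = x := fun x => by
    have h := congrArg (fun g : G => g • x) hr14
    simpa only [mul_smul, one_smul] using h
  obtain ⟨c0, hc0⟩ : ∃ y : X, y = (QuotientGroup.mk (1 : G) : G ⧸ H) := ⟨_, rfl⟩
  have hsub0 : a • c0 = c0 := by
    have hm : a ∈ H := Subgroup.subset_closure (by simp)
    have h := Cfsg.Agent.Lib.Helper18.smul_mk_one_of_mem H hm
    rw [← hc0] at h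
    simpa only [mul_smul] using h
  have hsub1 : b • c0 = c0 := by
    have hm : b ∈ H := Subgroup.subset_closure (by simp)
    have h := Cfsg.Agent.Lib.Helper18.smul_mk_one_of_mem H hm
    rw [← hc0] at h
    simpa only [mul_smul] using h
  have hsub2 : c • c0 = c0 := by
    have hm : c ∈ H := Subgroup.subset_closure (by simp)
    have h := Cfsg.Agent.Lib.Helper18.smul_mk_one_of_mem H hm
    rw [← hc0] at h
    simpa only [mul_smul] using h
  have hsub3 : d • c0 = c0 := by
    have hm : d ∈ H := Subgroup.subset_closure (by simp)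
    have h := Cfsg.Agent.Lib.Helper18.smul_mk_one_of_mem H hm
    rw [← hc0] at h
    simpa only [mul_smul] using h
  have f1 : a • c0 = c0 := by
    have h := hsub0
    exact h
  have f2 : a⁻¹ • c0 = c0 := inv_smul_eq_iff.mpr f1.symm
  have f3 : b • c0 = c0 := by
    have h := hsub1
    exact h
  have f4 : b⁻¹ • c0 = c0 := inv_smul_eq_iff.mpr f3.symm
  have f5 : c • c0 = c0 := by
    have h := hsub2
    exact h
  have f6 : c⁻¹ • c0 = c0 := inv_smul_eq_iff.mpr f5.symm
  have f7 : d • c0 = c0 := by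
    have h := hsub3
    exact h
  have f8 : d⁻¹ • c0 = c0 := inv_smul_eq_iff.mpr f7.symm
  obtain ⟨c1, f9⟩ : ∃ y : X, e • c0 = y := ⟨_, rfl⟩
  have f10 : e⁻¹ • c1 = c0 := inv_smul_eq_iff.mpr f9.symm
  obtain ⟨c2, f11⟩ : ∃ y : X, e • c1 = y := ⟨_, rfl⟩
  have f12 : e⁻¹ • c2 = c1 := inv_smul_eq_iff.mpr f11.symm
  have f13 : e • c2 = c0 := by
    have h := hrel4 c0
    rw [f9, f11] at h
    exact h
  have f14 : e⁻¹ • c0 = c2 := inv_smul_eq_iff.mpr f13.symm
  have f15 : a • c1 = c2 := by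
    have h := hrel8 c0
    rw [f9] at h
    rw [smul_eq_iff_eq_inv_smul, f2] at h
    rw [smul_eq_iff_eq_inv_smul, f14] at h
    exact h
  have f16 : a⁻¹ • c2 = c1 := inv_smul_eq_iff.mpr f15.symm
  have f17 : b • c1 = c2 := by
    have h := hrel11 c0
    rw [f9] at h
    rw [smul_eq_iff_eq_inv_smul, f4] at h
    rw [smul_eq_iff_eq_inv_smul, f14] at h
    exact h
  have f18 : b⁻¹ • c2 = c1 := inv_smul_eq_iff.mpr f17.symm
  have f19 : c • c1 = c2 := by
    have h := hrel13 c0
    rw [f9] at h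
    rw [smul_eq_iff_eq_inv_smul, f6] at h
    rw [smul_eq_iff_eq_inv_smul, f14] at h
    exact h
  have f20 : c⁻¹ • c2 = c1 := inv_smul_eq_iff.mpr f19.symm
  have f21 : d • c1 = c2 := by
    have h := hrel14 c0
    rw [f9] at h
    rw [smul_eq_iff_eq_inv_smul, f8] at h
    rw [smul_eq_iff_eq_inv_smul, f14] at h
    exact h
  have f22 : d⁻¹ • c2 = c1 := inv_smul_eq_iff.mpr f21.symm
  obtain ⟨c3, f23⟩ : ∃ y : X, a • c2 = y := ⟨_, rfl⟩
  have f24 : a⁻¹ • c3 = c2 := inv_smul_eq_iff.mpr f23.symm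
  have f25 : a • c3 = c1 := by
    have h := hrel0 c1
    rw [f15, f23] at h
    exact h
  have f26 : a⁻¹ • c1 = c3 := inv_smul_eq_iff.mpr f25.symm
  obtain ⟨c4, f27⟩ : ∃ y : X, b • c2 = y := ⟨_, rfl⟩
  have f28 : b⁻¹ • c4 = c2 := inv_smul_eq_iff.mpr f27.symm
  have f29 : b • c4 = c1 := by
    have h := hrel1 c1
    rw [f17, f27] at h
    exact h
  have f30 : b⁻¹ • c1 = c4 := inv_smul_eq_iff.mpr f29.symm
  obtain ⟨c5, f31⟩ : ∃ y : X, c • c2 = y := ⟨_, rfl⟩
  have f32 : c⁻¹ • c5 = c2 := inv_smul_eq_iff.mpr f31.symm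
  have f33 : c • c5 = c1 := by
    have h := hrel2 c1
    rw [f19, f31] at h
    exact h
  have f34 : c⁻¹ • c1 = c5 := inv_smul_eq_iff.mpr f33.symm
  obtain ⟨c6, f35⟩ : ∃ y : X, d • c2 = y := ⟨_, rfl⟩
  have f36 : d⁻¹ • c6 = c2 := inv_smul_eq_iff.mpr f35.symm
  have f37 : d • c6 = c1 := by
    have h := hrel3 c1
    rw [f21, f35] at h
    exact h
  have f38 : d⁻¹ • c1 = c6 := inv_smul_eq_iff.mpr f37.symm
  have f39 : b • c3 = c3 := by
    have h := hrel5 c1
    rw [f17, f23] at h
    rw [smul_eq_iff_eq_inv_smul, f26] at h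
    exact h
  have f40 : b⁻¹ • c3 = c3 := inv_smul_eq_iff.mpr f39.symm
  have f41 : c • c3 = c3 := by
    have h := hrel6 c1
    rw [f19, f23] at h
    rw [smul_eq_iff_eq_inv_smul, f26] at h
    exact h
  have f42 : c⁻¹ • c3 = c3 := inv_smul_eq_iff.mpr f41.symm
  have f43 : d • c3 = c3 := by
    have h := hrel7 c1
    rw [f21, f23] at h
    rw [smul_eq_iff_eq_inv_smul, f26] at h
    exact h
  have f44 : d⁻¹ • c3 = c3 := inv_smul_eq_iff.mpr f43.symm
  have f45 : e • c3 = c3 := by
    have h := hrel8 c1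
    rw [f11, f23] at h
    rw [smul_eq_iff_eq_inv_smul, f26] at h
    exact h
  have f46 : e⁻¹ • c3 = c3 := inv_smul_eq_iff.mpr f45.symm
  have f47 : c • c4 = c4 := by
    have h := hrel9 c1
    rw [f19, f27] at h
    rw [smul_eq_iff_eq_inv_smul, f30] at h
    exact h
  have f48 : c⁻¹ • c4 = c4 := inv_smul_eq_iff.mpr f47.symm
  have f49 : d • c4 = c4 := by
    have h := hrel10 c1
    rw [f21, f27] at h
    rw [smul_eq_iff_eq_inv_smul, f30] at h
    exact h
  have f50 : d⁻¹ • c4 = c4 := inv_smul_eq_iff.mpr f49.symm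
  have f51 : e • c4 = c4 := by
    have h := hrel11 c1
    rw [f11, f27] at h
    rw [smul_eq_iff_eq_inv_smul, f30] at h
    exact h
  have f52 : e⁻¹ • c4 = c4 := inv_smul_eq_iff.mpr f51.symm
  have f53 : d • c5 = c5 := by
    have h := hrel12 c1
    rw [f21, f31] at h
    rw [smul_eq_iff_eq_inv_smul, f34] at h
    exact h
  have f54 : d⁻¹ • c5 = c5 := inv_smul_eq_iff.mpr f53.symm
  have f55 : e • c5 = c5 := by
    have h := hrel13 c1
    rw [f11, f31] at h
    rw [smul_eq_iff_eq_inv_smul, f34] at h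
    exact h
  have f56 : e⁻¹ • c5 = c5 := inv_smul_eq_iff.mpr f55.symm
  have f57 : e • c6 = c6 := by
    have h := hrel14 c1
    rw [f11, f35] at h
    rw [smul_eq_iff_eq_inv_smul, f38] at h
    exact h
  have f58 : e⁻¹ • c6 = c6 := inv_smul_eq_iff.mpr f57.symm
  have f59 : a • c4 = c4 := by
    have h := hrel5 c2
    rw [f27] at h
    rw [smul_eq_iff_eq_inv_smul, f16] at h
    rw [smul_eq_iff_eq_inv_smul, f30] at h
    exact h
  have f60 : a⁻¹ • c4 = c4 := inv_smul_eq_iff.mpr f59.symm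
  have f61 : a • c5 = c5 := by
    have h := hrel6 c2
    rw [f31] at h
    rw [smul_eq_iff_eq_inv_smul, f16] at h
    rw [smul_eq_iff_eq_inv_smul, f34] at h
    exact h
  have f62 : a⁻¹ • c5 = c5 := inv_smul_eq_iff.mpr f61.symm
  have f63 : a • c6 = c6 := by
    have h := hrel7 c2
    rw [f35] at h
    rw [smul_eq_iff_eq_inv_smul, f16] at h
    rw [smul_eq_iff_eq_inv_smul, f38] at h
    exact h
  have f64 : a⁻¹ • c6 = c6 := inv_smul_eq_iff.mpr f63.symm
  have f65 : b • c5 = c5 := by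
    have h := hrel9 c2
    rw [f31] at h
    rw [smul_eq_iff_eq_inv_smul, f18] at h
    rw [smul_eq_iff_eq_inv_smul, f34] at h
    exact h
  have f66 : b⁻¹ • c5 = c5 := inv_smul_eq_iff.mpr f65.symm
  have f67 : b • c6 = c6 := by
    have h := hrel10 c2
    rw [f35] at h
    rw [smul_eq_iff_eq_inv_smul, f18] at h
    rw [smul_eq_iff_eq_inv_smul, f38] at h
    exact h
  have f68 : b⁻¹ • c6 = c6 := inv_smul_eq_iff.mpr f67.symm
  have f69 : c • c6 = c6 := by
    have h := hrel12 c2
    rw [f35] at h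
    rw [smul_eq_iff_eq_inv_smul, f20] at h
    rw [smul_eq_iff_eq_inv_smul, f38] at h
    exact h
  have f70 : c⁻¹ • c6 = c6 := inv_smul_eq_iff.mpr f69.symm
  refine Cfsg.Agent.Lib.Helper18.card_closure_le H ({a, b, c, d, e} : Set G) 6 ![c0, c1, c2, c3, c4, c5, c6] hc0 ?_
  intro s hs i
  simp only [Set.mem_insert_iff, Set.mem_singleton_iff] at hs
  rcases hs with rfl | rfl | rfl | rfl | rfl
  · fin_cases i
    · exact ⟨0, f1⟩
    · exact ⟨2, f15⟩
    · exact ⟨3, f23⟩
    · exact ⟨1, f25⟩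
    · exact ⟨4, f59⟩
    · exact ⟨5, f61⟩
    · exact ⟨6, f63⟩
  · fin_cases i
    · exact ⟨0, f3⟩
    · exact ⟨2, f17⟩
    · exact ⟨4, f27⟩
    · exact ⟨3, f39⟩
    · exact ⟨1, f29⟩
    · exact ⟨5, f65⟩
    · exact ⟨6, f67⟩
  · fin_cases i
    · exact ⟨0, f5⟩
    · exact ⟨2, f19⟩
    · exact ⟨5, f31⟩
    · exact ⟨3, f41⟩
    · exact ⟨4, f47⟩
    · exact ⟨1, f33⟩
    · exact ⟨6, f69⟩
  · fin_cases i
    · exact ⟨0, f7⟩
    · exact ⟨2, f21⟩
    · exact ⟨6, f35⟩
    · exact ⟨3, f43⟩
    · exact ⟨4, f49⟩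
    · exact ⟨5, f53⟩
    · exact ⟨1, f37⟩
  · fin_cases i
    · exact ⟨1, f9⟩
    · exact ⟨2, f11⟩
    · exact ⟨0, f13⟩
    · exact ⟨3, f45⟩
    · exact ⟨4, f51⟩
    · exact ⟨5, f55⟩
    · exact ⟨6, f57⟩

theorem carm_step8 {G : Type*} [Group G] (a b c d e f : G)
    (hr0 : a * a * a = 1)
    (hr1 : b * b * b = 1)
    (hr2 : c * c * c = 1)
    (hr3 : d * d * d = 1)
    (hr4 : e * e * e = 1)
    (hr5 : f * f * f = 1)
    (hr6 : a * b * a * b = 1)
    (hr7 : a * c * a * c = 1)
    (hr8 : a * d * a * d = 1)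
    (hr9 : a * e * a * e = 1)
    (hr10 : a * f * a * f = 1)
    (hr11 : b * c * b * c = 1)
    (hr12 : b * d * b * d = 1)
    (hr13 : b * e * b * e = 1)
    (hr14 : b * f * b * f = 1)
    (hr15 : c * d * c * d = 1)
    (hr16 : c * e * c * e = 1)
    (hr17 : c * f * c * f = 1)
    (hr18 : d * e * d * e = 1)
    (hr19 : d * f * d * f = 1)
    (hr20 : e * f * e * f = 1)
    (hHfin : Finite (Subgroup.closure ({a, b, c, d, e} : Set G))) :
    Finite (Subgroup.closure ({a, b, c, d, e, f} : Set G)) ∧ Nat.card (Subgroup.closure ({a, b, c, d, e, f} : Set G)) ≤ 8 * Nat.card (Subgroup.closure ({a, b, c, d, e} : Set G)) := by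
  set H : Subgroup G := Subgroup.closure ({a, b, c, d, e} : Set G) with hH
  let X := G ⧸ H
  have hrel0 : ∀ x : X, a • a • a • x = x := fun x => by
    have h := congrArg (fun g : G => g • x) hr0
    simpa only [mul_smul, one_smul] using h
  have hrel1 : ∀ x : X, b • b • b • x = x := fun x => by
    have h := congrArg (fun g : G => g • x) hr1
    simpa only [mul_smul, one_smul] using h
  have hrel2 : ∀ x : X, c • c • c • x = x := fun x => by
    have h := congrArg (fun g : G => g • x) hr2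
    simpa only [mul_smul, one_smul] using h
  have hrel3 : ∀ x : X, d • d • d • x = x := fun x => by
    have h := congrArg (fun g : G => g • x) hr3
    simpa only [mul_smul, one_smul] using h
  have hrel4 : ∀ x : X, e • e • e • x = x := fun x => by
    have h := congrArg (fun g : G => g • x) hr4
    simpa only [mul_smul, one_smul] using h
  have hrel5 : ∀ x : X, f • f • f • x = x := fun x => by
    have h := congrArg (fun g : G => g • x) hr5
    simpa only [mul_smul, one_smul] using h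
  have hrel6 : ∀ x : X, a • b • a • b • x = x := fun x => by
    have h := congrArg (fun g : G => g • x) hr6
    simpa only [mul_smul, one_smul] using h
  have hrel7 : ∀ x : X, a • c • a • c • x = x := fun x => by
    have h := congrArg (fun g : G => g • x) hr7
    simpa only [mul_smul, one_smul] using h
  have hrel8 : ∀ x : X, a • d • a • d • x = x := fun x => by
    have h := congrArg (fun g : G => g • x) hr8
    simpa only [mul_smul, one_smul] using h
  have hrel9 : ∀ x : X, a • e • a • e • x = x := fun x => by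
    have h := congrArg (fun g : G => g • x) hr9
    simpa only [mul_smul, one_smul] using h
  have hrel10 : ∀ x : X, a • f • a • f • x = x := fun x => by
    have h := congrArg (fun g : G => g • x) hr10
    simpa only [mul_smul, one_smul] using h
  have hrel11 : ∀ x : X, b • c • b • c • x = x := fun x => by
    have h := congrArg (fun g : G => g • x) hr11
    simpa only [mul_smul, one_smul] using h
  have hrel12 : ∀ x : X, b • d • b • d • x = x := fun x => by
    have h := congrArg (fun g : G => g • x) hr12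
    simpa only [mul_smul, one_smul] using h
  have hrel13 : ∀ x : X, b • e • b • e • x = x := fun x => by
    have h := congrArg (fun g : G => g • x) hr13
    simpa only [mul_smul, one_smul] using h
  have hrel14 : ∀ x : X, b • f • b • f • x = x := fun x => by
    have h := congrArg (fun g : G => g • x) hr14
    simpa only [mul_smul, one_smul] using h
  have hrel15 : ∀ x : X, c • d • c • d • x = x := fun x => by
    have h := congrArg (fun g : G => g • x) hr15
    simpa only [mul_smul, one_smul] using h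
  have hrel16 : ∀ x : X, c • e • c • e • x = x := fun x => by
    have h := congrArg (fun g : G => g • x) hr16
    simpa only [mul_smul, one_smul] using h
  have hrel17 : ∀ x : X, c • f • c • f • x = x := fun x => by
    have h := congrArg (fun g : G => g • x) hr17
    simpa only [mul_smul, one_smul] using h
  have hrel18 : ∀ x : X, d • e • d • e • x = x := fun x => by
    have h := congrArg (fun g : G => g • x) hr18
    simpa only [mul_smul, one_smul] using h
  have hrel19 : ∀ x : X, d • f • d • f • x = x := fun x => by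
    have h := congrArg (fun g : G => g • x) hr19
    simpa only [mul_smul, one_smul] using h
  have hrel20 : ∀ x : X, e • f • e • f • x = x := fun x => by
    have h := congrArg (fun g : G => g • x) hr20
    simpa only [mul_smul, one_smul] using h
  obtain ⟨c0, hc0⟩ : ∃ y : X, y = (QuotientGroup.mk (1 : G) : G ⧸ H) := ⟨_, rfl⟩
  have hsub0 : a • c0 = c0 := by
    have hm : a ∈ H := Subgroup.subset_closure (by simp)
    have h := Cfsg.Agent.Lib.Helper18.smul_mk_one_of_mem H hm
    rw [← hc0] at h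
    simpa only [mul_smul] using h
  have hsub1 : b • c0 = c0 := by
    have hm : b ∈ H := Subgroup.subset_closure (by simp)
    have h := Cfsg.Agent.Lib.Helper18.smul_mk_one_of_mem H hm
    rw [← hc0] at h
    simpa only [mul_smul] using h
  have hsub2 : c • c0 = c0 := by
    have hm : c ∈ H := Subgroup.subset_closure (by simp)
    have h := Cfsg.Agent.Lib.Helper18.smul_mk_one_of_mem H hm
    rw [← hc0] at h
    simpa only [mul_smul] using h
  have hsub3 : d • c0 = c0 := by
    have hm : d ∈ H := Subgroup.subset_closure (by simp)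
    have h := Cfsg.Agent.Lib.Helper18.smul_mk_one_of_mem H hm
    rw [← hc0] at h
    simpa only [mul_smul] using h
  have hsub4 : e • c0 = c0 := by
    have hm : e ∈ H := Subgroup.subset_closure (by simp)
    have h := Cfsg.Agent.Lib.Helper18.smul_mk_one_of_mem H hm
    rw [← hc0] at h
    simpa only [mul_smul] using h
  have f1 : a • c0 = c0 := by
    have h := hsub0
    exact h
  have f2 : a⁻¹ • c0 = c0 := inv_smul_eq_iff.mpr f1.symm
  have f3 : b • c0 = c0 := by
    have h := hsub1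
    exact h
  have f4 : b⁻¹ • c0 = c0 := inv_smul_eq_iff.mpr f3.symm
  have f5 : c • c0 = c0 := by
    have h := hsub2
    exact h
  have f6 : c⁻¹ • c0 = c0 := inv_smul_eq_iff.mpr f5.symm
  have f7 : d • c0 = c0 := by
    have h := hsub3
    exact h
  have f8 : d⁻¹ • c0 = c0 := inv_smul_eq_iff.mpr f7.symm
  have f9 : e • c0 = c0 := by
    have h := hsub4
    exact h
  have f10 : e⁻¹ • c0 = c0 := inv_smul_eq_iff.mpr f9.symm
  obtain ⟨c1, f11⟩ : ∃ y : X, f • c0 = y := ⟨_, rfl⟩
  have f12 : f⁻¹ • c1 = c0 := inv_smul_eq_iff.mpr f11.symm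
  obtain ⟨c2, f13⟩ : ∃ y : X, f • c1 = y := ⟨_, rfl⟩
  have f14 : f⁻¹ • c2 = c1 := inv_smul_eq_iff.mpr f13.symm
  have f15 : f • c2 = c0 := by
    have h := hrel5 c0
    rw [f11, f13] at h
    exact h
  have f16 : f⁻¹ • c0 = c2 := inv_smul_eq_iff.mpr f15.symm
  have f17 : a • c1 = c2 := by
    have h := hrel10 c0
    rw [f11] at h
    rw [smul_eq_iff_eq_inv_smul, f2] at h
    rw [smul_eq_iff_eq_inv_smul, f16] at h
    exact h
  have f18 : a⁻¹ • c2 = c1 := inv_smul_eq_iff.mpr f17.symm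
  have f19 : b • c1 = c2 := by
    have h := hrel14 c0
    rw [f11] at h
    rw [smul_eq_iff_eq_inv_smul, f4] at h
    rw [smul_eq_iff_eq_inv_smul, f16] at h
    exact h
  have f20 : b⁻¹ • c2 = c1 := inv_smul_eq_iff.mpr f19.symm
  have f21 : c • c1 = c2 := by
    have h := hrel17 c0
    rw [f11] at h
    rw [smul_eq_iff_eq_inv_smul, f6] at h
    rw [smul_eq_iff_eq_inv_smul, f16] at h
    exact h
  have f22 : c⁻¹ • c2 = c1 := inv_smul_eq_iff.mpr f21.symm
  have f23 : d • c1 = c2 := by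
    have h := hrel19 c0
    rw [f11] at h
    rw [smul_eq_iff_eq_inv_smul, f8] at h
    rw [smul_eq_iff_eq_inv_smul, f16] at h
    exact h
  have f24 : d⁻¹ • c2 = c1 := inv_smul_eq_iff.mpr f23.symm
  have f25 : e • c1 = c2 := by
    have h := hrel20 c0
    rw [f11] at h
    rw [smul_eq_iff_eq_inv_smul, f10] at h
    rw [smul_eq_iff_eq_inv_smul, f16] at h
    exact h
  have f26 : e⁻¹ • c2 = c1 := inv_smul_eq_iff.mpr f25.symm
  obtain ⟨c3, f27⟩ : ∃ y : X, a • c2 = y := ⟨_, rfl⟩
  have f28 : a⁻¹ • c3 = c2 := inv_smul_eq_iff.mpr f27.symm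
  have f29 : a • c3 = c1 := by
    have h := hrel0 c1
    rw [f17, f27] at h
    exact h
  have f30 : a⁻¹ • c1 = c3 := inv_smul_eq_iff.mpr f29.symm
  obtain ⟨c4, f31⟩ : ∃ y : X, b • c2 = y := ⟨_, rfl⟩
  have f32 : b⁻¹ • c4 = c2 := inv_smul_eq_iff.mpr f31.symm
  have f33 : b • c4 = c1 := by
    have h := hrel1 c1
    rw [f19, f31] at h
    exact h
  have f34 : b⁻¹ • c1 = c4 := inv_smul_eq_iff.mpr f33.symm
  obtain ⟨c5, f35⟩ : ∃ y : X, c • c2 = y := ⟨_, rfl⟩
  have f36 : c⁻¹ • c5 = c2 := inv_smul_eq_iff.mpr f35.symm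
  have f37 : c • c5 = c1 := by
    have h := hrel2 c1
    rw [f21, f35] at h
    exact h
  have f38 : c⁻¹ • c1 = c5 := inv_smul_eq_iff.mpr f37.symm
  obtain ⟨c6, f39⟩ : ∃ y : X, d • c2 = y := ⟨_, rfl⟩
  have f40 : d⁻¹ • c6 = c2 := inv_smul_eq_iff.mpr f39.symm
  have f41 : d • c6 = c1 := by
    have h := hrel3 c1
    rw [f23, f39] at h
    exact h
  have f42 : d⁻¹ • c1 = c6 := inv_smul_eq_iff.mpr f41.symm
  obtain ⟨c7, f43⟩ : ∃ y : X, e • c2 = y := ⟨_, rfl⟩
  have f44 : e⁻¹ • c7 = c2 := inv_smul_eq_iff.mpr f43.symm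
  have f45 : e • c7 = c1 := by
    have h := hrel4 c1
    rw [f25, f43] at h
    exact h
  have f46 : e⁻¹ • c1 = c7 := inv_smul_eq_iff.mpr f45.symm
  have f47 : b • c3 = c3 := by
    have h := hrel6 c1
    rw [f19, f27] at h
    rw [smul_eq_iff_eq_inv_smul, f30] at h
    exact h
  have f48 : b⁻¹ • c3 = c3 := inv_smul_eq_iff.mpr f47.symm
  have f49 : c • c3 = c3 := by
    have h := hrel7 c1
    rw [f21, f27] at h
    rw [smul_eq_iff_eq_inv_smul, f30] at h
    exact h
  have f50 : c⁻¹ • c3 = c3 := inv_smul_eq_iff.mpr f49.symm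
  have f51 : d • c3 = c3 := by
    have h := hrel8 c1
    rw [f23, f27] at h
    rw [smul_eq_iff_eq_inv_smul, f30] at h
    exact h
  have f52 : d⁻¹ • c3 = c3 := inv_smul_eq_iff.mpr f51.symm
  have f53 : e • c3 = c3 := by
    have h := hrel9 c1
    rw [f25, f27] at h
    rw [smul_eq_iff_eq_inv_smul, f30] at h
    exact h
  have f54 : e⁻¹ • c3 = c3 := inv_smul_eq_iff.mpr f53.symm
  have f55 : f • c3 = c3 := by
    have h := hrel10 c1
    rw [f13, f27] at h
    rw [smul_eq_iff_eq_inv_smul, f30] at h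
    exact h
  have f56 : f⁻¹ • c3 = c3 := inv_smul_eq_iff.mpr f55.symm
  have f57 : c • c4 = c4 := by
    have h := hrel11 c1
    rw [f21, f31] at h
    rw [smul_eq_iff_eq_inv_smul, f34] at h
    exact h
  have f58 : c⁻¹ • c4 = c4 := inv_smul_eq_iff.mpr f57.symm
  have f59 : d • c4 = c4 := by
    have h := hrel12 c1
    rw [f23, f31] at h
    rw [smul_eq_iff_eq_inv_smul, f34] at h
    exact h
  have f60 : d⁻¹ • c4 = c4 := inv_smul_eq_iff.mpr f59.symm
  have f61 : e • c4 = c4 := by
    have h := hrel13 c1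
    rw [f25, f31] at h
    rw [smul_eq_iff_eq_inv_smul, f34] at h
    exact h
  have f62 : e⁻¹ • c4 = c4 := inv_smul_eq_iff.mpr f61.symm
  have f63 : f • c4 = c4 := by
    have h := hrel14 c1
    rw [f13, f31] at h
    rw [smul_eq_iff_eq_inv_smul, f34] at h
    exact h
  have f64 : f⁻¹ • c4 = c4 := inv_smul_eq_iff.mpr f63.symm
  have f65 : d • c5 = c5 := by
    have h := hrel15 c1
    rw [f23, f35] at h
    rw [smul_eq_iff_eq_inv_smul, f38] at h
    exact h
  have f66 : d⁻¹ • c5 = c5 := inv_smul_eq_iff.mpr f65.symm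
  have f67 : e • c5 = c5 := by
    have h := hrel16 c1
    rw [f25, f35] at h
    rw [smul_eq_iff_eq_inv_smul, f38] at h
    exact h
  have f68 : e⁻¹ • c5 = c5 := inv_smul_eq_iff.mpr f67.symm
  have f69 : f • c5 = c5 := by
    have h := hrel17 c1
    rw [f13, f35] at h
    rw [smul_eq_iff_eq_inv_smul, f38] at h
    exact h
  have f70 : f⁻¹ • c5 = c5 := inv_smul_eq_iff.mpr f69.symm
  have f71 : e • c6 = c6 := by
    have h := hrel18 c1
    rw [f25, f39] at h
    rw [smul_eq_iff_eq_inv_smul, f42] at h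
    exact h
  have f72 : e⁻¹ • c6 = c6 := inv_smul_eq_iff.mpr f71.symm
  have f73 : f • c6 = c6 := by
    have h := hrel19 c1
    rw [f13, f39] at h
    rw [smul_eq_iff_eq_inv_smul, f42] at h
    exact h
  have f74 : f⁻¹ • c6 = c6 := inv_smul_eq_iff.mpr f73.symm
  have f75 : f • c7 = c7 := by
    have h := hrel20 c1
    rw [f13, f43] at h
    rw [smul_eq_iff_eq_inv_smul, f46] at h
    exact h
  have f76 : f⁻¹ • c7 = c7 := inv_smul_eq_iff.mpr f75.symm
  have f77 : a • c4 = c4 := by
    have h := hrel6 c2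
    rw [f31] at h
    rw [smul_eq_iff_eq_inv_smul, f18] at h
    rw [smul_eq_iff_eq_inv_smul, f34] at h
    exact h
  have f78 : a⁻¹ • c4 = c4 := inv_smul_eq_iff.mpr f77.symm
  have f79 : a • c5 = c5 := by
    have h := hrel7 c2
    rw [f35] at h
    rw [smul_eq_iff_eq_inv_smul, f18] at h
    rw [smul_eq_iff_eq_inv_smul, f38] at h
    exact h
  have f80 : a⁻¹ • c5 = c5 := inv_smul_eq_iff.mpr f79.symm
  have f81 : a • c6 = c6 := by
    have h := hrel8 c2
    rw [f39] at h
    rw [smul_eq_iff_eq_inv_smul, f18] at h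
    rw [smul_eq_iff_eq_inv_smul, f42] at h
    exact h
  have f82 : a⁻¹ • c6 = c6 := inv_smul_eq_iff.mpr f81.symm
  have f83 : a • c7 = c7 := by
    have h := hrel9 c2
    rw [f43] at h
    rw [smul_eq_iff_eq_inv_smul, f18] at h
    rw [smul_eq_iff_eq_inv_smul, f46] at h
    exact h
  have f84 : a⁻¹ • c7 = c7 := inv_smul_eq_iff.mpr f83.symm
  have f85 : b • c5 = c5 := by
    have h := hrel11 c2
    rw [f35] at h
    rw [smul_eq_iff_eq_inv_smul, f20] at h
    rw [smul_eq_iff_eq_inv_smul, f38] at h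
    exact h
  have f86 : b⁻¹ • c5 = c5 := inv_smul_eq_iff.mpr f85.symm
  have f87 : b • c6 = c6 := by
    have h := hrel12 c2
    rw [f39] at h
    rw [smul_eq_iff_eq_inv_smul, f20] at h
    rw [smul_eq_iff_eq_inv_smul, f42] at h
    exact h
  have f88 : b⁻¹ • c6 = c6 := inv_smul_eq_iff.mpr f87.symm
  have f89 : b • c7 = c7 := by
    have h := hrel13 c2
    rw [f43] at h
    rw [smul_eq_iff_eq_inv_smul, f20] at h
    rw [smul_eq_iff_eq_inv_smul, f46] at h
    exact h
  have f90 : b⁻¹ • c7 = c7 := inv_smul_eq_iff.mpr f89.symm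
  have f91 : c • c6 = c6 := by
    have h := hrel15 c2
    rw [f39] at h
    rw [smul_eq_iff_eq_inv_smul, f22] at h
    rw [smul_eq_iff_eq_inv_smul, f42] at h
    exact h
  have f92 : c⁻¹ • c6 = c6 := inv_smul_eq_iff.mpr f91.symm
  have f93 : c • c7 = c7 := by
    have h := hrel16 c2
    rw [f43] at h
    rw [smul_eq_iff_eq_inv_smul, f22] at h
    rw [smul_eq_iff_eq_inv_smul, f46] at h
    exact h
  have f94 : c⁻¹ • c7 = c7 := inv_smul_eq_iff.mpr f93.symm
  have f95 : d • c7 = c7 := by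
    have h := hrel18 c2
    rw [f43] at h
    rw [smul_eq_iff_eq_inv_smul, f24] at h
    rw [smul_eq_iff_eq_inv_smul, f46] at h
    exact h
  have f96 : d⁻¹ • c7 = c7 := inv_smul_eq_iff.mpr f95.symm
  refine Cfsg.Agent.Lib.Helper18.card_closure_le H ({a, b, c, d, e, f} : Set G) 7 ![c0, c1, c2, c3, c4, c5, c6, c7] hc0 ?_
  intro s hs i
  simp only [Set.mem_insert_iff, Set.mem_singleton_iff] at hs
  rcases hs with rfl | rfl | rfl | rfl | rfl | rfl
  · fin_cases i
    · exact ⟨0, f1⟩
    · exact ⟨2, f17⟩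
    · exact ⟨3, f27⟩
    · exact ⟨1, f29⟩
    · exact ⟨4, f77⟩
    · exact ⟨5, f79⟩
    · exact ⟨6, f81⟩
    · exact ⟨7, f83⟩
  · fin_cases i
    · exact ⟨0, f3⟩
    · exact ⟨2, f19⟩
    · exact ⟨4, f31⟩
    · exact ⟨3, f47⟩
    · exact ⟨1, f33⟩
    · exact ⟨5, f85⟩
    · exact ⟨6, f87⟩
    · exact ⟨7, f89⟩
  · fin_cases i
    · exact ⟨0, f5⟩
    · exact ⟨2, f21⟩
    · exact ⟨5, f35⟩
    · exact ⟨3, f49⟩
    · exact ⟨4, f57⟩
    · exact ⟨1, f37⟩
    · exact ⟨6, f91⟩
    · exact ⟨7, f93⟩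
  · fin_cases i
    · exact ⟨0, f7⟩
    · exact ⟨2, f23⟩
    · exact ⟨6, f39⟩
    · exact ⟨3, f51⟩
    · exact ⟨4, f59⟩
    · exact ⟨5, f65⟩
    · exact ⟨1, f41⟩
    · exact ⟨7, f95⟩
  · fin_cases i
    · exact ⟨0, f9⟩
    · exact ⟨2, f25⟩
    · exact ⟨7, f43⟩
    · exact ⟨3, f53⟩
    · exact ⟨4, f61⟩
    · exact ⟨5, f67⟩
    · exact ⟨6, f71⟩
    · exact ⟨1, f45⟩
  · fin_cases i
    · exact ⟨1, f11⟩
    · exact ⟨2, f13⟩
    · exact ⟨0, f15⟩
    · exact ⟨3, f55⟩
    · exact ⟨4, f63⟩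
    · exact ⟨5, f69⟩
    · exact ⟨6, f73⟩
    · exact ⟨7, f75⟩

end Cfsg.Agent.Lib.Helper18
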