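import Mathlib
import Cfsg.Agent.Lib.Helper18.Carm

namespace Cfsg.Agent.Lib.Helper18

theorem carm_bound8 {G : Type*} [Group G] (x : Fin 6 → G) (h3 : ∀ i, x i ^ 3 = 1)
    (h2 : ∀ i j, i ≠ j → (x i * x j) ^ 2 = 1) :
    Finite (Subgroup.closure (Set.range x)) ∧ Nat.card (Subgroup.closure (Set.range x)) ≤ 20160 := by
  have c3 : ∀ i, x i * x i * x i = 1 := fun i => by simpa [pow_succ, mul_assoc] using h3 i
  have c2 : ∀ i j, i ≠ j → x i * x j * x i * x j = 1 := fun i j hij => by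
    simpa [pow_succ, mul_assoc] using h2 i j hij
  have hfo : IsOfFinOrder (x 0) := isOfFinOrder_iff_pow_eq_one.mpr ⟨3, by norm_num, h3 0⟩
  have b3 : Finite (Subgroup.closure ({x 0} : Set G)) ∧ Nat.card (Subgroup.closure ({x 0} : Set G)) ≤ 3 := by
    rw [← Subgroup.zpowers_eq_closure]
    refine ⟨hfo.finite_zpowers, ?_⟩
    rw [Nat.card_zpowers]
    exact Nat.le_of_dvd (by norm_num) (orderOf_dvd_of_pow_eq_one (h3 0))
  have s4 := carm_step4 (x 0) (x 1) (c3 0) (c3 1) (c2 0 1 (by decide)) b3.1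
  have b4 : Finite (Subgroup.closure ({x 0, x 1} : Set G)) ∧ Nat.card (Subgroup.closure ({x 0, x 1} : Set G)) ≤ 12 :=
    ⟨s4.1, s4.2.trans (by have := b3.2; omega)⟩
  have s5 := carm_step5 (x 0) (x 1) (x 2) (c3 0) (c3 1) (c3 2) (c2 0 1 (by decide)) (c2 0 2 (by decide)) (c2 1 2 (by decide)) b4.1
  have b5 : Finite (Subgroup.closure ({x 0, x 1, x 2} : Set G)) ∧ Nat.card (Subgroup.closure ({x 0, x 1, x 2} : Set G)) ≤ 60 :=
    ⟨s5.1, s5.2.trans (by have := b4.2; omega)⟩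
  have s6 := carm_step6 (x 0) (x 1) (x 2) (x 3) (c3 0) (c3 1) (c3 2) (c3 3) (c2 0 1 (by decide)) (c2 0 2 (by decide)) (c2 0 3 (by decide)) (c2 1 2 (by decide)) (c2 1 3 (by decide)) (c2 2 3 (by decide)) b5.1
  have b6 : Finite (Subgroup.closure ({x 0, x 1, x 2, x 3} : Set G)) ∧ Nat.card (Subgroup.closure ({x 0, x 1, x 2, x 3} : Set G)) ≤ 360 :=
    ⟨s6.1, s6.2.trans (by have := b5.2; omega)⟩
  have s7 := carm_step7 (x 0) (x 1) (x 2) (x 3) (x 4) (c3 0) (c3 1) (c3 2) (c3 3) (c3 4) (c2 0 1 (by decide)) (c2 0 2 (by decide)) (c2 0 3 (by decide)) (c2 0 4 (by decide)) (c2 1 2 (by decide)) (c2 1 3 (by decide)) (c2 1 4 (by decide)) (c2 2 3 (by decide)) (c2 2 4 (by decide)) (c2 3 4 (by decide)) b6.1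
  have b7 : Finite (Subgroup.closure ({x 0, x 1, x 2, x 3, x 4} : Set G)) ∧ Nat.card (Subgroup.closure ({x 0, x 1, x 2, x 3, x 4} : Set G)) ≤ 2520 :=
    ⟨s7.1, s7.2.trans (by have := b6.2; omega)⟩
  have s8 := carm_step8 (x 0) (x 1) (x 2) (x 3) (x 4) (x 5) (c3 0) (c3 1) (c3 2) (c3 3) (c3 4) (c3 5) (c2 0 1 (by decide)) (c2 0 2 (by decide)) (c2 0 3 (by decide)) (c2 0 4 (by decide)) (c2 0 5 (by decide)) (c2 1 2 (by decide)) (c2 1 3 (by decide)) (c2 1 4 (by decide)) (c2 1 5 (by decide)) (c2 2 3 (by decide)) (c2 2 4 (by decide)) (c2 2 5 (by decide)) (c2 3 4 (by decide)) (c2 3 5 (by decide)) (c2 4 5 (by decide)) b7.1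
  have b8 : Finite (Subgroup.closure ({x 0, x 1, x 2, x 3, x 4, x 5} : Set G)) ∧ Nat.card (Subgroup.closure ({x 0, x 1, x 2, x 3, x 4, x 5} : Set G)) ≤ 20160 :=
    ⟨s8.1, s8.2.trans (by have := b7.2; omega)⟩
  have hr : Set.range x = ({x 0, x 1, x 2, x 3, x 4, x 5} : Set G) := by
    ext g
    simp only [Set.mem_range, Set.mem_insert_iff, Set.mem_singleton_iff]
    constructor
    · rintro ⟨i, rfl⟩
      fin_cases i <;> simp
    · rintro (rfl | rfl | rfl | rfl | rfl | rfl) <;> exact ⟨_, rfl⟩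
  rw [hr]
  exact b8

end Cfsg.Agent.Lib.Helper18
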