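import Mathlib
import Cfsg.Prelude.Def_LieClassical
import Cfsg.Agent.Lib.Helper18.Quad8
import Cfsg.Agent.Lib.Helper18.PermEmb

set_option linter.unusedSimpArgs false
set_option linter.unusedSectionVars false

namespace Cfsg.Agent.Lib.Helper18

open Matrix Cfsg.Agent.Lib.Helper15

section act

variable {ι : Type} [Fintype ι] [DecidableEq ι] {F : Type*} [Field F] (Qf : (ι → F) → F)

theorem iso_apply (g : Cfsg.isometryGroup F Qf) (v : ι → F) :
    Qf ((g.1 : Matrix ι ι F) *ᵥ v) = Qf v := g.2 v v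

theorem gl_mulVec_ne_zero (g : GL ι F) (v : ι → F) (hv : v ≠ 0) :
    (g : Matrix ι ι F) *ᵥ v ≠ 0 := by
  intro h
  apply hv
  have h1 : ((g⁻¹ : GL ι F) : Matrix ι ι F) *ᵥ ((g : Matrix ι ι F) *ᵥ v) = v := by
    rw [Matrix.mulVec_mulVec, ← Units.val_mul, inv_mul_cancel, Units.val_one, Matrix.one_mulVec]
  rw [← h1, h, Matrix.mulVec_zero]

/-- the action of the isometry group on the nonzero singular vectors -/
@[instance_reducible] noncomputable def isoSingAct :
    MulAction (Cfsg.isometryGroup F Qf) {v : ι → F // v ≠ 0 ∧ Qf v = 0} where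
  smul g v := ⟨(g.1 : Matrix ι ι F) *ᵥ v.1, gl_mulVec_ne_zero g.1 v.1 v.2.1, by
    rw [iso_apply Qf g]; exact v.2.2⟩
  one_smul v := Subtype.ext (by
    show ((1 : GL ι F) : Matrix ι ι F) *ᵥ v.1 = v.1
    rw [Units.val_one, Matrix.one_mulVec])
  mul_smul g h v := Subtype.ext (by
    show ((g.1 * h.1 : GL ι F) : Matrix ι ι F) *ᵥ v.1 = g.1.1 *ᵥ (h.1.1 *ᵥ v.1)
    rw [Units.val_mul, Matrix.mulVec_mulVec])

/-- the permutation representation on nonzero singular vectors -/
noncomputable def isoSingHom :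
    Cfsg.isometryGroup F Qf →* Equiv.Perm {v : ι → F // v ≠ 0 ∧ Qf v = 0} :=
  @MulAction.toPermHom _ _ _ (isoSingAct Qf)

theorem isoSingHom_apply (g : Cfsg.isometryGroup F Qf) (v : {v : ι → F // v ≠ 0 ∧ Qf v = 0}) :
    (isoSingHom Qf g v).1 = (g.1 : Matrix ι ι F) *ᵥ v.1 := rfl

theorem isoSingHom_injective
    (hspan : ∀ j : ι, (Pi.single j 1 : ι → F) ∈ Submodule.span F {v : ι → F | v ≠ 0 ∧ Qf v = 0}) :
    Function.Injective (isoSingHom Qf) := by
  rw [injective_iff_map_eq_one]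
  intro g hg
  apply Subtype.ext
  apply Units.ext
  show (g.1 : Matrix ι ι F) = 1
  have h1 : ∀ v ∈ Submodule.span F {v : ι → F | v ≠ 0 ∧ Qf v = 0},
      (g.1 : Matrix ι ι F) *ᵥ v = v := by
    intro v hv
    induction hv using Submodule.span_induction with
    | mem x hx =>
      have := isoSingHom_apply Qf g ⟨x, hx⟩
      rw [hg] at this
      exact this.symm
    | zero => rw [Matrix.mulVec_zero]
    | add x y _ _ hx hy => rw [Matrix.mulVec_add, hx, hy]
    | smul c x _ hx => rw [Matrix.mulVec_smul, hx]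
  ext i j
  have := congrFun (h1 _ (hspan j)) i
  rw [Matrix.mulVec_single_one] at this
  simpa [Matrix.one_apply, Pi.single_apply, eq_comm] using this

end act

section small

variable {F : Type*} [Field F] [Fintype F]

theorem two_eq_zero_of_card (hF : Fintype.card F = 2) : (2 : F) = 0 := by
  have := Nat.cast_card_eq_zero F
  rw [hF] at this
  exact_mod_cast this

theorem eq_zero_or_one_of_card (hF : Fintype.card F = 2) (z : F) : z = 0 ∨ z = 1 := by
  have h := FiniteField.pow_card z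
  rw [hF] at h
  have h1 : z * (z - 1) = 0 := by linear_combination h
  rcases mul_eq_zero.mp h1 with h2 | h2
  · exact Or.inl h2
  · exact Or.inr (sub_eq_zero.mp h2)

theorem aniso_one_one (hF : Fintype.card F = 2) (z₁ z₂ : F)
    (h : z₁ ^ 2 + 1 * z₁ * z₂ + 1 * z₂ ^ 2 = 0) : z₁ = 0 ∧ z₂ = 0 := by
  have h2 := two_eq_zero_of_card hF
  rcases eq_zero_or_one_of_card hF z₁ with rfl | rfl <;>
    rcases eq_zero_or_one_of_card hF z₂ with rfl | rfl
  · exact ⟨rfl, rfl⟩
  · simp at h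
  · simp at h
  · exfalso
    have : (1 : F) = 0 := by linear_combination h - h2
    exact one_ne_zero this

theorem card_singular_minus (m : ℕ) (a b : F)
    (hab : ∀ z₁ z₂ : F, z₁ ^ 2 + a * z₁ * z₂ + b * z₂ ^ 2 = 0 → z₁ = 0 ∧ z₂ = 0) :
    Nat.card {v : (Fin m ⊕ Fin m) ⊕ Fin 2 → F // v ≠ 0 ∧ Cfsg.quadFormMinus m F a b v = 0} + 1
      = oSeq (Fintype.card F) (Fintype.card F ^ 2) 1 m := by
  have h := (qMinus_good (m := m) a b hab).2.1 0
  simp only at h
  rw [conic_card_zero a b hab, Nat.card_prod, Nat.card_eq_fintype_card (α := F), ← pow_two] at h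
  rw [← h]
  have h1 : Nat.card {u : (⊤ : Submodule F ((Fin m ⊕ Fin m) ⊕ Fin 2 → F)) //
      minusQ m F a b u.1 = 0}
      = Nat.card {v : (Fin m ⊕ Fin m) ⊕ Fin 2 → F // Cfsg.quadFormMinus m F a b v = 0} := by
    apply Nat.card_congr
    refine (Submodule.topEquiv (R := F)).toEquiv.subtypeEquiv (fun u => ?_)
    rw [minusQ_apply]
    rfl
  have h2 := card_subtype_and_add (fun v : (Fin m ⊕ Fin m) ⊕ Fin 2 → F => v ≠ 0)
    (fun v => Cfsg.quadFormMinus m F a b v = 0)
  have : Unique {v : (Fin m ⊕ Fin m) ⊕ Fin 2 → F // ¬ v ≠ 0 ∧ Cfsg.quadFormMinus m F a b v = 0} :=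
    { default := ⟨0, by simp, by simp [Cfsg.quadFormMinus]⟩
      uniq := fun z => Subtype.ext (not_not.mp z.2.1) }
  have h3 : Nat.card {v : (Fin m ⊕ Fin m) ⊕ Fin 2 → F //
      ¬ v ≠ 0 ∧ Cfsg.quadFormMinus m F a b v = 0} = 1 := Nat.card_unique
  rw [h1, ← h2, h3]

end small

end Cfsg.Agent.Lib.Helper18
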