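import Mathlib
import Cfsg.Prelude.Def_LieClassical
import Cfsg.Agent.Lib.Helper18.Quad8
import Cfsg.Agent.Lib.Helper18.StdForm

set_option linter.unusedSimpArgs false
set_option linter.unusedSectionVars false

namespace Cfsg.Agent.Lib.Helper18

open Matrix Cfsg.Agent.Lib.Helper15

section fam

variable {F : Type*} [Field F] [Fintype F] {ι : Type} [Fintype ι] [DecidableEq ι]
variable {V : Type*} [AddCommGroup V] [Module F V] [Finite V]

theorem exists_quad_equiv_of_family (Q : QuadraticForm F V) (Qs : QuadraticForm F (ι → F))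
    (hnd : ∀ x, x ≠ 0 → ∃ y, Qs.polarBilin x y ≠ 0) (b : ι → V)
    (h1 : ∀ i, Q (b i) = Qs (Pi.single i 1))
    (h2 : ∀ i j, Q.polarBilin (b i) (b j) = Qs.polarBilin (Pi.single i 1) (Pi.single j 1))
    (hcard : Nat.card V = Nat.card (ι → F)) :
    ∃ e : (ι → F) ≃ₗ[F] V, ∀ v, Q (e v) = Qs v := by
  let L : (ι → F) →ₗ[F] V := Fintype.linearCombination F b
  have hLs : ∀ i, L (Pi.single i 1) = b i := by
    intro i
    simp [L]
  have hQL : ∀ v, Q (L v) = Qs v := by
    intro v
    have key := quad_ext_basis (Q.comp L) Qs (fun i => (Pi.single i 1 : ι → F))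
      (fun i => by rw [QuadraticMap.comp_apply, hLs, h1])
      (fun i j => by
        rw [← h2, QuadraticMap.polarBilin_apply_apply, QuadraticMap.polar,
          QuadraticMap.comp_apply, QuadraticMap.comp_apply, QuadraticMap.comp_apply, map_add, hLs,
          hLs, QuadraticMap.polarBilin_apply_apply, QuadraticMap.polar]) v Finset.univ
    have hv : ∑ i, v i • (Pi.single i 1 : ι → F) = v := by
      ext k
      simp [Finset.sum_apply, Pi.single_apply]
    rw [hv, QuadraticMap.comp_apply] at key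
    exact key
  have hinj : Function.Injective L := by
    rw [← LinearMap.ker_eq_bot, LinearMap.ker_eq_bot']
    intro u hu
    by_contra hne
    obtain ⟨y, hy⟩ := hnd u hne
    apply hy
    rw [QuadraticMap.polarBilin_apply_apply, QuadraticMap.polar, ← hQL, ← hQL, ← hQL, map_add, hu]
    simp
  have hbij : Function.Bijective L := by
    rw [Nat.bijective_iff_injective_and_card]
    exact ⟨hinj, hcard.symm⟩
  exact ⟨LinearEquiv.ofBijective L hbij, hQL⟩

theorem one_le_oSeq (q c0 : ℕ) (hq : 1 ≤ q) (j : ℕ) : 1 ≤ oSeq q c0 1 j := by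
  induction j with
  | zero => simp [oSeq]
  | succ j ih =>
    simp only [oSeq]
    have : 1 * 1 ≤ q * oSeq q c0 1 j := Nat.mul_le_mul hq ih
    omega

theorem one_lt_oSeq (q c0 : ℕ) (hq : 2 ≤ q) (j : ℕ) : 1 < oSeq q c0 1 (j + 1) := by
  have := one_le_oSeq q c0 (by omega) j
  simp only [oSeq]
  have : 2 * 1 ≤ q * oSeq q c0 1 j := Nat.mul_le_mul hq this
  omega

/-- a quadratic space with the numerical invariants of the hyperbolic space is hyperbolic -/
theorem exists_plus_equiv (Q : QuadraticForm F V) (m : ℕ) (N0 : F → ℕ) (h0 : N0 0 = 1)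
    (hgood : OGood Q 1 N0 (⊤ : Submodule F V) m) :
    ∃ e : (Fin m ⊕ Fin m → F) ≃ₗ[F] V, ∀ v, Q (e v) = Cfsg.quadFormPlus m F v := by
  classical
  have hq : 1 < Fintype.card F := Fintype.one_lt_card
  have hc := oFrameB_card (Q := Q) (fun _ : Fin 0 → V => True) (b0 := 1) (by
    intro U _
    have : Unique {z : Fin 0 → V // (∀ j, z j ∈ U) ∧ True} :=
      { default := ⟨fun j => j.elim0, fun j => j.elim0, trivial⟩
        uniq := fun z => Subtype.ext (funext fun j => j.elim0) }
    exact Nat.card_unique) hgood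
  have hpos : 0 < Nat.card (OFrameB Q (fun _ : Fin 0 → V => True) (⊤ : Submodule F V) m) := by
    rw [hc, h0, one_mul]
    apply Finset.prod_pos
    intro i _
    apply Nat.mul_pos
    · have := one_lt_oSeq (Fintype.card F) 1 hq i
      omega
    · positivity
  obtain ⟨⟨⟨f, z⟩, -, -, h3, h4, -, -⟩⟩ := (Finite.card_pos_iff.mp hpos)
  simp only at h3 h4
  obtain ⟨e, he⟩ := exists_quad_equiv_of_family Q (qPlus m F) qPlus_nondeg
    (Sum.elim (fun i => (f i).1) (fun i => (f i).2))
    (by
      rintro (i | i)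
      · rw [qPlus_single]; exact (h3 i).1
      · rw [qPlus_single]; exact (h3 i).2)
    (by
      rintro (i | i) (l | l)
      · rw [qPlus_polar_ll]; exact (h4 i l).1
      · rw [qPlus_polar_lr]; exact (h4 i l).2.2
      · rw [qB_comm, qB_comm _ (Pi.single _ _), qPlus_polar_lr]; exact (h4 l i).2.2
      · rw [qPlus_polar_rr]; exact (h4 i l).2.1)
    (by
      have := hgood.1
      rw [Nat.card_congr (Submodule.topEquiv (R := F) (M := V)).toEquiv] at this
      rw [this, Nat.card_fun, Nat.card_eq_fintype_card, Nat.card_eq_fintype_card,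
        Fintype.card_sum, Fintype.card_fin, mul_one, two_mul])
  exact ⟨e, fun v => by rw [he, qPlus_apply]⟩

theorem card_base_minus' (a b : F) (Q : QuadraticForm F V)
    (hab : ∀ z₁ z₂ : F, z₁ ^ 2 + a * z₁ * z₂ + b * z₂ ^ 2 = 0 → z₁ = 0 ∧ z₂ = 0)
    (N0 : F → ℕ) (h00 : N0 0 = 1) (h01 : N0 1 = Fintype.card F + 1)
    (U : Submodule F V) (hU : OGood Q (Fintype.card F ^ 2) N0 U 0) :
    Nat.card {z : Fin 2 → V // (∀ j, z j ∈ U) ∧ (Q (z 0) = 1 ∧ Q (z 1) = b ∧
      Q.polarBilin (z 0) (z 1) = a)} = 2 * (Fintype.card F + 1) := by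
  classical
  obtain ⟨hc, hN, hnd⟩ := hU
  have hc' : Nat.card U = Fintype.card F ^ 2 := by
    rw [hc]
    ring
  have h0 := hN 0
  have h1 := hN 1
  simp only [oSeq] at h0 h1
  rw [h00] at h0
  rw [h01] at h1
  have han : ∀ u ∈ U, Q u = 0 → u = 0 := by
    intro u hu hQu
    have := Nat.card_eq_one_iff_unique.mp h0
    have h2 := this.1.elim (⟨⟨u, hu⟩, hQu⟩ : {u : U // Q u.1 = 0}) ⟨0, by simp⟩
    exact congrArg (fun x => x.1.1) h2
  let e : {z : Fin 2 → V // (∀ j, z j ∈ U) ∧ (Q (z 0) = 1 ∧ Q (z 1) = b ∧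
      Q.polarBilin (z 0) (z 1) = a)} ≃
      Σ z0 : {u : U // Q u.1 = 1}, {z : U // (Q.polarBilin z0.1.1 z.1, Q z.1) = (a, b)} :=
    { toFun := fun z => ⟨⟨⟨z.1 0, z.2.1 0⟩, z.2.2.1⟩, ⟨⟨z.1 1, z.2.1 1⟩,
        Prod.ext z.2.2.2.2 z.2.2.2.1⟩⟩
      invFun := fun p => ⟨![p.1.1.1, p.2.1.1], by
        intro j
        fin_cases j
        · exact p.1.1.2
        · exact p.2.1.2, p.1.2, (Prod.ext_iff.mp p.2.2).2, (Prod.ext_iff.mp p.2.2).1⟩
      left_inv := fun z => Subtype.ext (by
        funext j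
        fin_cases j <;> rfl)
      right_inv := fun p => rfl }
  have := Fintype.ofFinite {u : U // Q u.1 = 1}
  rw [Nat.card_congr e, Nat.card_sigma]
  have h2 : ∀ z0 : {u : U // Q u.1 = 1},
      Nat.card {z : U // (Q.polarBilin z0.1.1 z.1, Q z.1) = (a, b)} = 2 := fun z0 =>
    plane_card_second hc' han hnd z0.1.1 z0.1.2 z0.2 a b (aniso_noroot a b hab)
  simp_rw [h2]
  rw [Finset.sum_const, Finset.card_univ, ← Nat.card_eq_fintype_card, h1, smul_eq_mul, mul_comm]

/-- a quadratic space with the numerical invariants of the elliptic space is elliptic -/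
theorem exists_minus_equiv (a b : F)
    (hab : ∀ z₁ z₂ : F, z₁ ^ 2 + a * z₁ * z₂ + b * z₂ ^ 2 = 0 → z₁ = 0 ∧ z₂ = 0)
    (Q : QuadraticForm F V) (k : ℕ) (N0 : F → ℕ) (h00 : N0 0 = 1)
    (h01 : N0 1 = Fintype.card F + 1)
    (hgood : OGood Q (Fintype.card F ^ 2) N0 (⊤ : Submodule F V) k) :
    ∃ e : ((Fin k ⊕ Fin k) ⊕ Fin 2 → F) ≃ₗ[F] V, ∀ v, Q (e v) = Cfsg.quadFormMinus k F a b v := by
  classical
  have hq : 1 < Fintype.card F := Fintype.one_lt_card
  have hc := oFrameB_card (Q := Q) (fun z : Fin 2 → V => Q (z 0) = 1 ∧ Q (z 1) = b ∧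
      Q.polarBilin (z 0) (z 1) = a) (b0 := 2 * (Fintype.card F + 1))
      (fun U hU => card_base_minus' a b Q hab N0 h00 h01 U hU) hgood
  have hpos : 0 < Nat.card (OFrameB Q (fun z : Fin 2 → V => Q (z 0) = 1 ∧ Q (z 1) = b ∧
      Q.polarBilin (z 0) (z 1) = a) (⊤ : Submodule F V) k) := by
    rw [hc, h00]
    apply Nat.mul_pos (by positivity)
    apply Finset.prod_pos
    intro i _
    apply Nat.mul_pos
    · have := one_lt_oSeq (Fintype.card F) (Fintype.card F ^ 2) hq i
      omega
    · positivity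
  obtain ⟨⟨⟨f, z⟩, -, -, h3, h4, h5, h6, h7, h8⟩⟩ := (Finite.card_pos_iff.mp hpos)
  simp only at h3 h4 h5 h6 h7 h8
  let c : (Fin k ⊕ Fin k) ⊕ Fin 2 → V :=
    Sum.elim (Sum.elim (fun i => (f i).1) (fun i => (f i).2)) z
  have hQ : ∀ i, Q (c i) = minusQ k F a b (Pi.single i 1) := by
    rintro ((i | i) | i)
    · rw [qMinus_single]; exact (h3 i).1
    · rw [qMinus_single]; exact (h3 i).2
    · fin_cases i
      · show Q (z 0) = minusQ k F a b (Pi.single (Sum.inr 0) 1)
        rw [qMinus_single0]; exact h6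
      · show Q (z 1) = minusQ k F a b (Pi.single (Sum.inr 1) 1)
        rw [qMinus_single1]; exact h7
  obtain ⟨e, he⟩ := exists_quad_equiv_of_family Q (minusQ k F a b) (qMinus_nondeg a b hab) c hQ
    (by
      rintro ((i | i) | i) ((l | l) | l)
      · rw [qMinus_polar_ll]; exact (h4 i l).1
      · rw [qMinus_polar_lr]; exact (h4 i l).2.2
      · rw [qMinus_polar_0]; exact (h5 i l).1
      · rw [qB_comm, qB_comm _ (Pi.single _ _), qMinus_polar_lr]; exact (h4 l i).2.2
      · rw [qMinus_polar_rr]; exact (h4 i l).2.1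
      · rw [qMinus_polar_0]; exact (h5 i l).2
      · rw [qB_comm, qB_comm _ (Pi.single _ _), qMinus_polar_0]; exact (h5 l i).1
      · rw [qB_comm, qB_comm _ (Pi.single _ _), qMinus_polar_0]; exact (h5 l i).2
      · by_cases hil : i = l
        · subst hil
          rw [QuadraticMap.polarBilin_apply_apply, QuadraticMap.polarBilin_apply_apply,
            QuadraticMap.polar_self, QuadraticMap.polar_self, hQ]
        · have h01' : Q.polarBilin (z 0) (z 1)
              = (minusQ k F a b).polarBilin (Pi.single (Sum.inr 0) 1) (Pi.single (Sum.inr 1) 1) := by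
            rw [qMinus_polar_01]; exact h8
          fin_cases i <;> fin_cases l
          · exact absurd rfl hil
          · exact h01'
          · show Q.polarBilin (z 1) (z 0)
              = (minusQ k F a b).polarBilin (Pi.single (Sum.inr 1) 1) (Pi.single (Sum.inr 0) 1)
            rw [qB_comm, qB_comm _ (Pi.single _ _)]; exact h01'
          · exact absurd rfl hil)
    (by
      have := hgood.1
      rw [Nat.card_congr (Submodule.topEquiv (R := F) (M := V)).toEquiv] at this
      rw [this, Nat.card_fun, Nat.card_eq_fintype_card, Nat.card_eq_fintype_card,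
        Fintype.card_sum, Fintype.card_sum, Fintype.card_fin, Fintype.card_fin, pow_add, two_mul])
  exact ⟨e, fun v => by rw [he, minusQ_apply]⟩

end fam

end Cfsg.Agent.Lib.Helper18
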