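import Mathlib
import Cfsg.Prelude.Def_LieClassical
import Cfsg.Agent.Lib.Helper18.StdQuad
import Cfsg.Agent.Lib.Helper18.Quad9

set_option linter.unusedSimpArgs false
set_option linter.unusedSectionVars false

/-! quadratic forms over `F_2` polarising to the standard alternating form -/

namespace Cfsg.Agent.Lib.Helper18

open Cfsg.Agent.Lib.Helper15

section f2

variable {m : ℕ}

/-- the polar form of the standard hyperbolic form over `F_2` -/
def f2B (m : ℕ) (u v : Fin m ⊕ Fin m → ZMod 2) : ZMod 2 :=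
  Cfsg.quadFormPlus m (ZMod 2) (u + v) - Cfsg.quadFormPlus m (ZMod 2) u
    - Cfsg.quadFormPlus m (ZMod 2) v

/-- `q` polarises to the standard form -/
def IsF2Quad (m : ℕ) (q : (Fin m ⊕ Fin m → ZMod 2) → ZMod 2) : Prop :=
  ∀ u v, q (u + v) = q u + q v + f2B m u v

theorem f2B_eq (u v : Fin m ⊕ Fin m → ZMod 2) :
    f2B m u v = (qPlus m (ZMod 2)).polarBilin u v := by
  rw [QuadraticMap.polarBilin_apply_apply, QuadraticMap.polar, qPlus_apply, qPlus_apply,
    qPlus_apply]
  rfl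

theorem zmod2_cases (x : ZMod 2) : x = 0 ∨ x = 1 := by
  revert x
  decide

theorem zmod2_mul_self (x : ZMod 2) : x * x = x := by
  revert x
  decide

theorem isF2Quad_plus : IsF2Quad m (Cfsg.quadFormPlus m (ZMod 2)) := by
  intro u v
  unfold f2B
  ring

theorem f2B_add_left (u v w : Fin m ⊕ Fin m → ZMod 2) :
    f2B m (u + v) w = f2B m u w + f2B m v w := by
  rw [f2B_eq, f2B_eq, f2B_eq, map_add, LinearMap.add_apply]

theorem f2B_self (w : Fin m ⊕ Fin m → ZMod 2) : f2B m w w = 0 := by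
  rw [f2B_eq, QuadraticMap.polarBilin_apply_apply, QuadraticMap.polar_self]
  have : (2 : ZMod 2) = 0 := by decide
  simp [this]

theorem f2_zero {q : (Fin m ⊕ Fin m → ZMod 2) → ZMod 2} (hq : IsF2Quad m q) : q 0 = 0 := by
  have h := hq 0 0
  have h0 : f2B m (0 : Fin m ⊕ Fin m → ZMod 2) 0 = 0 := f2B_self 0
  rw [h0, add_zero, add_zero] at h
  exact left_eq_add.mp h

theorem f2_shift {q : (Fin m ⊕ Fin m → ZMod 2) → ZMod 2} (hq : IsF2Quad m q)
    (v w : Fin m ⊕ Fin m → ZMod 2) : q v + f2B m v w = q (v + w) + q w := by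
  rw [hq v w]
  have : q w + q w = 0 := CharTwo.add_self_eq_zero _
  linear_combination (-1 : ZMod 2) * this

theorem f2_card_shift {q : (Fin m ⊕ Fin m → ZMod 2) → ZMod 2} (hq : IsF2Quad m q)
    (w : Fin m ⊕ Fin m → ZMod 2) (t : ZMod 2) :
    Nat.card {v // q v + f2B m v w = t} = Nat.card {u // q u = t + q w} := by
  apply Nat.card_congr
  refine (Equiv.addRight w).subtypeEquiv (fun v => ?_)
  rw [f2_shift hq]
  show _ ↔ q (v + w) = t + q w
  have : q w + q w = 0 := CharTwo.add_self_eq_zero _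
  constructor
  · intro h
    linear_combination h - this
  · intro h
    linear_combination h + this

theorem f2_card_add (q : (Fin m ⊕ Fin m → ZMod 2) → ZMod 2) :
    Nat.card {v // q v = 0} + Nat.card {v // q v = 1} = 2 ^ (2 * m) := by
  have h1 := Nat.card_congr (Equiv.sumCompl (fun v => q v = 0))
  rw [Nat.card_sum] at h1
  have h2 : Nat.card {v // ¬ q v = 0} = Nat.card {v // q v = 1} := by
    apply Nat.card_congr
    refine Equiv.subtypeEquivRight (fun v => ?_)
    rcases zmod2_cases (q v) with h | h <;> simp [h]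
  rw [h2] at h1
  rw [h1, Nat.card_fun, Nat.card_eq_fintype_card (α := Fin m ⊕ Fin m), Fintype.card_sum,
    Fintype.card_fin, Nat.card_eq_fintype_card, ZMod.card, two_mul]

theorem f2_two_mul_card_plus :
    2 * Nat.card {v // Cfsg.quadFormPlus m (ZMod 2) v = 0} = 2 ^ (2 * m) + 2 ^ m := by
  have h := (qPlus_good (m := m) (F := ZMod 2)).2.1 0
  simp only at h
  have h1 : Nat.card {u : (⊤ : Submodule (ZMod 2) (Fin m ⊕ Fin m → ZMod 2)) //
      qPlus m (ZMod 2) u.1 = 0}
      = Nat.card {v : Fin m ⊕ Fin m → ZMod 2 // Cfsg.quadFormPlus m (ZMod 2) v = 0} := by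
    apply Nat.card_congr
    refine (Submodule.topEquiv (R := ZMod 2)).toEquiv.subtypeEquiv (fun u => ?_)
    rw [qPlus_apply]
    rfl
  rw [h1] at h
  have h2 : Nat.card {z : Unit // True} = 1 := by
    have : Unique {z : Unit // True} :=
      { default := ⟨(), trivial⟩
        uniq := fun z => Subtype.ext rfl }
    exact Nat.card_unique
  rw [h2, Nat.card_unique (α := Unit), ZMod.card] at h
  rw [h, oSeq_closed 2 1 1 (by norm_num) m]
  have h3 : 1 ≤ 2 ^ m := Nat.one_le_two_pow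
  zify [h3]
  ring

theorem f2_two_mul_card_minus (k : ℕ) :
    2 * Nat.card {v // Cfsg.quadFormMinus k (ZMod 2) 1 1 v = 0} + 2 ^ (k + 1)
      = 2 ^ (2 * (k + 1)) := by
  have h := (qMinus_good (m := k) (1 : ZMod 2) 1 (aniso_one_one (by simp))).2.1 0
  simp only at h
  rw [conic_card_zero (1 : ZMod 2) 1 (aniso_one_one (by simp)), Nat.card_prod,
    Nat.card_eq_fintype_card (α := ZMod 2), ZMod.card] at h
  have h1 : Nat.card {u : (⊤ : Submodule (ZMod 2) ((Fin k ⊕ Fin k) ⊕ Fin 2 → ZMod 2)) //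
      minusQ k (ZMod 2) 1 1 u.1 = 0}
      = Nat.card {v : (Fin k ⊕ Fin k) ⊕ Fin 2 → ZMod 2 //
        Cfsg.quadFormMinus k (ZMod 2) 1 1 v = 0} := by
    apply Nat.card_congr
    refine (Submodule.topEquiv (R := ZMod 2)).toEquiv.subtypeEquiv (fun u => ?_)
    rw [minusQ_apply]
    rfl
  rw [h1] at h
  rw [h, oSeq_closed 2 (2 * 2) 1 (by norm_num) k]
  have h3 : 1 ≤ 2 ^ k := Nat.one_le_two_pow
  zify [h3]
  ring

/-- the transvection with centre `w` -/
noncomputable def f2T (w : Fin m ⊕ Fin m → ZMod 2) :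
    (Fin m ⊕ Fin m → ZMod 2) ≃ₗ[ZMod 2] (Fin m ⊕ Fin m → ZMod 2) :=
  LinearEquiv.ofInvolutive
    (LinearMap.id + ((qPlus m (ZMod 2)).polarBilin.flip w).smulRight w) (by
      intro v
      have hw : (qPlus m (ZMod 2)).polarBilin w w = 0 := by
        rw [← f2B_eq, f2B_self]
      simp only [LinearMap.add_apply, LinearMap.id_apply, LinearMap.smulRight_apply,
        LinearMap.flip_apply, map_add, map_smul, LinearMap.smul_apply, hw, smul_zero, add_zero]
      rw [zero_smul, add_zero, add_assoc, ← add_smul, CharTwo.add_self_eq_zero, zero_smul,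
        add_zero])

theorem f2T_apply (w v : Fin m ⊕ Fin m → ZMod 2) : f2T w v = v + f2B m v w • w := by
  rw [f2B_eq]
  rfl

theorem f2_q_T {q : (Fin m ⊕ Fin m → ZMod 2) → ZMod 2} (hq : IsF2Quad m q)
    {w : Fin m ⊕ Fin m → ZMod 2} (hw : q w = 0) (v : Fin m ⊕ Fin m → ZMod 2) :
    q (f2T w v) = q v + f2B m v w := by
  rw [f2T_apply]
  rcases zmod2_cases (f2B m v w) with h | h
  · rw [h]
    simp
  · rw [h, one_smul, hq, hw, h]
    ring

theorem f2_exists_c {q : (Fin m ⊕ Fin m → ZMod 2) → ZMod 2} (hq : IsF2Quad m q) :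
    ∃ c, ∀ v, q v = Cfsg.quadFormPlus m (ZMod 2) v + f2B m v c := by
  classical
  let l : (Fin m ⊕ Fin m → ZMod 2) →+ ZMod 2 :=
    AddMonoidHom.mk' (fun v => q v - Cfsg.quadFormPlus m (ZMod 2) v) (by
      intro u v
      rw [hq]
      unfold f2B
      ring)
  let L : (Fin m ⊕ Fin m → ZMod 2) →ₗ[ZMod 2] ZMod 2 := l.toZModLinearMap 2
  refine ⟨fun j => L (fun j' => if Sum.swap j = j' then 1 else 0), fun v => ?_⟩
  have h1 : q v = Cfsg.quadFormPlus m (ZMod 2) v + L v := by
    show q v = Cfsg.quadFormPlus m (ZMod 2) v + (q v - Cfsg.quadFormPlus m (ZMod 2) v)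
    ring
  rw [h1, f2B_eq, qPlus_polar]
  congr 1
  rw [LinearMap.pi_apply_eq_sum_univ L v, Fintype.sum_sum_type, ← Finset.sum_add_distrib]
  rfl

theorem f2B_right_injective {c c' : Fin m ⊕ Fin m → ZMod 2}
    (h : ∀ v, f2B m v c = f2B m v c') : c = c' := by
  by_contra hne
  obtain ⟨y, hy⟩ := qPlus_nondeg (c - c') (sub_ne_zero.2 hne)
  apply hy
  rw [qB_comm, map_sub, ← f2B_eq, ← f2B_eq, h, sub_self]

theorem isF2Quad_c (c : Fin m ⊕ Fin m → ZMod 2) :
    IsF2Quad m (fun v => Cfsg.quadFormPlus m (ZMod 2) v + f2B m v c) := by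
  intro u v
  show Cfsg.quadFormPlus m (ZMod 2) (u + v) + f2B m (u + v) c = _
  rw [f2B_add_left, isF2Quad_plus u v]
  ring

/-- the forms polarising to the standard form are parametrised by vectors -/
noncomputable def f2Equiv (m : ℕ) : (Fin m ⊕ Fin m → ZMod 2) ≃ {q // IsF2Quad m q} :=
  Equiv.ofBijective (fun c => ⟨fun v => Cfsg.quadFormPlus m (ZMod 2) v + f2B m v c, isF2Quad_c c⟩)
    ⟨fun c c' h => f2B_right_injective (fun v => by
        have := congrFun (congrArg Subtype.val h) v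
        exact add_left_cancel this),
      fun q => by
        obtain ⟨c, hc⟩ := f2_exists_c q.2
        exact ⟨c, Subtype.ext (funext fun v => (hc v).symm)⟩⟩

theorem f2Equiv_apply (c v : Fin m ⊕ Fin m → ZMod 2) :
    (f2Equiv m c).1 v = Cfsg.quadFormPlus m (ZMod 2) v + f2B m v c := rfl

theorem f2_two_mul_card_one :
    2 * Nat.card {v // Cfsg.quadFormPlus m (ZMod 2) v = 1} + 2 ^ m = 2 ^ (2 * m) := by
  have h1 := f2_two_mul_card_plus (m := m)
  have h2 := f2_card_add (Cfsg.quadFormPlus m (ZMod 2))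
  omega

theorem f2_two_mul_card_ne {q : (Fin m ⊕ Fin m → ZMod 2) → ZMod 2} (hq : IsF2Quad m q) :
    2 * Nat.card {v // q v = 0} ≠ 2 ^ (2 * m) := by
  obtain ⟨c, hc⟩ := f2_exists_c hq
  have h1 : Nat.card {v // q v = 0}
      = Nat.card {u // Cfsg.quadFormPlus m (ZMod 2) u = 0 + Cfsg.quadFormPlus m (ZMod 2) c} := by
    rw [← f2_card_shift isF2Quad_plus c 0]
    apply Nat.card_congr
    exact Equiv.subtypeEquivRight (fun v => by rw [hc])
  have hpos : 0 < 2 ^ m := by positivity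
  rcases zmod2_cases (Cfsg.quadFormPlus m (ZMod 2) c) with h | h
  · rw [h1, h, add_zero]
    have := f2_two_mul_card_plus (m := m)
    omega
  · rw [h1, h, zero_add]
    have := f2_two_mul_card_one (m := m)
    omega

end f2

end Cfsg.Agent.Lib.Helper18
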