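import Mathlib
import Cfsg.Prelude.Def_LieClassical
import Cfsg.Agent.Lib.Helper18.F2Forms

set_option linter.unusedSimpArgs false
set_option linter.unusedSectionVars false

/-! types of the quadratic forms over `F_2` polarising to the standard alternating form -/

namespace Cfsg.Agent.Lib.Helper18

open Cfsg.Agent.Lib.Helper15

section f2

variable {k : ℕ}

/-- isometric to the hyperbolic form -/
def IsF2Plus (m : ℕ) (q : (Fin m ⊕ Fin m → ZMod 2) → ZMod 2) : Prop :=
  ∃ g : (Fin m ⊕ Fin m → ZMod 2) ≃ₗ[ZMod 2] (Fin m ⊕ Fin m → ZMod 2),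
    ∀ v, q v = Cfsg.quadFormPlus m (ZMod 2) (g v)

/-- isometric to the elliptic form -/
def IsF2Minus (k : ℕ) (q : (Fin (k + 1) ⊕ Fin (k + 1) → ZMod 2) → ZMod 2) : Prop :=
  ∃ g : (Fin (k + 1) ⊕ Fin (k + 1) → ZMod 2) ≃ₗ[ZMod 2] ((Fin k ⊕ Fin k) ⊕ Fin 2 → ZMod 2),
    ∀ v, q v = Cfsg.quadFormMinus k (ZMod 2) 1 1 (g v)

theorem f2_card_qc {m : ℕ} (c : Fin m ⊕ Fin m → ZMod 2) (t : ZMod 2) :
    Nat.card {v // (f2Equiv m c).1 v = t}
      = Nat.card {u // Cfsg.quadFormPlus m (ZMod 2) u = t + Cfsg.quadFormPlus m (ZMod 2) c} :=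
  f2_card_shift isF2Quad_plus c t

theorem f2_plus_iff {m : ℕ} (c : Fin m ⊕ Fin m → ZMod 2) :
    IsF2Plus m (f2Equiv m c).1 ↔ Cfsg.quadFormPlus m (ZMod 2) c = 0 := by
  constructor
  · rintro ⟨g, hg⟩
    by_contra hc
    have hc1 := (zmod2_cases _).resolve_left hc
    have h1 := f2_card_qc c 0
    rw [hc1, zero_add] at h1
    have h2 : Nat.card {v // (f2Equiv m c).1 v = 0}
        = Nat.card {u // Cfsg.quadFormPlus m (ZMod 2) u = 0} := by
      apply Nat.card_congr
      exact g.toEquiv.subtypeEquiv (fun v => by rw [hg]; rfl)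
    have h3 := f2_two_mul_card_plus (m := m)
    have h4 := f2_two_mul_card_one (m := m)
    have hpos : 0 < 2 ^ m := by positivity
    omega
  · intro hc
    exact ⟨f2T c, fun v => (f2_q_T isF2Quad_plus hc v).symm⟩

/-- the form `q_c` as a quadratic form -/
noncomputable def f2Q {m : ℕ} (c : Fin m ⊕ Fin m → ZMod 2) :
    QuadraticForm (ZMod 2) (Fin m ⊕ Fin m → ZMod 2) :=
  qPlus m (ZMod 2) + QuadraticMap.linMulLin ((qPlus m (ZMod 2)).polarBilin.flip c)
    ((qPlus m (ZMod 2)).polarBilin.flip c)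

theorem f2Q_apply {m : ℕ} (c v : Fin m ⊕ Fin m → ZMod 2) : f2Q c v = (f2Equiv m c).1 v := by
  rw [f2Equiv_apply, f2B_eq]
  simp only [f2Q, _root_.add_apply, QuadraticMap.linMulLin_apply, LinearMap.flip_apply,
    zmod2_mul_self, qPlus_apply]

theorem f2Q_polar {m : ℕ} (c x y : Fin m ⊕ Fin m → ZMod 2) :
    (f2Q c).polarBilin x y = (qPlus m (ZMod 2)).polarBilin x y := by
  rw [QuadraticMap.polarBilin_apply_apply, QuadraticMap.polar, f2Q_apply, f2Q_apply, f2Q_apply,
    (f2Equiv m c).2 x y, ← f2B_eq]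
  ring

theorem f2_minus_iff (c : Fin (k + 1) ⊕ Fin (k + 1) → ZMod 2) :
    IsF2Minus k (f2Equiv (k + 1) c).1 ↔ Cfsg.quadFormPlus (k + 1) (ZMod 2) c = 1 := by
  have h3 := f2_two_mul_card_plus (m := k + 1)
  have h4 := f2_two_mul_card_one (m := k + 1)
  have hpos : 0 < 2 ^ (k + 1) := by positivity
  constructor
  · rintro ⟨g, hg⟩
    by_contra hc
    have hc1 := (zmod2_cases _).resolve_right hc
    have h1 := f2_card_qc c 0
    rw [hc1, zero_add] at h1
    have h2 : Nat.card {v // (f2Equiv (k + 1) c).1 v = 0}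
        = Nat.card {u // Cfsg.quadFormMinus k (ZMod 2) 1 1 u = 0} := by
      apply Nat.card_congr
      exact g.toEquiv.subtypeEquiv (fun v => by rw [hg]; rfl)
    have h5 := f2_two_mul_card_minus k
    omega
  · intro hc
    have htop : ∀ t, Nat.card {u : (⊤ : Submodule (ZMod 2) (Fin (k + 1) ⊕ Fin (k + 1) → ZMod 2)) //
        f2Q c u.1 = t} = Nat.card {v // (f2Equiv (k + 1) c).1 v = t} := by
      intro t
      apply Nat.card_congr
      refine (Submodule.topEquiv (R := ZMod 2)).toEquiv.subtypeEquiv (fun u => ?_)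
      rw [f2Q_apply]
      rfl
    have h2k : 1 ≤ 2 ^ k := Nat.one_le_two_pow
    obtain ⟨e, he⟩ := exists_minus_equiv (1 : ZMod 2) 1 (aniso_one_one (by simp)) (f2Q c) k
      (fun t => if t = 0 then 1 else 3) (by simp) (by simp) (by
        refine ⟨?_, ?_, ?_⟩
        · rw [Nat.card_congr (Submodule.topEquiv (R := ZMod 2)).toEquiv, Nat.card_fun,
            Nat.card_eq_fintype_card (α := Fin (k + 1) ⊕ Fin (k + 1)), Fintype.card_sum,
            Fintype.card_fin, Nat.card_eq_fintype_card, ZMod.card]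
          ring
        · intro t
          rw [htop, f2_card_qc, hc, ZMod.card]
          apply Nat.eq_of_mul_eq_mul_left (show 0 < 2 by norm_num)
          rw [oSeq_closed 2 (2 ^ 2) _ (by norm_num) k]
          rcases zmod2_cases t with rfl | rfl
          · rw [zero_add]
            show _ = (2 ^ k - 1) * 2 ^ k * 2 ^ 2 + 2 ^ (k + 1) * 1
            have : (2 ^ k - 1) * 2 ^ k * 2 ^ 2 + 2 ^ (k + 1) * 1 + 2 ^ (k + 1)
                = 2 ^ (2 * (k + 1)) := by
              zify [h2k]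
              ring
            omega
          · rw [show (1 : ZMod 2) + 1 = 0 by decide]
            show _ = (2 ^ k - 1) * 2 ^ k * 2 ^ 2 + 2 ^ (k + 1) * 3
            have : (2 ^ k - 1) * 2 ^ k * 2 ^ 2 + 2 ^ (k + 1) * 3
                = 2 ^ (2 * (k + 1)) + 2 ^ (k + 1) := by
              zify [h2k]
              ring
            omega
        · intro x _ hx
          obtain ⟨y, hy⟩ := qPlus_nondeg x hx
          exact ⟨y, trivial, by rw [f2Q_polar]; exact hy⟩)
    refine ⟨e.symm, fun v => ?_⟩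
    rw [← he, LinearEquiv.apply_symm_apply, f2Q_apply]

end f2

end Cfsg.Agent.Lib.Helper18
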