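import Mathlib
import Cfsg.Prelude.Def_LieClassical
import Cfsg.Agent.Lib.Helper18.Herm6

set_option linter.unusedSimpArgs false
set_option linter.unusedSectionVars false

namespace Cfsg.Agent.Lib.Helper18

open Matrix

section emb

variable {F K : Type*} [Field F] [Fintype F] [Field K] [Fintype K] {q : ℕ}

theorem exists_ringHom_of_card_sq (hF : Fintype.card F = q) (hK : Fintype.card K = q ^ 2) :
    Nonempty (F →+* K) := by
  obtain ⟨p, hp⟩ := CharP.exists F
  have hpp : Fact p.Prime := ⟨CharP.char_is_prime F p⟩
  have := Fintype.ofFinite (FiniteField.Extension F p 2)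
  have hc : Fintype.card (FiniteField.Extension F p 2) = Fintype.card K := by
    rw [← Nat.card_eq_fintype_card, FiniteField.natCard_extension, Nat.card_eq_fintype_card, hF, hK]
  exact ⟨(FiniteField.ringEquivOfCardEq hc).toRingHom.comp (algebraMap F _)⟩

variable [Algebra F K] (hF : Fintype.card F = q) (hK : Fintype.card K = q ^ 2)

include hF in
theorem algMap_pow (x : F) : (algebraMap F K x) ^ q = algebraMap F K x := by
  rw [← map_pow, ← hF, FiniteField.pow_card]

include hF hK in
theorem algMap_surj_fix (y : K) (hy : y ^ q = y) : ∃ x, algebraMap F K x = y := by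
  let f : F → {s : K // s ^ q = s} := fun x => ⟨algebraMap F K x, algMap_pow hF x⟩
  have hf : Function.Injective f := by
    intro x x' h
    exact (algebraMap F K).injective (congrArg Subtype.val h)
  have hb : Function.Bijective f := by
    rw [Nat.bijective_iff_injective_and_card]
    exact ⟨hf, by rw [herm_card_fix hK, Nat.card_eq_fintype_card, hF]⟩
  obtain ⟨x, hx⟩ := hb.2 ⟨y, hy⟩
  exact ⟨x, congrArg Subtype.val hx⟩

include hK in
theorem trace_fix (z : K) : (z + z ^ q) ^ q = z + z ^ q := by
  rw [herm_add_pow hK, herm_pow_pow hK, add_comm]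

/-- the trace `z + z^q` with values in the small field -/
noncomputable def trF : K →ₗ[F] F where
  toFun z := Classical.choose (algMap_surj_fix hF hK (z + z ^ q) (trace_fix hK z))
  map_add' z w := by
    apply (algebraMap F K).injective
    rw [map_add, Classical.choose_spec (algMap_surj_fix hF hK _ (trace_fix hK (z + w))),
      Classical.choose_spec (algMap_surj_fix hF hK _ (trace_fix hK z)),
      Classical.choose_spec (algMap_surj_fix hF hK _ (trace_fix hK w)), herm_add_pow hK]
    ring
  map_smul' c z := by
    apply (algebraMap F K).injective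
    rw [RingHom.id_apply, smul_eq_mul, map_mul,
      Classical.choose_spec (algMap_surj_fix hF hK _ (trace_fix hK (c • z))),
      Classical.choose_spec (algMap_surj_fix hF hK _ (trace_fix hK z)), Algebra.smul_def, mul_pow,
      algMap_pow hF]
    ring

theorem trF_spec (z : K) : algebraMap F K (trF hF hK z) = z + z ^ q :=
  Classical.choose_spec (algMap_surj_fix hF hK _ (trace_fix hK z))

theorem trF_eq_zero_iff (z : K) : trF hF hK z = 0 ↔ z + z ^ q = 0 := by
  rw [← trF_spec hF hK, map_eq_zero (algebraMap F K)]

include hK in
theorem exists_trF_eq_one : ∃ z : K, z + z ^ q = 1 := herm_trace_surj hK 1 (one_pow q)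

include hK in
theorem exists_skew : ∃ ε : K, ε ≠ 0 ∧ ε + ε ^ q = 0 := by
  classical
  have hq := herm_q_pos hK
  by_contra hcon
  push Not at hcon
  let f : K → {s : K // s ^ q = s} := fun z => ⟨z + z ^ q, trace_fix hK z⟩
  have hf : Function.Injective f := by
    intro z w h
    have h1 : z + z ^ q = w + w ^ q := congrArg Subtype.val h
    by_contra hne
    apply hcon (z - w) (sub_ne_zero.mpr hne)
    rw [herm_sub_pow hK]
    linear_combination h1
  have := Nat.card_le_card_of_injective f hf
  rw [herm_card_fix hK, Nat.card_eq_fintype_card, hK] at this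
  nlinarith

/-- matrices over the big field as linear maps over the small field -/
noncomputable def matRep (ι : Type*) [Fintype ι] [DecidableEq ι] :
    Matrix ι ι K →* Module.End F (ι → K) where
  toFun A := (Matrix.mulVecLin A).restrictScalars F
  map_one' := by
    ext v
    simp
  map_mul' A B := by
    ext v
    simp

theorem matRep_apply {ι : Type*} [Fintype ι] [DecidableEq ι] (A : Matrix ι ι K) (v : ι → K) :
    matRep (F := F) ι A v = A *ᵥ v := rfl

theorem matRep_injective {ι : Type*} [Fintype ι] [DecidableEq ι] :
    Function.Injective (matRep (F := F) (K := K) ι) := by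
  intro A B h
  ext i j
  have := congrFun (congrArg (fun f : Module.End F (ι → K) => f (Pi.single j 1)) h) i
  simpa [matRep_apply] using this

/-- the form `tr (θ h(u,v))` -/
noncomputable def trBilin {V : Type*} [AddCommGroup V] [Module F V] (h : V → V → K)
    (hal : ∀ u u' v, h (u + u') v = h u v + h u' v) (har : ∀ u v v', h u (v + v') = h u v + h u v')
    (hsl : ∀ (c : F) u v, h (c • u) v = algebraMap F K c * h u v)
    (hsr : ∀ (c : F) u v, h u (c • v) = algebraMap F K c * h u v) (θ : K) :
    LinearMap.BilinForm F V :=
  LinearMap.mk₂ F (fun u v => trF hF hK (θ * h u v))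
    (fun u u' v => by rw [hal, mul_add, map_add])
    (fun c u v => by
      rw [hsl, ← map_smul, Algebra.smul_def]
      congr 1
      ring)
    (fun u v v' => by rw [har, mul_add, map_add])
    (fun c u v => by
      rw [hsr, ← map_smul, Algebra.smul_def]
      congr 1
      ring)

theorem trBilin_apply {V : Type*} [AddCommGroup V] [Module F V] (h : V → V → K)
    (hal : ∀ u u' v, h (u + u') v = h u v + h u' v) (har : ∀ u v v', h u (v + v') = h u v + h u v')
    (hsl : ∀ (c : F) u v, h (c • u) v = algebraMap F K c * h u v)
    (hsr : ∀ (c : F) u v, h u (c • v) = algebraMap F K c * h u v) (θ : K) (u v : V) :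
    trBilin hF hK h hal har hsl hsr θ u v = trF hF hK (θ * h u v) := rfl

include hF hK in
theorem card_fun_big (ι : Type*) [Fintype ι] :
    Nat.card (ι → K) = Fintype.card F ^ (2 * Fintype.card ι) := by
  rw [Nat.card_fun, Nat.card_eq_fintype_card, Nat.card_eq_fintype_card, hK, hF, pow_mul]

end emb

end Cfsg.Agent.Lib.Helper18
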