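import Mathlib
import Cfsg.Agent.Lib.Helper18.GL2

set_option linter.unusedSimpArgs false

namespace Cfsg.Agent.Lib.Helper18

open Matrix

variable {F : Type*} [Field F]

section sylow

variable [Fintype F] (p : ℕ) [Fact p.Prime] [CharP F p]

theorem sylow_GL2_TI (P Q : Sylow p (GL (Fin 2) F)) (h : P ≠ Q) :
    (P : Subgroup (GL (Fin 2) F)) ⊓ (Q : Subgroup (GL (Fin 2) F)) = ⊥ := by
  obtain ⟨g, hg⟩ := exists_conj_U2 p P
  obtain ⟨k, hk⟩ := exists_conj_U2 p Q
  have hm : (g⁻¹ * k) 1 0 ≠ 0 := by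
    intro h0
    apply h
    have hn := mem_normalizer_U2.mpr h0
    rw [Subgroup.mem_normalizer_iff] at hn
    ext x
    change x ∈ P ↔ x ∈ Q
    rw [hg x, hk x, hn (k⁻¹ * x * k)]
    have : g⁻¹ * k * (k⁻¹ * x * k) * (g⁻¹ * k)⁻¹ = g⁻¹ * x * g := by group
    rw [this]
  rw [eq_bot_iff]
  intro x hx
  obtain ⟨hx1, hx2⟩ := Subgroup.mem_inf.mp hx
  obtain ⟨y, hy⟩ := mem_U2.mp ((hg x).mp hx1)
  obtain ⟨z, hz⟩ := mem_U2.mp ((hk x).mp hx2)
  have hc : (g⁻¹ * k) * T2 z = T2 y * (g⁻¹ * k) := by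
    rw [hy, hz]; group
  have h0 := (comm_T2 hc).1
  have hz0 : z = 0 := (mul_eq_zero.mp h0).resolve_left hm
  rw [hz0, T2_zero] at hz
  rw [Subgroup.mem_bot]
  have : x = k * (k⁻¹ * x * k) * k⁻¹ := by group
  rw [this, ← hz]
  group

end sylow

lemma mem_centralizer_T2 {x : F} (hx : x ≠ 0) {h : GL (Fin 2) F} :
    h ∈ Subgroup.centralizer ({T2 x} : Set (GL (Fin 2) F)) ↔ h 1 0 = 0 ∧ h 0 0 = h 1 1 := by
  rw [Subgroup.mem_centralizer_singleton_iff]
  constructor
  · intro hc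
    obtain ⟨h1, -, h3⟩ := comm_T2 hc
    refine ⟨(mul_eq_zero.mp h1).resolve_right hx, ?_⟩
    have : x * (h 0 0 - h 1 1) = 0 := by linear_combination h3
    exact sub_eq_zero.mp ((mul_eq_zero.mp this).resolve_left hx)
  · rintro ⟨h1, h2⟩
    apply Units.ext
    rw [mul_T2_entries, T2_mul_entries, h1, h2]
    ext i j
    fin_cases i <;> fin_cases j <;> simp
    ring

noncomputable def C2equiv : {g : GL (Fin 2) F // g 1 0 = 0 ∧ g 0 0 = g 1 1} ≃ Fˣ × F where
  toFun g := (Units.mk0 (g.1 0 0) (by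
      have hd := det_GL2 g.1
      rw [g.2.1, mul_zero, sub_zero] at hd
      exact left_ne_zero_of_mul hd), g.1 0 1)
  invFun t := ⟨Matrix.GeneralLinearGroup.mkOfDetNeZero !![(t.1 : F), t.2; 0, (t.1 : F)]
    (by simp [Matrix.det_fin_two]), by simp [Matrix.GeneralLinearGroup.mkOfDetNeZero]⟩
  left_inv g := by
    apply Subtype.ext
    apply Units.ext
    ext i j
    fin_cases i <;> fin_cases j <;> simp [Matrix.GeneralLinearGroup.mkOfDetNeZero, g.2.1, g.2.2]
  right_inv t := by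
    obtain ⟨a, b⟩ := t
    simp [Matrix.GeneralLinearGroup.mkOfDetNeZero, Prod.ext_iff, Units.ext_iff]

theorem card_centralizer_sylow_elt [Fintype F] (p : ℕ) [Fact p.Prime] [CharP F p]
    (P : Sylow p (GL (Fin 2) F)) (a : GL (Fin 2) F) (ha : a ∈ P) (ha1 : a ≠ 1) :
    Nat.card (Subgroup.centralizer ({a} : Set (GL (Fin 2) F))) =
      Fintype.card F * (Fintype.card F - 1) := by
  classical
  obtain ⟨g, hg⟩ := exists_conj_U2 p P
  obtain ⟨x, hx⟩ := mem_U2.mp ((hg a).mp ha)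
  have hx0 : x ≠ 0 := by
    rintro rfl
    apply ha1
    rw [T2_zero] at hx
    have : a = g * (g⁻¹ * a * g) * g⁻¹ := by group
    rw [this, ← hx]; group
  have e : (Subgroup.centralizer ({a} : Set (GL (Fin 2) F))) ≃
      (Subgroup.centralizer ({T2 x} : Set (GL (Fin 2) F))) :=
    (MulAut.conj g⁻¹).toEquiv.subtypeEquiv (fun h => by
      rw [Subgroup.mem_centralizer_singleton_iff, Subgroup.mem_centralizer_singleton_iff, hx]
      simp only [MulEquiv.toEquiv_eq_coe, MulEquiv.coe_toEquiv, MulAut.conj_apply, inv_inv]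
      constructor
      · intro hc
        have : g⁻¹ * h * g * (g⁻¹ * a * g) = g⁻¹ * (h * a) * g := by group
        rw [this, hc]; group
      · intro hc
        have h1 : h * a = g * (g⁻¹ * h * g * (g⁻¹ * a * g)) * g⁻¹ := by group
        rw [h1, hc]; group)
  have e2 : (Subgroup.centralizer ({T2 x} : Set (GL (Fin 2) F))) ≃
      {g : GL (Fin 2) F // g 1 0 = 0 ∧ g 0 0 = g 1 1} :=
    Equiv.subtypeEquivRight (fun g => mem_centralizer_T2 hx0)
  rw [Nat.card_congr ((e.trans e2).trans C2equiv), Nat.card_prod, Nat.card_eq_fintype_card,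
    Nat.card_eq_fintype_card, Fintype.card_units, mul_comm]

end Cfsg.Agent.Lib.Helper18
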