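import Mathlib
import Cfsg.Prelude.Def_ClassicalGeometry
import Cfsg.Agent.H6.Transv
import Cfsg.Agent.Lib.Helper15.Adapted
import Cfsg.Agent.Lib.Helper18.Quad1
import Cfsg.Agent.Lib.Helper18.SpTv
import Cfsg.Agent.Lib.Helper18.Herm6

set_option linter.unusedSimpArgs false
set_option linter.unusedSectionVars false

/-! rank one nilpotent matrices: conjugacy, counting -/

namespace Cfsg.Agent.Lib.Helper18

open Matrix Module

section rk

variable {F : Type*} [Field F] {ι : Type*} [Fintype ι] [DecidableEq ι]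

theorem vecMulVec_mulVec' (u w x : ι → F) : vecMulVec u w *ᵥ x = (w ⬝ᵥ x) • u := by
  rw [vecMulVec_mulVec]
  ext i
  simp [mul_comm]

theorem rank_vecMulVec_eq_one {u w : ι → F} (hu : u ≠ 0) (hw : w ≠ 0) :
    (vecMulVec u w).rank = 1 := by
  unfold Matrix.rank
  have : LinearMap.range (vecMulVec u w).mulVecLin = Submodule.span F {u} := by
    apply le_antisymm
    · rintro _ ⟨x, rfl⟩
      rw [Matrix.mulVecLin_apply, vecMulVec_mulVec']
      exact Submodule.smul_mem _ _ (Submodule.mem_span_singleton_self u)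
    · rw [Submodule.span_singleton_le_iff_mem]
      obtain ⟨j, hj⟩ := Function.ne_iff.mp hw
      refine ⟨(w j)⁻¹ • Pi.single j 1, ?_⟩
      rw [Matrix.mulVecLin_apply, vecMulVec_mulVec', dotProduct_smul, dotProduct_single_one,
        smul_eq_mul, inv_mul_cancel₀ hj, one_smul]
  rw [this, finrank_span_singleton hu]

theorem vecMulVec_ne_zero {u w : ι → F} (hu : u ≠ 0) (hw : w ≠ 0) : vecMulVec u w ≠ 0 := by
  obtain ⟨i, hi⟩ := Function.ne_iff.mp hu
  obtain ⟨j, hj⟩ := Function.ne_iff.mp hw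
  intro h
  have := congrFun (congrFun h i) j
  rw [vecMulVec_apply] at this
  exact mul_ne_zero hi hj this

theorem vecMulVec_sq (u w : ι → F) :
    vecMulVec u w * vecMulVec u w = (w ⬝ᵥ u) • vecMulVec u w := by
  rw [vecMulVec_mul_vecMulVec]
  ext i j
  simp [vecMulVec_apply]
  ring

/-- the rank one nilpotent matrices -/
def IsRk1Nil (N : Matrix ι ι F) : Prop := N.rank = 1 ∧ N * N = 0

theorem isRk1Nil_iff (N : Matrix ι ι F) :
    IsRk1Nil N ↔ ∃ u w : ι → F, u ≠ 0 ∧ w ≠ 0 ∧ w ⬝ᵥ u = 0 ∧ N = vecMulVec u w := by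
  constructor
  · rintro ⟨h1, h2⟩
    obtain ⟨u, w, hu, hw, rfl⟩ := Cfsg.Agent.H6.exists_vecMulVec_of_rank_one N h1
    refine ⟨u, w, hu, hw, ?_, rfl⟩
    rw [vecMulVec_sq] at h2
    exact (smul_eq_zero.1 h2).resolve_right (vecMulVec_ne_zero hu hw)
  · rintro ⟨u, w, hu, hw, h0, rfl⟩
    exact ⟨rank_vecMulVec_eq_one hu hw, by rw [vecMulVec_sq, h0, zero_smul]⟩

theorem vecMulVec_eq_iff {u w u' w' : ι → F} (hu : u ≠ 0) (hw : w ≠ 0) (hu' : u' ≠ 0) :
    vecMulVec u w = vecMulVec u' w' ↔ ∃ l : F, l ≠ 0 ∧ u = l • u' ∧ w = l⁻¹ • w' := by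
  constructor
  · intro h
    obtain ⟨j, hj⟩ := Function.ne_iff.mp hw
    have h1 : u = ((w j)⁻¹ * w' j) • u' := by
      ext i
      have := congrFun (congrFun h i) j
      rw [vecMulVec_apply, vecMulVec_apply] at this
      simp only [Pi.smul_apply, smul_eq_mul]
      have hj' : w j ≠ 0 := hj
      rw [mul_assoc, eq_inv_mul_iff_mul_eq₀ hj']
      linear_combination this
    have hl : (w j)⁻¹ * w' j ≠ 0 := by
      intro h0
      rw [h0, zero_smul] at h1
      exact hu h1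
    refine ⟨_, hl, h1, ?_⟩
    obtain ⟨i, hi⟩ := Function.ne_iff.mp hu'
    ext k
    have h2 := congrFun (congrFun h i) k
    rw [vecMulVec_apply, vecMulVec_apply] at h2
    have h3 := congrFun h1 i
    simp only [Pi.smul_apply, smul_eq_mul] at h3 ⊢
    rw [h3] at h2
    have hi' : u' i ≠ 0 := hi
    rw [eq_inv_mul_iff_mul_eq₀ hl]
    apply mul_right_cancel₀ hi'
    linear_combination h2
  · rintro ⟨l, hl, rfl, rfl⟩
    ext i j
    simp only [vecMulVec_apply, Pi.smul_apply, smul_eq_mul]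
    field_simp

end rk

section conj

variable {F : Type*} [Field F] {n : ℕ}

theorem exists_conj_rk1Nil (hn : 2 ≤ n) (N N' : Matrix (Fin n) (Fin n) F) (hN : IsRk1Nil N)
    (hN' : IsRk1Nil N') : ∃ g : GL (Fin n) F,
      (g : Matrix (Fin n) (Fin n) F) * N * ((g⁻¹ : GL (Fin n) F) : Matrix (Fin n) (Fin n) F) = N' := by
  obtain ⟨k, rfl⟩ : ∃ k, n = k + 2 := ⟨n - 2, by omega⟩
  have hV : finrank F (Fin (k + 2) → F) = k + 2 := by simp
  obtain ⟨b, hb1, hb2⟩ := Cfsg.Agent.Lib.Helper15.adapted_basis hV N.mulVecLin hN.1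
    (by rw [← Matrix.mulVecLin_mul, hN.2]; simp)
  obtain ⟨b', hb1', hb2'⟩ := Cfsg.Agent.Lib.Helper15.adapted_basis hV N'.mulVecLin hN'.1
    (by rw [← Matrix.mulVecLin_mul, hN'.2]; simp)
  let g := b.equiv b' (Equiv.refl _)
  have hg : ∀ i, g (b i) = b' i := by
    intro i
    simp [g]
  have hcomm : (g : (Fin (k + 2) → F) →ₗ[F] _) ∘ₗ N.mulVecLin
      = N'.mulVecLin ∘ₗ (g : (Fin (k + 2) → F) →ₗ[F] _) := by
    apply b.ext
    intro i
    simp only [LinearMap.comp_apply, LinearEquiv.coe_coe]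
    by_cases hi1 : i = 1
    · subst hi1
      rw [hb1, hg, hg, hb1']
    · rw [hb2 i hi1, map_zero, hg, hb2' i hi1]
  have hmat : LinearMap.toMatrix' (g : (Fin (k + 2) → F) →ₗ[F] _) * N
      = N' * LinearMap.toMatrix' (g : (Fin (k + 2) → F) →ₗ[F] _) := by
    have := congrArg LinearMap.toMatrix' hcomm
    rwa [LinearMap.toMatrix'_comp, LinearMap.toMatrix'_comp, ← Matrix.toLin'_apply',
      ← Matrix.toLin'_apply', LinearMap.toMatrix'_toLin', LinearMap.toMatrix'_toLin'] at this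
  let G : GL (Fin (k + 2)) F :=
    ⟨LinearMap.toMatrix' (g : (Fin (k + 2) → F) →ₗ[F] _),
      LinearMap.toMatrix' (g.symm : (Fin (k + 2) → F) →ₗ[F] _),
      by rw [← LinearMap.toMatrix'_comp]; simp,
      by rw [← LinearMap.toMatrix'_comp]; simp⟩
  refine ⟨G, ?_⟩
  have h1 : (G : Matrix (Fin (k + 2)) (Fin (k + 2)) F) * N = N' * G := hmat
  rw [h1, mul_assoc, ← Units.val_mul, mul_inv_cancel, Units.val_one, mul_one]

end conj

section count

variable {F : Type*} [Field F] [Fintype F] {k : ℕ}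

theorem card_perp_ne_zero (u : Fin (k + 1) → F) (hu : u ≠ 0) :
    Nat.card {w : Fin (k + 1) → F // w ≠ 0 ∧ w ⬝ᵥ u = 0} = Fintype.card F ^ k - 1 := by
  have h1 := card_fiber_dot u hu 0
  rw [Fintype.card_fin, pow_succ'] at h1
  have h2 := Nat.eq_of_mul_eq_mul_left Fintype.card_pos h1
  have h3 : Nat.card {w : Fin (k + 1) → F // w ⬝ᵥ u = 0}
      = Nat.card {y : Fin (k + 1) → F // ∑ i, u i * y i = 0} := by
    apply Nat.card_congr
    exact Equiv.subtypeEquivRight (fun w => by rw [dotProduct_comm]; rfl)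
  have h4 := card_subtype_and_add (fun w : Fin (k + 1) → F => w ≠ 0) (fun w => w ⬝ᵥ u = 0)
  have : Unique {w : Fin (k + 1) → F // ¬ w ≠ 0 ∧ w ⬝ᵥ u = 0} :=
    { default := ⟨0, by simp, by simp⟩
      uniq := fun z => Subtype.ext (not_not.mp z.2.1) }
  have h5 : Nat.card {w : Fin (k + 1) → F // ¬ w ≠ 0 ∧ w ⬝ᵥ u = 0} = 1 := Nat.card_unique
  omega

theorem card_tvPair : Nat.card {p : (Fin (k + 1) → F) × (Fin (k + 1) → F) //
      p.1 ≠ 0 ∧ p.2 ≠ 0 ∧ p.2 ⬝ᵥ p.1 = 0}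
      = (Fintype.card F ^ (k + 1) - 1) * (Fintype.card F ^ k - 1) := by
  classical
  let e : {p : (Fin (k + 1) → F) × (Fin (k + 1) → F) // p.1 ≠ 0 ∧ p.2 ≠ 0 ∧ p.2 ⬝ᵥ p.1 = 0}
      ≃ Σ u : {u : Fin (k + 1) → F // u ≠ 0}, {w : Fin (k + 1) → F // w ≠ 0 ∧ w ⬝ᵥ u.1 = 0} :=
    { toFun := fun p => ⟨⟨p.1.1, p.2.1⟩, ⟨p.1.2, p.2.2⟩⟩
      invFun := fun s => ⟨(s.1.1, s.2.1), s.1.2, s.2.2⟩
      left_inv := fun p => rfl
      right_inv := fun s => rfl }
  rw [Nat.card_congr e, Nat.card_sigma]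
  rw [Finset.sum_congr rfl (fun u _ => card_perp_ne_zero u.1 u.2)]
  simp only [Finset.sum_const, Finset.card_univ, smul_eq_mul]
  rw [Fintype.card_subtype_compl, Fintype.card_subtype_eq, Fintype.card_fun, Fintype.card_fin]

theorem card_tvPair_eq {n : ℕ} : Nat.card {p : (Fin n → F) × (Fin n → F) //
      p.1 ≠ 0 ∧ p.2 ≠ 0 ∧ p.2 ⬝ᵥ p.1 = 0}
      = Nat.card {N : Matrix (Fin n) (Fin n) F // IsRk1Nil N} * (Fintype.card F - 1) := by
  classical
  have hex := fun N : {N : Matrix (Fin n) (Fin n) F // IsRk1Nil N} => (isRk1Nil_iff N.1).1 N.2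
  choose U W hU hW hWU hN using hex
  have hb : Function.Bijective (fun x : {N : Matrix (Fin n) (Fin n) F // IsRk1Nil N} × Fˣ =>
      (⟨((x.2 : F) • U x.1, (x.2 : F)⁻¹ • W x.1), smul_ne_zero x.2.ne_zero (hU x.1),
        smul_ne_zero (inv_ne_zero x.2.ne_zero) (hW x.1), by
          rw [smul_dotProduct, dotProduct_smul, hWU]; simp⟩ :
        {p : (Fin n → F) × (Fin n → F) // p.1 ≠ 0 ∧ p.2 ≠ 0 ∧ p.2 ⬝ᵥ p.1 = 0})) := by
    constructor
    · rintro ⟨N, l⟩ ⟨N', l'⟩ h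
      have h1 := congrArg (fun p : {p : (Fin n → F) × (Fin n → F) //
        p.1 ≠ 0 ∧ p.2 ≠ 0 ∧ p.2 ⬝ᵥ p.1 = 0} => p.1.1) h
      have h2 := congrArg (fun p : {p : (Fin n → F) × (Fin n → F) //
        p.1 ≠ 0 ∧ p.2 ≠ 0 ∧ p.2 ⬝ᵥ p.1 = 0} => p.1.2) h
      simp only at h1 h2
      have hNN : N = N' := by
        apply Subtype.ext
        rw [hN N, hN N']
        have e1 : vecMulVec (U N) (W N) = vecMulVec ((l : F) • U N) ((l : F)⁻¹ • W N) :=
          (vecMulVec_eq_iff (hU N) (hW N) (smul_ne_zero l.ne_zero (hU N))).2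
            ⟨(l : F)⁻¹, inv_ne_zero l.ne_zero, by rw [smul_smul, inv_mul_cancel₀ l.ne_zero, one_smul],
              by rw [inv_inv, smul_smul, mul_inv_cancel₀ l.ne_zero, one_smul]⟩
        have e2 : vecMulVec (U N') (W N') = vecMulVec ((l' : F) • U N') ((l' : F)⁻¹ • W N') :=
          (vecMulVec_eq_iff (hU N') (hW N') (smul_ne_zero l'.ne_zero (hU N'))).2
            ⟨(l' : F)⁻¹, inv_ne_zero l'.ne_zero,
              by rw [smul_smul, inv_mul_cancel₀ l'.ne_zero, one_smul],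
              by rw [inv_inv, smul_smul, mul_inv_cancel₀ l'.ne_zero, one_smul]⟩
        rw [e1, e2, h1, h2]
      subst hNN
      have : (l : F) = l' := smul_left_injective F (hU N) h1
      rw [Units.ext this]
    · rintro ⟨⟨u, w⟩, hu, hw, hwu⟩
      simp only at hu hw hwu
      have hX : IsRk1Nil (vecMulVec u w) := (isRk1Nil_iff _).2 ⟨u, w, hu, hw, hwu, rfl⟩
      obtain ⟨l, hl, h1, h2⟩ := (vecMulVec_eq_iff hu hw (hU ⟨_, hX⟩)).1 (hN ⟨_, hX⟩)
      refine ⟨(⟨_, hX⟩, Units.mk0 l hl), ?_⟩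
      apply Subtype.ext
      simp only [Units.val_mk0]
      rw [← h1, ← h2]
  rw [← Nat.card_congr (Equiv.ofBijective _ hb), Nat.card_prod, Nat.card_eq_fintype_card (α := Fˣ),
    Fintype.card_units]

end count

end Cfsg.Agent.Lib.Helper18
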