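import Mathlib
import Cfsg.Prelude.Def_LieClassical
import Cfsg.Agent.Lib.Helper18.Herm5

set_option linter.unusedSimpArgs false
set_option linter.unusedSectionVars false

namespace Cfsg.Agent.Lib.Helper18

open Matrix

section gu

variable {F : Type*} [Field F] {q : ℕ} {n : ℕ}
variable [Fintype F] (hF : Fintype.card F = q ^ 2)

/-- package a form-preserving matrix as an element of `GU` -/
noncomputable def mkGU (A : Matrix (Fin n) (Fin n) F)
    (hA : ∀ u v, Cfsg.hermForm n F q (A *ᵥ u) (A *ᵥ v) = Cfsg.hermForm n F q u v) :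
    Cfsg.GU n F q :=
  ⟨Matrix.GeneralLinearGroup.mkOfDetNeZero A
    (herm_det_ne_zero hF ((herm_preserve_iff hF A).mp hA)), hA⟩

theorem mkGU_coe (A : Matrix (Fin n) (Fin n) F)
    (hA : ∀ u v, Cfsg.hermForm n F q (A *ᵥ u) (A *ᵥ v) = Cfsg.hermForm n F q u v) :
    ((mkGU hF A hA).1 : Matrix (Fin n) (Fin n) F) = A := rfl

include hF

theorem center_GU_comm (z : Cfsg.GU n F q) (hz : z ∈ Subgroup.center (Cfsg.GU n F q))
    (A : Matrix (Fin n) (Fin n) F)
    (hA : ∀ u v, Cfsg.hermForm n F q (A *ᵥ u) (A *ᵥ v) = Cfsg.hermForm n F q u v) :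
    A * (z.1 : Matrix (Fin n) (Fin n) F) = (z.1 : Matrix (Fin n) (Fin n) F) * A := by
  have := Subgroup.mem_center_iff.mp hz (mkGU hF A hA)
  exact congrArg (fun x : Cfsg.GU n F q => (x.1 : Matrix (Fin n) (Fin n) F)) this

theorem center_GU_scalar (hn : 1 ≤ n) (z : Cfsg.GU n F q)
    (hz : z ∈ Subgroup.center (Cfsg.GU n F q)) :
    (z.1 : Matrix (Fin n) (Fin n) F)
      = Matrix.diagonal (fun _ => (z.1 : Matrix (Fin n) (Fin n) F) ⟨0, hn⟩ ⟨0, hn⟩) := by
  obtain ⟨l, hl, hl2⟩ := herm_exists_sq_ne_one hF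
  have hl1 : l ≠ 1 := by
    rintro rfl
    simp at hl2
  ext a b
  by_cases hab : a = b
  · subst hab
    rw [Matrix.diagonal_apply_eq]
    by_cases ha0 : a = ⟨0, hn⟩
    · rw [ha0]
    have h := center_GU_comm hF z hz ((Equiv.swap a ⟨0, hn⟩).permMatrix F) (herm_perm_preserve _)
    have h2 := congrFun (congrFun h a) ⟨0, hn⟩
    rw [PEquiv.toMatrix_toPEquiv_mul, PEquiv.mul_toMatrix_toPEquiv, Matrix.submatrix_apply,
      Matrix.submatrix_apply] at h2
    simp only [Equiv.swap_apply_left, id, Equiv.symm_swap, Equiv.swap_apply_right] at h2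
    exact h2.symm
  · rw [Matrix.diagonal_apply_ne _ hab]
    have hupd : ∀ i, (Function.update (1 : Fin n → F) a l) i ^ (q + 1) = 1 := by
      intro i
      by_cases hi : i = a
      · subst hi; simpa using hl
      · simp [Function.update_of_ne hi]
    have h := center_GU_comm hF z hz (Matrix.diagonal (Function.update (1 : Fin n → F) a l))
      (herm_diag_preserve _ hupd)
    have h2 := congrFun (congrFun h a) b
    rw [Matrix.diagonal_mul, Matrix.mul_diagonal] at h2
    simp only [Function.update_self, Function.update_of_ne (Ne.symm hab), Pi.one_apply,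
      mul_one] at h2
    have h3 : (l - 1) * (z.1 : Matrix (Fin n) (Fin n) F) a b = 0 := by linear_combination h2
    rcases mul_eq_zero.mp h3 with h4 | h4
    · exact absurd (sub_eq_zero.mp h4) hl1
    · exact h4

theorem scalar_mem_center_GU (c : F) (hc : c ^ (q + 1) = 1) :
    mkGU hF (Matrix.diagonal (fun _ : Fin n => c)) (herm_diag_preserve _ (fun _ => hc))
      ∈ Subgroup.center (Cfsg.GU n F q) := by
  rw [Subgroup.mem_center_iff]
  intro g
  apply Subtype.ext
  apply Units.ext
  show (g.1 : Matrix (Fin n) (Fin n) F) * Matrix.diagonal (fun _ => c)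
    = Matrix.diagonal (fun _ => c) * (g.1 : Matrix (Fin n) (Fin n) F)
  ext i j
  rw [Matrix.diagonal_mul, Matrix.mul_diagonal, mul_comm]

end gu

theorem exists_mulEquiv_zmod_of_cyclic {G : Type*} [Group G] [IsCyclic G] (d : ℕ)
    (h : Nat.card G = d) : Nonempty (G ≃* Multiplicative (ZMod d)) := by
  subst h
  exact ⟨(zmodCyclicMulEquiv inferInstance).symm⟩

end Cfsg.Agent.Lib.Helper18
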