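import Mathlib
import Cfsg.Prelude.Def_LieClassical
import Cfsg.Agent.Lib.Helper18.StdQuad
import Cfsg.Agent.Lib.Helper18.FieldEmb

set_option linter.unusedSimpArgs false
set_option linter.unusedSectionVars false

namespace Cfsg.Agent.Lib.Helper18

open Matrix

section hq

open scoped Classical

variable {F K : Type*} [Field F] [Fintype F] [Field K] [Fintype K] {q : ℕ}

theorem herm_count_ne_zero_int (hK : Fintype.card K = q ^ 2) (n : ℕ) (s : K) (hs : s ^ q = s)
    (hs0 : s ≠ 0) :
    ((Nat.card {v : Fin n → K // Cfsg.hermForm n K q v v = s} : ℕ) : ℤ) * q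
      = (q : ℤ) ^ (2 * n) - (-1) ^ n * (q : ℤ) ^ n := by
  induction n with
  | zero =>
    have : IsEmpty {v : Fin 0 → K // Cfsg.hermForm 0 K q v v = s} :=
      ⟨fun v => by
        have := v.2
        simp [Cfsg.hermForm] at this
        exact hs0 this.symm⟩
    simp
  | succ n ih =>
    have h := herm_count_succ hK n s hs
    have h' : ((Nat.card {v : Fin (n + 1) → K // Cfsg.hermForm (n + 1) K q v v = s} : ℕ) : ℤ)
      + q * (Nat.card {v : Fin n → K // Cfsg.hermForm n K q v v = s} : ℕ)
        = ((q : ℤ) + 1) * (q : ℤ) ^ (2 * n) := by exact_mod_cast h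
    have e1 : (q : ℤ) ^ (2 * (n + 1)) = (q : ℤ) ^ (2 * n) * q ^ 2 := by ring
    rw [e1, pow_succ (-1 : ℤ), pow_succ (q : ℤ) n]
    linear_combination (q : ℤ) * h' - (q : ℤ) * ih

variable [Algebra F K] (hF : Fintype.card F = q) (hK : Fintype.card K = q ^ 2) (m : ℕ)

include hF in
theorem herm_smul_left_small (c : F) (u v : Fin m → K) : Cfsg.hermForm m K q (c • u) v
    = algebraMap F K c * Cfsg.hermForm m K q u v := by
  rw [← algebraMap_smul K c u, herm_smul_left]

include hF in
theorem herm_smul_right_small (c : F) (u v : Fin m → K) : Cfsg.hermForm m K q u (c • v)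
    = algebraMap F K c * Cfsg.hermForm m K q u v := by
  rw [← algebraMap_smul K c v, herm_smul_right, algMap_pow hF]

/-- the quadratic form `h(v,v)` over the small field -/
noncomputable def hermQ (θ : K) : QuadraticForm F (Fin m → K) :=
  LinearMap.BilinMap.toQuadraticMap (trBilin hF hK (Cfsg.hermForm m K q) herm_add_left
    (herm_add_right hK) (herm_smul_left_small hF m) (herm_smul_right_small hF m) θ)

theorem hermQ_spec (θ : K) (hθ : θ + θ ^ q = 1) (v : Fin m → K) :
    algebraMap F K (hermQ hF hK m θ v) = Cfsg.hermForm m K q v v := by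
  show algebraMap F K (trF hF hK (θ * Cfsg.hermForm m K q v v)) = _
  rw [trF_spec, mul_pow, herm_form_conj hK]
  linear_combination Cfsg.hermForm m K q v v * hθ

theorem hermQ_polar (θ : K) (hθ : θ + θ ^ q = 1) (u v : Fin m → K) :
    (hermQ hF hK m θ).polarBilin u v = trF hF hK (Cfsg.hermForm m K q u v) := by
  apply (algebraMap F K).injective
  rw [QuadraticMap.polarBilin_apply_apply, QuadraticMap.polar, map_sub, map_sub, hermQ_spec _ _ _ _ hθ,
    hermQ_spec _ _ _ _ hθ, hermQ_spec _ _ _ _ hθ, trF_spec, herm_add_left, herm_add_right hK,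
    herm_add_right hK, herm_form_conj hK]
  ring

theorem hermQ_nondeg (θ : K) (hθ : θ + θ ^ q = 1) (u : Fin m → K) (hu : u ≠ 0) :
    ∃ y, (hermQ hF hK m θ).polarBilin u y ≠ 0 := by
  classical
  obtain ⟨k, hk⟩ := Function.ne_iff.mp hu
  obtain ⟨z0, hz0⟩ := exists_trF_eq_one hK
  refine ⟨Pi.single k ((z0 / u k) ^ q), ?_⟩
  rw [hermQ_polar _ _ _ _ hθ, Ne, trF_eq_zero_iff]
  have h1 : Cfsg.hermForm m K q u (Pi.single k ((z0 / u k) ^ q)) = u k * (z0 / u k) := by
    unfold Cfsg.hermForm
    rw [Finset.sum_eq_single k]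
    · rw [Pi.single_eq_same, herm_pow_pow hK]
    · intro j _ hj
      rw [Pi.single_eq_of_ne hj, zero_pow (by have := herm_q_pos hK; omega), mul_zero]
    · simp
  have hk' : u k ≠ 0 := hk
  rw [h1, mul_div_cancel₀ _ hk', hz0]
  exact one_ne_zero

theorem hermQ_card (θ : K) (hθ : θ + θ ^ q = 1) (t : F) :
    Nat.card {u : (⊤ : Submodule F (Fin m → K)) // hermQ hF hK m θ u.1 = t}
      = Nat.card {v : Fin m → K // Cfsg.hermForm m K q v v = algebraMap F K t} := by
  apply Nat.card_congr
  refine (Submodule.topEquiv (R := F)).toEquiv.subtypeEquiv (fun u => ?_)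
  rw [← hermQ_spec hF hK m θ hθ]
  exact ((algebraMap F K).injective.eq_iff).symm

theorem hermQ_good_even (θ : K) (hθ : θ + θ ^ q = 1) (hm : Even m) :
    OGood (hermQ hF hK m θ) 1 (fun t => if t = 0 then 1 else 0)
      (⊤ : Submodule F (Fin m → K)) m := by
  have hq := herm_q_pos hK
  refine ⟨?_, ?_, ?_⟩
  · rw [Nat.card_congr (Submodule.topEquiv (R := F)).toEquiv, card_fun_big hF hK,
      Fintype.card_fin, mul_one]
  · intro t
    rw [hermQ_card _ _ _ _ hθ, hF]
    apply Nat.eq_of_mul_eq_mul_left (show 0 < q by omega)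
    rw [oSeq_closed _ _ _ (by omega)]
    have e1 : 1 ≤ q ^ m := Nat.one_le_pow _ _ (by omega)
    by_cases ht : t = 0
    · subst ht
      have h := herm_count_zero_int hK m
      rw [hm.neg_one_pow] at h
      simp only [map_zero, if_true]
      zify [e1]
      linear_combination h
    · have h := herm_count_ne_zero_int hK m (algebraMap F K t) (algMap_pow hF t)
        (by rwa [Ne, map_eq_zero])
      rw [hm.neg_one_pow] at h
      simp only [if_neg ht]
      zify [e1]
      linear_combination h
  · intro x _ hx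
    obtain ⟨y, hy⟩ := hermQ_nondeg hF hK m θ hθ x hx
    exact ⟨y, Submodule.mem_top, hy⟩

theorem hermQ_good_odd (θ : K) (hθ : θ + θ ^ q = 1) (k : ℕ) (hm : Odd (k + 1)) :
    OGood (hermQ hF hK (k + 1) θ) (Fintype.card F ^ 2)
      (fun t => if t = 0 then 1 else Fintype.card F + 1)
      (⊤ : Submodule F (Fin (k + 1) → K)) k := by
  have hq := herm_q_pos hK
  refine ⟨?_, ?_, ?_⟩
  · rw [Nat.card_congr (Submodule.topEquiv (R := F)).toEquiv, card_fun_big hF hK,
      Fintype.card_fin]
    ring
  · intro t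
    rw [hermQ_card _ _ _ _ hθ, hF]
    apply Nat.eq_of_mul_eq_mul_left (show 0 < q by omega)
    rw [oSeq_closed _ _ _ (by omega)]
    have e1 : 1 ≤ q ^ k := Nat.one_le_pow _ _ (by omega)
    by_cases ht : t = 0
    · subst ht
      have h := herm_count_zero_int hK (k + 1)
      rw [hm.neg_one_pow] at h
      simp only [map_zero, if_true]
      zify [e1]
      linear_combination h
    · have h := herm_count_ne_zero_int hK (k + 1) (algebraMap F K t) (algMap_pow hF t)
        (by rwa [Ne, map_eq_zero])
      rw [hm.neg_one_pow] at h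
      simp only [if_neg ht]
      zify [e1]
      linear_combination h
  · intro x _ hx
    obtain ⟨y, hy⟩ := hermQ_nondeg hF hK (k + 1) θ hθ x hx
    exact ⟨y, Submodule.mem_top, hy⟩

/-- the representation of `GU` over the small field -/
noncomputable def guRep : ↥(Cfsg.GU m K q) →* Module.End F (Fin m → K) :=
  (matRep (F := F) (Fin m)).comp ((Units.coeHom _).comp (Cfsg.GU m K q).subtype)

theorem guRep_injective : Function.Injective (guRep (F := F) (K := K) (q := q) m) := by
  intro g h hgh
  apply Subtype.ext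
  apply Units.ext
  exact matRep_injective hgh

theorem guRep_preserve (θ : K) (g : ↥(Cfsg.GU m K q)) (v : Fin m → K) :
    hermQ hF hK m θ (guRep (F := F) m g v) = hermQ hF hK m θ v := by
  show trF hF hK (θ * Cfsg.hermForm m K q _ _) = trF hF hK (θ * Cfsg.hermForm m K q v v)
  congr 2
  exact g.2 v v

end hq

end Cfsg.Agent.Lib.Helper18
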