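import Mathlib

/-! Linear algebra for Landazuri–Seitz type bounds over an arbitrary field: eigenspaces of a finite
abelian group, and the Heisenberg-type bound. -/

set_option autoImplicit false

namespace Cfsg.Agent.Lib.Helper18

open Module

section EigK

variable {K : Type*} [Field K] {Z : Type*} [AddCommGroup Z] [Fintype Z]
  {V : Type*} [AddCommGroup V] [Module K V]

/-- The simultaneous eigenspace of the operators `r b` for the character `ψ`. -/
def chEigK (r : Z → V →ₗ[K] V) (ψ : AddChar Z K) : Submodule K V where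
  carrier := {w | ∀ b, r b w = ψ b • w}
  add_mem' := by
    intro x y hx hy b
    rw [map_add, hx b, hy b, smul_add]
  zero_mem' := by
    intro b
    rw [map_zero, smul_zero]
  smul_mem' := by
    intro c x hx b
    rw [map_smul, hx b, smul_comm]

/-- The projector onto the eigenspace. -/
noncomputable def chProjK (r : Z → V →ₗ[K] V) (ψ : AddChar Z K) : V →ₗ[K] V :=
  (Fintype.card Z : K)⁻¹ • ∑ b, (ψ b)⁻¹ • r b

theorem chProjK_mem (r : Z → V →ₗ[K] V) (hadd : ∀ a b, r (a + b) = r a ∘ₗ r b)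
    (ψ : AddChar Z K) (x : V) : chProjK r ψ x ∈ chEigK r ψ := by
  intro c
  simp only [chProjK, LinearMap.smul_apply, LinearMap.sum_apply, map_smul, map_sum]
  rw [smul_comm]
  congr 1
  rw [Finset.smul_sum]
  refine Fintype.sum_equiv (Equiv.addLeft c) _ _ ?_
  intro b
  have hb : ψ b ≠ 0 := (ψ.val_isUnit b).ne_zero
  have hc : ψ c ≠ 0 := (ψ.val_isUnit c).ne_zero
  rw [Equiv.coe_addLeft, hadd, LinearMap.comp_apply, smul_smul, AddChar.map_add_eq_mul]
  congr 1
  field_simp

theorem addChar_sum_inv_mul {ψ ψ' : AddChar Z K} (h : ψ' ≠ ψ) : ∑ b, (ψ b)⁻¹ * ψ' b = 0 := by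
  obtain ⟨c, hc⟩ : ∃ c, ψ' c ≠ ψ c := by
    by_contra hcon
    push Not at hcon
    exact h (DFunLike.ext _ _ hcon)
  have hc0 : ψ c ≠ 0 := (ψ.val_isUnit c).ne_zero
  have h1 : ∑ b, (ψ b)⁻¹ * ψ' b = ((ψ c)⁻¹ * ψ' c) * ∑ b, (ψ b)⁻¹ * ψ' b := by
    rw [Finset.mul_sum]
    refine (Fintype.sum_equiv (Equiv.addLeft c) _ _ ?_).symm
    intro b
    have hb : ψ b ≠ 0 := (ψ.val_isUnit b).ne_zero
    rw [Equiv.coe_addLeft, AddChar.map_add_eq_mul, AddChar.map_add_eq_mul]
    field_simp
  have h2 : (1 - (ψ c)⁻¹ * ψ' c) * ∑ b, (ψ b)⁻¹ * ψ' b = 0 := by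
    linear_combination h1
  rcases mul_eq_zero.1 h2 with h3 | h3
  · exfalso
    apply hc
    field_simp at h3
    linear_combination -h3
  · exact h3

theorem chProjK_apply_of_mem (hn : (Fintype.card Z : K) ≠ 0) (r : Z → V →ₗ[K] V)
    {ψ ψ' : AddChar Z K} {x : V} (hx : x ∈ chEigK r ψ') [Decidable (ψ' = ψ)] :
    chProjK r ψ x = if ψ' = ψ then x else 0 := by
  simp only [chProjK, LinearMap.smul_apply, LinearMap.sum_apply]
  have h1 : ∀ b ∈ (Finset.univ : Finset Z), (ψ b)⁻¹ • r b x = ((ψ b)⁻¹ * ψ' b) • x := by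
    intro b _
    rw [hx b, smul_smul]
  rw [Finset.sum_congr rfl h1, ← Finset.sum_smul]
  split_ifs with h
  · subst h
    have h2 : ∀ b ∈ (Finset.univ : Finset Z), (ψ' b)⁻¹ * ψ' b = 1 := fun b _ =>
      inv_mul_cancel₀ (ψ'.val_isUnit b).ne_zero
    rw [Finset.sum_congr rfl h2, Finset.sum_const, Finset.card_univ, nsmul_eq_mul, mul_one,
      smul_smul, inv_mul_cancel₀ hn, one_smul]
  · rw [addChar_sum_inv_mul h, zero_smul, smul_zero]

theorem sum_finrank_chEigK_le [FiniteDimensional K V] (hn : (Fintype.card Z : K) ≠ 0)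
    (r : Z → V →ₗ[K] V) {ι : Type*} [Fintype ι] (Ψ : ι → AddChar Z K)
    (hΨ : Function.Injective Ψ) : ∑ i, finrank K (chEigK r (Ψ i)) ≤ finrank K V := by
  classical
  rw [← Module.finrank_pi_fintype K]
  let L : ((i : ι) → chEigK r (Ψ i)) →ₗ[K] V :=
    ∑ i, (chEigK r (Ψ i)).subtype ∘ₗ LinearMap.proj i
  apply LinearMap.finrank_le_finrank_of_injective (f := L)
  rw [← LinearMap.ker_eq_bot, LinearMap.ker_eq_bot']
  intro w hw
  funext j
  have h1 : chProjK r (Ψ j) (L w) = 0 := by rw [hw, map_zero]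
  have h2 : L w = ∑ i, (w i : V) := by
    simp [L, LinearMap.sum_apply]
  rw [h2, map_sum] at h1
  have h3 : ∀ i ∈ (Finset.univ : Finset ι), chProjK r (Ψ j) (w i : V) =
      if i = j then (w i : V) else 0 := by
    intro i _
    rw [chProjK_apply_of_mem hn r (w i).2]
    by_cases hij : i = j
    · rw [if_pos hij, if_pos (by rw [hij])]
    · rw [if_neg hij, if_neg (fun h => hij (hΨ h))]
  rw [Finset.sum_congr rfl h3, Finset.sum_ite_eq' Finset.univ j, if_pos (Finset.mem_univ _)] at h1
  exact Subtype.ext h1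

theorem exists_chEigK_ne_bot (hn : (Fintype.card Z : K) ≠ 0) [DecidableEq Z]
    (r : Z → V →ₗ[K] V) (h0 : r 0 = LinearMap.id) (hadd : ∀ a b, r (a + b) = r a ∘ₗ r b)
    {ι : Type*} [Fintype ι] (Ψ : ι → AddChar Z K) {N : K} (hN : N ≠ 0)
    (hcomp : ∀ b, ∑ i, (Ψ i b)⁻¹ = if b = 0 then N else 0)
    (hne : ∃ b, r b ≠ LinearMap.id) : ∃ i, Ψ i ≠ 1 ∧ chEigK r (Ψ i) ≠ ⊥ := by
  classical
  by_contra hcon
  push Not at hcon
  have hsum : ∑ i, chProjK r (Ψ i) = ((Fintype.card Z : K)⁻¹ * N) • LinearMap.id := by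
    simp only [chProjK]
    rw [← Finset.smul_sum, Finset.sum_comm]
    have h1 : ∀ b ∈ (Finset.univ : Finset Z), ∑ i, (Ψ i b)⁻¹ • r b =
        if b = 0 then N • r b else 0 := by
      intro b _
      rw [← Finset.sum_smul, hcomp]
      by_cases hb : b = 0
      · simp [hb]
      · simp [hb]
    rw [Finset.sum_congr rfl h1, Finset.sum_ite_eq' Finset.univ (0 : Z),
      if_pos (Finset.mem_univ _), smul_smul, h0]
  obtain ⟨b, hb⟩ := hne
  apply hb
  apply LinearMap.ext
  intro x
  have hc : (Fintype.card Z : K)⁻¹ * N ≠ 0 := mul_ne_zero (inv_ne_zero hn) hN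
  have hx : ((Fintype.card Z : K)⁻¹ * N) • x ∈ chEigK r 1 := by
    have h2 : ((Fintype.card Z : K)⁻¹ * N) • x = ∑ i, chProjK r (Ψ i) x := by
      rw [← LinearMap.sum_apply, hsum, LinearMap.smul_apply, LinearMap.id_apply]
    rw [h2]
    apply Submodule.sum_mem
    intro i _
    by_cases hi : Ψ i = 1
    · rw [← hi]
      exact chProjK_mem r hadd _ x
    · have h3 := chProjK_mem r hadd (Ψ i) x
      rw [hcon i hi, Submodule.mem_bot] at h3
      rw [h3]
      exact Submodule.zero_mem _
  have hx' : x ∈ chEigK r 1 := by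
    have := Submodule.smul_mem _ ((Fintype.card Z : K)⁻¹ * N)⁻¹ hx
    rwa [smul_smul, inv_mul_cancel₀ hc, one_smul] at this
  have h4 := hx' b
  rw [AddChar.one_apply, one_smul] at h4
  exact h4

end EigK

section HeisK

variable {K : Type*} [Field K] {A ι : Type*} [AddCommGroup A] [Fintype ι]

theorem heisK_card_le {W : Type*} [AddCommGroup W] [Module K W] [FiniteDimensional K W]
    [Nontrivial W] (R : A → W →ₗ[K] W) (hinj : ∀ a, Function.Injective (R a))
    (B : A → AddChar A K) (hB : ∀ a c w, R c (R a w) = B a c • R a (R c w))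
    (f : ι → A) (hf : Function.Injective (fun i => B (f i))) :
    Fintype.card ι ≤ finrank K W ^ 2 := by
  have hli : LinearIndependent K (fun i => R (f i)) := by
    rw [Fintype.linearIndependent_iff]
    intro g hg i0
    have hchar : LinearIndependent K
        (fun i => ((B (f i)).toMonoidHom : Multiplicative A → K)) :=
      (linearIndependent_monoidHom (Multiplicative A) K).comp
        (fun i => (B (f i)).toMonoidHom) (by
          intro i j hij
          apply hf
          exact AddChar.toMonoidHomEquiv.injective hij)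
    rw [Fintype.linearIndependent_iff] at hchar
    by_contra hne
    obtain ⟨w, hw⟩ := exists_ne (0 : W)
    have key : ∀ φ : Module.Dual K W, φ (R (f i0) w) = 0 := by
      intro φ
      have h1 := hchar (fun i => g i * φ (R (f i) w)) ?_ i0
      · exact (mul_eq_zero.1 h1).resolve_left hne
      · funext c'
        obtain ⟨c, rfl⟩ : ∃ c : A, Multiplicative.ofAdd c = c' := ⟨Multiplicative.toAdd c', rfl⟩
        obtain ⟨w', hw'⟩ := (LinearMap.injective_iff_surjective.1 (hinj c)) w
        have h2 : φ (R c ((∑ i, g i • R (f i)) w')) = 0 := by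
          rw [hg, LinearMap.zero_apply, map_zero, map_zero]
        simp only [LinearMap.sum_apply, LinearMap.smul_apply, map_sum, map_smul, hB, hw',
          smul_eq_mul] at h2
        simp only [Finset.sum_apply, Pi.smul_apply, smul_eq_mul, Pi.zero_apply,
          AddChar.toMonoidHom_apply, toAdd_ofAdd]
        rw [← h2]
        exact Finset.sum_congr rfl fun i _ => by ring
    have h3 := (Module.forall_dual_apply_eq_zero_iff K _).1 key
    exact hw (hinj _ (h3.trans (map_zero _).symm))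
  have h4 := hli.fintype_card_le_finrank
  rwa [Module.finrank_linearMap, ← sq] at h4

theorem heisK_card_le_sub {V : Type*} [AddCommGroup V] [Module K V] [FiniteDimensional K V]
    (W : Submodule K V) (hW : W ≠ ⊥) (R : A → V →ₗ[K] V) (hRW : ∀ a, ∀ w ∈ W, R a w ∈ W)
    (hinj : ∀ a, Function.Injective (R a))
    (B : A → AddChar A K) (hB : ∀ a c, ∀ w ∈ W, R c (R a w) = B a c • R a (R c w))
    (f : ι → A) (hf : Function.Injective (fun i => B (f i))) :
    Fintype.card ι ≤ finrank K W ^ 2 := by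
  have : Nontrivial W := Submodule.nontrivial_iff_ne_bot.2 hW
  refine heisK_card_le (fun a => (R a).restrict (hRW a)) ?_ B ?_ f hf
  · intro a x y hxy
    apply Subtype.ext
    apply hinj a
    exact congrArg Subtype.val hxy
  · intro a c w
    apply Subtype.ext
    exact hB a c w.1 w.2

end HeisK

end Cfsg.Agent.Lib.Helper18
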