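import Mathlib
import Cfsg.Agent.Lib.Helper18.LSRep1

/-! Landazuri–Seitz type bounds: base change of a matrix representation and the abstract
Heisenberg bound. -/

set_option autoImplicit false

namespace Cfsg.Agent.Lib.Helper18

open Module

section basechange

variable {G K K' : Type*} [Group G] [Field K] [Field K'] [Algebra K K'] {d : ℕ}

/-- Base change of a matrix representation, as a representation. -/
noncomputable def lsRep (K' : Type*) [Field K'] [Algebra K K'] (ρ : G →* GL (Fin d) K) :
    Representation K' G (Fin d → K') where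
  toFun g := Matrix.toLin' ((ρ g : Matrix (Fin d) (Fin d) K).map (algebraMap K K'))
  map_one' := by
    rw [map_one, Units.val_one, Matrix.map_one _ (map_zero _) (map_one _), Matrix.toLin'_one]
    rfl
  map_mul' := by
    intro g h
    rw [map_mul, Units.val_mul, Matrix.map_mul, Matrix.toLin'_mul]
    rfl

theorem lsRep_eq_one_iff (ρ : G →* GL (Fin d) K) (g : G) : lsRep K' ρ g = 1 ↔ ρ g = 1 := by
  constructor
  · intro h
    have h1 : Matrix.toLin' ((ρ g : Matrix (Fin d) (Fin d) K).map (algebraMap K K')) =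
        Matrix.toLin' (1 : Matrix (Fin d) (Fin d) K') := by
      rw [Matrix.toLin'_one]
      exact h
    have h2 := Matrix.toLin'.injective h1
    rw [← Matrix.map_one (algebraMap K K') (map_zero _) (map_one _)] at h2
    exact Units.ext (Matrix.map_injective (algebraMap K K').injective h2)
  · intro h
    have : g ∈ (lsRep K' ρ).ker := by
      rw [MonoidHom.mem_ker]
      change Matrix.toLin' ((ρ g : Matrix (Fin d) (Fin d) K).map (algebraMap K K')) = 1
      rw [h, Units.val_one, Matrix.map_one _ (map_zero _) (map_one _), Matrix.toLin'_one]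
      rfl
    exact this

end basechange

theorem repK_apply_injective {G K V : Type*} [Group G] [Field K] [AddCommGroup V] [Module K V]
    (ρ : Representation K G V) (g : G) : Function.Injective (ρ g) := by
  intro x y hxy
  have h1 := congrArg (ρ g⁻¹) hxy
  rwa [← Module.End.mul_apply, ← Module.End.mul_apply, ← map_mul, inv_mul_cancel, map_one,
    Module.End.one_apply, Module.End.one_apply] at h1

theorem card_sq_image_ge {F : Type*} [Field F] [Fintype F] [DecidableEq F] :
    (Fintype.card F - 1) / 2 ≤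
      (Finset.image (fun t : F => t ^ 2) (Finset.univ.erase 0)).card := by
  have h1 : ((Finset.univ : Finset F).erase 0).card ≤
      2 * (Finset.image (fun t : F => t ^ 2) (Finset.univ.erase 0)).card := by
    apply Finset.card_le_mul_card_image
    intro s hs
    obtain ⟨u, -, rfl⟩ := Finset.mem_image.1 hs
    have hsub : ((Finset.univ : Finset F).erase 0).filter (fun t => t ^ 2 = u ^ 2) ⊆ {u, -u} := by
      intro t ht
      rw [Finset.mem_filter] at ht
      rw [Finset.mem_insert, Finset.mem_singleton]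
      exact sq_eq_sq_iff_eq_or_eq_neg.1 ht.2
    exact (Finset.card_le_card hsub).trans Finset.card_le_two
  rw [Finset.card_erase_of_mem (Finset.mem_univ _), Finset.card_univ] at h1
  omega

section abstract

variable {G F K V P : Type*} [Group G] [Field F] [Fintype F] [Field K] [AddCommGroup V]
  [Module K V] [FiniteDimensional K V] [AddCommGroup P] [Fintype P]

/-- the commutator character -/
def lsB (ψ : AddChar F K) (β : P → P →+ F) (a : P) : AddChar P K where
  toFun c := ψ (β a c)
  map_zero_eq_one' := by rw [map_zero, AddChar.map_zero_eq_one]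
  map_add_eq_mul' := by
    intro x y
    rw [map_add, AddChar.map_add_eq_mul]

theorem heis_LS_bound (ψ0 : AddChar F K) (hψ0 : ψ0.IsPrimitive) (hq : (Fintype.card F : K) ≠ 0)
    (ρ : Representation K G V)
    (z : F → G) (hz : ∀ a b, z (a + b) = z a * z b) (hne : ∃ b, ρ (z b) ≠ 1)
    (htor : ∀ t : F, t ≠ 0 → ∃ g : G, ∀ c, g * z c * g⁻¹ = z (t ^ 2 * c))
    (hs : P → G) (β : P → P →+ F)
    (hcomm : ∀ a c, hs c * hs a = z (β a c) * (hs a * hs c))
    (hcz : ∀ a c, hs a * z c = z c * hs a)
    (M e : ℕ)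
    (hfib : ∀ ψ : AddChar F K, ψ ≠ 1 → ∀ a : P,
      Nat.card {a' : P // ∀ c, ψ (β a' c) = ψ (β a c)} ≤ M)
    (hcard : M * e ^ 2 ≤ Fintype.card P) (hM : 0 < M) :
    (Fintype.card F - 1) / 2 * e ≤ finrank K V := by
  classical
  have hz0 : z 0 = 1 := by
    have := hz 0 0
    rw [add_zero] at this
    exact (mul_eq_left.1 this.symm)
  obtain ⟨r, hr⟩ : ∃ r : F → V →ₗ[K] V, r = fun b => ρ (z b) := ⟨_, rfl⟩
  have hr_apply : ∀ b w, r b w = ρ (z b) w := fun b w => by rw [hr]
  have hr0 : r 0 = LinearMap.id := by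
    rw [hr]
    change ρ (z 0) = _
    rw [hz0, map_one]
    rfl
  have hradd : ∀ a b, r (a + b) = r a ∘ₗ r b := by
    intro a b
    rw [hr]
    change ρ (z (a + b)) = _
    rw [hz, map_mul]
    rfl
  -- a nontrivial character occurs
  obtain ⟨μ1, hμ1, hE1⟩ := exists_chEigK_ne_bot hq r hr0 hradd (fun μ : F => AddChar.mulShift ψ0 μ)
    hq (by
      intro b
      have h1 : ∀ μ ∈ (Finset.univ : Finset F), (AddChar.mulShift ψ0 μ b)⁻¹ = ψ0 (μ * (-b)) := by
        intro μ _
        rw [AddChar.mulShift_apply, ← AddChar.map_neg_eq_inv, mul_neg]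
      rw [Finset.sum_congr rfl h1, AddChar.sum_mulShift _ hψ0]
      by_cases hb : b = 0
      · simp [hb]
      · simp [hb])
    (by
      obtain ⟨b, hb⟩ := hne
      exact ⟨b, by rw [hr]; exact hb⟩)
  obtain ⟨ψ1, hψ1d⟩ : ∃ ψ1 : AddChar F K, ψ1 = AddChar.mulShift ψ0 μ1 := ⟨_, rfl⟩
  rw [← hψ1d] at hμ1 hE1
  have hprim1 : ψ1.IsPrimitive := AddChar.IsPrimitive.of_ne_one hμ1
  -- all square shifts occur
  have hEsq : ∀ t : F, t ≠ 0 → chEigK r (AddChar.mulShift ψ1 (t ^ 2)) ≠ ⊥ := by
    intro t ht
    obtain ⟨g, hg⟩ := htor t⁻¹ (inv_ne_zero ht)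
    obtain ⟨w, hw, hw0⟩ := Submodule.exists_mem_ne_zero_of_ne_bot hE1
    intro hbot
    have h1 : ρ g w ∈ chEigK r (AddChar.mulShift ψ1 (t ^ 2)) := by
      intro b
      have hc : z b * g = g * z (t ^ 2 * b) := by
        have h2 := hg (t ^ 2 * b)
        have h3 : t⁻¹ ^ 2 * (t ^ 2 * b) = b := by field_simp
        rw [h3] at h2
        rw [← h2, inv_mul_cancel_right]
      rw [hr_apply, ← Module.End.mul_apply, ← map_mul, hc, map_mul, Module.End.mul_apply,
        ← hr_apply, hw (t ^ 2 * b), map_smul, AddChar.mulShift_apply]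
    rw [hbot, Submodule.mem_bot] at h1
    exact hw0 (repK_apply_injective ρ _ (h1.trans (map_zero _).symm))
  -- the Heisenberg bound
  have hinv : ∀ (ψ : AddChar F K) (a : P) (w : V), w ∈ chEigK r ψ → ρ (hs a) w ∈ chEigK r ψ := by
    intro ψ a w hw b
    rw [hr_apply, ← Module.End.mul_apply, ← map_mul, ← hcz, map_mul, Module.End.mul_apply,
      ← hr_apply, hw b, map_smul]
  have hdim : ∀ ψ : AddChar F K, ψ ≠ 1 → chEigK r ψ ≠ ⊥ → e ≤ finrank K (chEigK r ψ) := by
    intro ψ hψ hW
    have hc1 : (Finset.univ : Finset P).card ≤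
        M * (Finset.image (lsB ψ β) Finset.univ).card := by
      apply Finset.card_le_mul_card_image
      intro χ hχ
      obtain ⟨a, -, rfl⟩ := Finset.mem_image.1 hχ
      refine le_trans (le_of_eq ?_) (hfib ψ hψ a)
      rw [Nat.card_eq_fintype_card, Fintype.card_subtype]
      congr 1
      ext a'
      simp only [Finset.mem_filter, Finset.mem_univ, true_and]
      constructor
      · intro h c
        exact DFunLike.congr_fun h c
      · intro h
        exact DFunLike.ext _ _ h
    have hex : ∀ χ : {χ // χ ∈ Finset.image (lsB ψ β) Finset.univ}, ∃ a, lsB ψ β a = χ.1 := by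
      intro χ
      obtain ⟨a, -, ha⟩ := Finset.mem_image.1 χ.2
      exact ⟨a, ha⟩
    choose f hf using hex
    have h1 := heisK_card_le_sub (chEigK r ψ) hW (fun a => ρ (hs a)) (fun a w hw => hinv ψ a w hw)
      (fun a => repK_apply_injective ρ _) (lsB ψ β) (by
        intro a c w hw
        rw [← Module.End.mul_apply, ← map_mul, hcomm, map_mul, map_mul, Module.End.mul_apply,
          Module.End.mul_apply, ← hr_apply, hinv ψ a _ (hinv ψ c _ hw) _]
        rfl) f (by
        intro χ χ' hh
        dsimp only at hh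
        rw [hf, hf] at hh
        exact Subtype.ext hh)
    rw [Fintype.card_coe] at h1
    rw [Finset.card_univ] at hc1
    have h2 : M * e ^ 2 ≤ M * finrank K (chEigK r ψ) ^ 2 :=
      hcard.trans (hc1.trans (Nat.mul_le_mul_left M h1))
    have h3 : e ^ 2 ≤ finrank K (chEigK r ψ) ^ 2 := Nat.le_of_mul_le_mul_left h2 hM
    exact (Nat.pow_le_pow_iff_left (by norm_num)).1 h3
  -- sum up
  obtain ⟨S, hS⟩ : ∃ S : Finset F, S = Finset.image (fun t : F => t ^ 2) (Finset.univ.erase 0) :=
    ⟨_, rfl⟩
  have hScard : (Fintype.card F - 1) / 2 ≤ S.card := by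
    rw [hS]
    exact card_sq_image_ge
  have hsum := sum_finrank_chEigK_le hq r (fun s : S => AddChar.mulShift ψ1 s.1) (by
      intro s s' hss
      exact Subtype.ext (AddChar.to_mulShift_inj_of_isPrimitive hprim1 hss))
  refine le_trans ?_ hsum
  refine le_trans ?_ (Finset.card_nsmul_le_sum _ _ e ?_)
  · rw [Finset.card_univ, Fintype.card_coe, smul_eq_mul]
    exact Nat.mul_le_mul_right e hScard
  · rintro ⟨s, hs2⟩ _
    have hs3 : s ∈ Finset.image (fun t : F => t ^ 2) (Finset.univ.erase 0) := hS ▸ hs2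
    obtain ⟨t, ht, hts⟩ := Finset.mem_image.1 hs3
    change e ≤ finrank K (chEigK r (AddChar.mulShift ψ1 s))
    have ht0 : t ≠ 0 := Finset.ne_of_mem_erase ht
    rw [← hts]
    apply hdim _ _ (hEsq t ht0)
    exact hprim1 (pow_ne_zero 2 ht0)

end abstract

end Cfsg.Agent.Lib.Helper18
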