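import Mathlib
import Cfsg.Prelude.Def_ClassicalGeometry
import Cfsg.Agent.Lib.Helper18.Symp2
import Cfsg.Agent.Lib.Helper18.Herm6

set_option linter.unusedSimpArgs false
set_option linter.unusedSectionVars false

namespace Cfsg.Agent.Lib.Helper18

open Matrix

section ti

variable {F : Type*} [Field F] {m : ℕ}

theorem sympForm_eq (u v : Fin m ⊕ Fin m → F) : Cfsg.sympForm m F u v = sympB m F u v :=
  (sympB_apply u v).symm

variable [Fintype F]

theorem symp_ti_span_iff {k : ℕ} (s : Fin k → (Fin m ⊕ Fin m → F)) :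
    (∀ x ∈ Submodule.span F (Set.range s), ∀ y ∈ Submodule.span F (Set.range s),
      Cfsg.sympForm m F x y = 0) ↔ ∀ i j, sympB m F (s i) (s j) = 0 := by
  simp only [sympForm_eq]
  constructor
  · intro h i j
    exact h _ (Submodule.subset_span (Set.mem_range_self i)) _
      (Submodule.subset_span (Set.mem_range_self j))
  · intro h
    have h1 : ∀ i, ∀ y ∈ Submodule.span F (Set.range s), sympB m F (s i) y = 0 := by
      intro i y hy
      have : Submodule.span F (Set.range s) ≤ LinearMap.ker (sympB m F (s i)) := by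
        rw [Submodule.span_le]
        rintro _ ⟨j, rfl⟩
        exact h i j
      exact this hy
    intro x hx y hy
    rw [symp_swap sympB_isAlt, neg_eq_zero]
    have : Submodule.span F (Set.range s) ≤ LinearMap.ker (sympB m F y) := by
      rw [Submodule.span_le]
      rintro _ ⟨i, rfl⟩
      show sympB m F y (s i) = 0
      rw [symp_swap sympB_isAlt, h1 i y hy, neg_zero]
    exact this hx

/-- vectors perpendicular to `u` outside `⟨u⟩` -/
theorem symp_card_perp_off (u : Fin m ⊕ Fin m → F) (hu : u ≠ 0) :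
    Fintype.card F * (Nat.card {v : Fin m ⊕ Fin m → F // (∀ a : F, a • u ≠ v) ∧ sympB m F u v = 0}
      + Fintype.card F) = Fintype.card F ^ (2 * m) := by
  have h1 := card_fiber_linear (sympB m F u) (sympB_nondeg u hu) 0
  have h5 := card_subtype_and_add (fun v : Fin m ⊕ Fin m → F => ∀ a : F, a • u ≠ v)
    (fun v => sympB m F u v = 0)
  have h6 : Nat.card {v : Fin m ⊕ Fin m → F // ¬ (∀ a : F, a • u ≠ v) ∧ sympB m F u v = 0}
      = Fintype.card F := by
    rw [← Nat.card_eq_fintype_card]
    apply Nat.card_congr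
    symm
    refine Equiv.ofBijective (fun a => ⟨a • u, ?_, ?_⟩) ⟨?_, ?_⟩
    · push Not
      exact ⟨a, rfl⟩
    · rw [map_smul, sympB_isAlt u, smul_zero]
    · intro a b hab
      have : a • u = b • u := congrArg Subtype.val hab
      exact smul_left_injective F hu this
    · rintro ⟨v, hv, -⟩
      push Not at hv
      obtain ⟨a, ha⟩ := hv
      exact ⟨a, Subtype.ext ha⟩
  rw [h6] at h5
  rw [h5, h1, Nat.card_fun, Nat.card_eq_fintype_card, Nat.card_eq_fintype_card, Fintype.card_sum,
    Fintype.card_fin, two_mul]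

theorem symp_card_ti2 (J0 : ℕ) (hJ : Fintype.card F * (J0 + Fintype.card F) = Fintype.card F ^ (2 * m)) :
    Nat.card {W : Submodule F (Fin m ⊕ Fin m → F) // Module.finrank F W = 2 ∧
        ∀ u ∈ W, ∀ v ∈ W, Cfsg.sympForm m F u v = 0}
      * ∏ i : Fin 2, (Fintype.card F ^ 2 - Fintype.card F ^ (i : ℕ))
      = (Fintype.card F ^ (2 * m) - 1) * J0 := by
  classical
  have hq : 0 < Fintype.card F := Fintype.card_pos
  rw [card_subspace_mul (K := F) (V := Fin m ⊕ Fin m → F) 2
    (fun W => ∀ u ∈ W, ∀ v ∈ W, Cfsg.sympForm m F u v = 0)]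
  let e : {s : Fin 2 → (Fin m ⊕ Fin m → F) // LinearIndependent F s ∧
      ∀ u ∈ Submodule.span F (Set.range s), ∀ v ∈ Submodule.span F (Set.range s),
        Cfsg.sympForm m F u v = 0} ≃
      Σ u : {u : Fin m ⊕ Fin m → F // u ≠ 0},
        {v : Fin m ⊕ Fin m → F // (∀ a : F, a • u.1 ≠ v) ∧ sympB m F u.1 v = 0} :=
    { toFun := fun s => ⟨⟨s.1 1, (linearIndependent_fin2.mp s.2.1).1⟩,
        ⟨s.1 0, (linearIndependent_fin2.mp s.2.1).2, (symp_ti_span_iff s.1).mp s.2.2 1 0⟩⟩
      invFun := fun p => ⟨![p.2.1, p.1.1], linearIndependent_fin2.mpr ⟨p.1.2, p.2.2.1⟩, by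
        rw [symp_ti_span_iff]
        intro i j
        fin_cases i <;> fin_cases j
        · exact sympB_isAlt _
        · show sympB m F p.2.1 p.1.1 = 0
          rw [symp_swap sympB_isAlt, p.2.2.2, neg_zero]
        · exact p.2.2.2
        · exact sympB_isAlt _⟩
      left_inv := fun s => Subtype.ext (by
        funext i
        fin_cases i <;> rfl)
      right_inv := fun p => rfl }
  have := Fintype.ofFinite {u : Fin m ⊕ Fin m → F // u ≠ 0}
  rw [Nat.card_congr e, Nat.card_sigma]
  have h1 : ∀ u : {u : Fin m ⊕ Fin m → F // u ≠ 0},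
      Nat.card {v : Fin m ⊕ Fin m → F // (∀ a : F, a • u.1 ≠ v) ∧ sympB m F u.1 v = 0} = J0 := by
    intro u
    have h2 := symp_card_perp_off u.1 u.2
    rw [← hJ] at h2
    have h4 := Nat.eq_of_mul_eq_mul_left hq h2
    omega
  simp_rw [h1]
  rw [Finset.sum_const, Finset.card_univ, smul_eq_mul, ← Nat.card_eq_fintype_card]
  congr 1
  have h5 := card_subtype_add_not (fun v : Fin m ⊕ Fin m → F => v ≠ 0)
  have h6 : Nat.card {v : Fin m ⊕ Fin m → F // ¬ (v ≠ 0)} = 1 := by
    have : Unique {v : Fin m ⊕ Fin m → F // ¬ (v ≠ 0)} :=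
      { default := ⟨0, by simp⟩
        uniq := fun v => Subtype.ext (by simpa using v.2) }
    exact Nat.card_unique
  rw [Nat.card_fun, Nat.card_eq_fintype_card (α := F), Nat.card_eq_fintype_card (α := Fin m ⊕ Fin m),
    Fintype.card_sum, Fintype.card_fin, ← two_mul] at h5
  omega

/-- totally isotropic planes through a given vector -/
theorem symp_card_ti2_through (v : Fin m ⊕ Fin m → F) (hv : v ≠ 0) :
    Nat.card {W : Submodule F (Fin m ⊕ Fin m → F) // Module.finrank F W = 2 ∧ v ∈ W ∧
        ∀ u ∈ W, ∀ w ∈ W, Cfsg.sympForm m F u w = 0}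
      * (Fintype.card F ^ 2 - Fintype.card F)
      = Nat.card {w : Fin m ⊕ Fin m → F // (∀ a : F, a • v ≠ w) ∧ sympB m F v w = 0} := by
  classical
  have hspan : ∀ w : {w : Fin m ⊕ Fin m → F // (∀ a : F, a • v ≠ w) ∧ sympB m F v w = 0},
      LinearIndependent F ![w.1, v] := fun w => linearIndependent_fin2.mpr ⟨hv, w.2.1⟩
  let f : {w : Fin m ⊕ Fin m → F // (∀ a : F, a • v ≠ w) ∧ sympB m F v w = 0} →
      {W : Submodule F (Fin m ⊕ Fin m → F) // Module.finrank F W = 2 ∧ v ∈ W ∧
        ∀ u ∈ W, ∀ w ∈ W, Cfsg.sympForm m F u w = 0} :=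
    fun w => ⟨Submodule.span F (Set.range ![w.1, v]),
      by rw [finrank_span_eq_card (hspan w), Fintype.card_fin],
      Submodule.subset_span ⟨1, rfl⟩, by
        rw [symp_ti_span_iff]
        intro i j
        fin_cases i <;> fin_cases j
        · exact sympB_isAlt _
        · show sympB m F w.1 v = 0
          rw [symp_swap sympB_isAlt, w.2.2, neg_zero]
        · exact w.2.2
        · exact sympB_isAlt _⟩
  have := Fintype.ofFinite {W : Submodule F (Fin m ⊕ Fin m → F) // Module.finrank F W = 2 ∧ v ∈ W ∧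
        ∀ u ∈ W, ∀ w ∈ W, Cfsg.sympForm m F u w = 0}
  rw [← Nat.card_congr (Equiv.sigmaFiberEquiv f), Nat.card_sigma]
  have h1 : ∀ W : {W : Submodule F (Fin m ⊕ Fin m → F) // Module.finrank F W = 2 ∧ v ∈ W ∧
        ∀ u ∈ W, ∀ w ∈ W, Cfsg.sympForm m F u w = 0},
      Nat.card {w // f w = W} = Fintype.card F ^ 2 - Fintype.card F := by
    intro W
    have e : {w // f w = W} ≃ {w : W.1 // ∀ a : F, a • v ≠ w.1} :=
      { toFun := fun w => ⟨⟨w.1.1, by
            have : Submodule.span F (Set.range ![w.1.1, v]) = W.1 := congrArg Subtype.val w.2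
            rw [← this]
            exact Submodule.subset_span ⟨0, rfl⟩⟩, w.1.2.1⟩
        invFun := fun w => ⟨⟨w.1.1, w.2, by
            rw [← sympForm_eq]
            exact W.2.2.2 v W.2.2.1 w.1.1 w.1.2⟩, by
            apply Subtype.ext
            show Submodule.span F (Set.range ![w.1.1, v]) = W.1
            apply Submodule.eq_of_le_of_finrank_eq
            · rw [Submodule.span_le]
              rintro _ ⟨i, rfl⟩
              fin_cases i
              · exact w.1.2
              · exact W.2.2.1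
            · rw [finrank_span_eq_card (linearIndependent_fin2.mpr ⟨hv, w.2⟩), Fintype.card_fin,
                W.2.1]⟩
        left_inv := fun w => rfl
        right_inv := fun w => rfl }
    rw [Nat.card_congr e]
    have h2 := card_subtype_add_not (fun w : W.1 => ∀ a : F, a • v ≠ w.1)
    have h3 : Nat.card {w : W.1 // ¬ ∀ a : F, a • v ≠ w.1} = Fintype.card F := by
      rw [← Nat.card_eq_fintype_card]
      apply Nat.card_congr
      symm
      refine Equiv.ofBijective (fun a => ⟨⟨a • v, W.1.smul_mem a W.2.2.1⟩, ?_⟩) ⟨?_, ?_⟩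
      · push Not
        exact ⟨a, rfl⟩
      · intro a b hab
        have : a • v = b • v := congrArg (fun z => z.1.1) hab
        exact smul_left_injective F hv this
      · rintro ⟨w, hw⟩
        push Not at hw
        obtain ⟨a, ha⟩ := hw
        exact ⟨a, Subtype.ext (Subtype.ext ha)⟩
    have h4 : Nat.card W.1 = Fintype.card F ^ 2 := by
      rw [Module.natCard_eq_pow_finrank (K := F), W.2.1, Nat.card_eq_fintype_card]
    omega
  simp_rw [h1]
  rw [Finset.sum_const, Finset.card_univ, smul_eq_mul, Nat.card_eq_fintype_card]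

end ti

end Cfsg.Agent.Lib.Helper18
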