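import Mathlib
import Cfsg.Agent.Lib.Helper18.LSRep2
import Cfsg.Agent.Lib.Helper18.SpTv2
import Cfsg.Agent.Lib.Helper18.Symp3

/-! The Heisenberg subgroup of the symplectic group and the Landazuri–Seitz bound. -/

set_option autoImplicit false
set_option linter.unusedSimpArgs false
set_option linter.unusedSectionVars false

namespace Cfsg.Agent.Lib.Helper18

open Matrix Cfsg Cfsg.Agent.H5Symp Module

section heis

variable {F : Type*} [Field F] {m : ℕ}

theorem tvB_mulVec (v : Fin m ⊕ Fin m → F) (c : F) (x : Fin m ⊕ Fin m → F) :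
    ((tv v c : symplecticGroup (Fin m) F) : Matrix (Fin m ⊕ Fin m) (Fin m ⊕ Fin m) F) *ᵥ x
      = x + (c * sympB m F x v) • v := by
  rw [tv_coe_mulVec, sympForm_eq]

theorem sympB_swap (x y : Fin m ⊕ Fin m → F) : sympB m F y x = - sympB m F x y := by
  have h := sympB_isAlt (F := F) (m := m) (x + y)
  simp only [map_add, LinearMap.add_apply, sympB_isAlt x, sympB_isAlt y] at h
  linear_combination h

theorem tv_smul_left (t : F) (v : Fin m ⊕ Fin m → F) (c : F) : tv (t • v) c = tv v (t ^ 2 * c) := by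
  apply sp_ext
  intro x
  rw [tvB_mulVec, tvB_mulVec, map_smul, smul_eq_mul, smul_smul]
  congr 2
  ring

/-- the perpendicular space of `v0` -/
noncomputable def spPerp (v0 : Fin m ⊕ Fin m → F) : Submodule F (Fin m ⊕ Fin m → F) :=
  LinearMap.ker ((sympB m F).flip v0)

theorem mem_spPerp {v0 w : Fin m ⊕ Fin m → F} : w ∈ spPerp v0 ↔ sympB m F w v0 = 0 := by
  rw [spPerp, LinearMap.mem_ker]
  rfl

/-- the Heisenberg elements -/
noncomputable def spHs (v0 w : Fin m ⊕ Fin m → F) : symplecticGroup (Fin m) F :=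
  tv (v0 + w) 1 * tv w (-1)

theorem spHs_mulVec {v0 w : Fin m ⊕ Fin m → F} (hw : sympB m F w v0 = 0)
    (x : Fin m ⊕ Fin m → F) :
    ((spHs v0 w : symplecticGroup (Fin m) F) : Matrix (Fin m ⊕ Fin m) (Fin m ⊕ Fin m) F) *ᵥ x
      = x + sympB m F x v0 • w + (sympB m F x w + sympB m F x v0) • v0 := by
  have hww : sympB m F w w = 0 := sympB_isAlt w
  rw [spHs, sp_coe_mul_mulVec, tvB_mulVec, tvB_mulVec]
  simp only [map_add, map_smul, LinearMap.add_apply, LinearMap.smul_apply, smul_eq_mul, hw, hww,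
    mul_zero, add_zero, one_mul]
  module

theorem spHs_comm {v0 a c : Fin m ⊕ Fin m → F} (ha : sympB m F a v0 = 0)
    (hc : sympB m F c v0 = 0) :
    spHs v0 c * spHs v0 a = tv v0 (2 * sympB m F a c) * (spHs v0 a * spHs v0 c) := by
  have h00 : sympB m F v0 v0 = 0 := sympB_isAlt v0
  have ha' : sympB m F v0 a = 0 := by rw [sympB_swap, ha, neg_zero]
  have hc' : sympB m F v0 c = 0 := by rw [sympB_swap, hc, neg_zero]
  have hca : sympB m F c a = - sympB m F a c := sympB_swap a c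
  apply sp_ext
  intro x
  rw [sp_coe_mul_mulVec, sp_coe_mul_mulVec, sp_coe_mul_mulVec, tvB_mulVec, spHs_mulVec hc,
    spHs_mulVec ha, spHs_mulVec ha, spHs_mulVec hc]
  simp only [map_add, map_smul, LinearMap.add_apply, LinearMap.smul_apply, smul_eq_mul, ha, hc,
    ha', hc', h00, hca, mul_zero, add_zero]
  module

theorem spHs_comm_tv {v0 a : Fin m ⊕ Fin m → F} (ha : sympB m F a v0 = 0) (c : F) :
    spHs v0 a * tv v0 c = tv v0 c * spHs v0 a := by
  have h00 : sympB m F v0 v0 = 0 := sympB_isAlt v0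
  have ha' : sympB m F v0 a = 0 := by rw [sympB_swap, ha, neg_zero]
  apply sp_ext
  intro x
  rw [sp_coe_mul_mulVec, sp_coe_mul_mulVec, tvB_mulVec, tvB_mulVec, spHs_mulVec ha,
    spHs_mulVec ha]
  simp only [map_add, map_smul, LinearMap.add_apply, LinearMap.smul_apply, smul_eq_mul, ha,
    ha', h00, mul_zero, add_zero]
  module

theorem sp_torus {v0 : Fin m ⊕ Fin m → F} (hv0 : v0 ≠ 0) (t : F) (ht : t ≠ 0) :
    ∃ g : symplecticGroup (Fin m) F, ∀ c, g * tv v0 c * g⁻¹ = tv v0 (t ^ 2 * c) := by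
  obtain ⟨g, hg⟩ := sp_exists_mulVec_eq hv0 (smul_ne_zero ht hv0)
  refine ⟨g, fun c => ?_⟩
  rw [sp_conj_tv, hg, tv_smul_left]

theorem exists_sympB_eq_one {v0 : Fin m ⊕ Fin m → F} (hv0 : v0 ≠ 0) :
    ∃ y0, sympB m F y0 v0 = 1 := by
  obtain ⟨y, hy⟩ := sympB_nondeg v0 hv0
  have hy' : sympB m F y v0 ≠ 0 := by
    rw [sympB_swap]
    exact neg_ne_zero.2 hy
  refine ⟨(sympB m F y v0)⁻¹ • y, ?_⟩
  rw [map_smul, LinearMap.smul_apply, smul_eq_mul, inv_mul_cancel₀ hy']

theorem tv_not_mem_center {v0 : Fin m ⊕ Fin m → F} (hv0 : v0 ≠ 0) :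
    tv v0 (1 : F) ∉ Subgroup.center (symplecticGroup (Fin m) F) := by
  intro hcen
  obtain ⟨y0, hy0⟩ := exists_sympB_eq_one hv0
  have hy00 : y0 ≠ 0 := by
    rintro rfl
    rw [map_zero, LinearMap.zero_apply] at hy0
    exact zero_ne_one hy0
  obtain ⟨g, hg⟩ := sp_exists_mulVec_eq hv0 hy00
  have h1 : g * tv v0 1 * g⁻¹ = tv v0 (1 : F) := by
    rw [Subgroup.mem_center_iff.1 hcen g, mul_inv_cancel_right]
  rw [sp_conj_tv, hg] at h1
  have h2 := congrArg (fun s : symplecticGroup (Fin m) F =>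
    (s : Matrix (Fin m ⊕ Fin m) (Fin m ⊕ Fin m) F) *ᵥ v0) h1
  rw [tvB_mulVec, tvB_mulVec, sympB_isAlt v0, mul_zero, zero_smul, add_zero, sympB_swap, hy0,
    one_mul] at h2
  have h3 : (-1 : F) • y0 = 0 := by
    have := add_left_cancel (h2.trans (add_zero v0).symm)
    exact this
  rw [neg_smul, one_smul, neg_eq_zero] at h3
  exact hy00 h3

/-- a vector perpendicular to `v0^⊥` is a multiple of `v0` -/
theorem eq_smul_of_perp_perp {v0 u : Fin m ⊕ Fin m → F} (hv0 : v0 ≠ 0)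
    (hu : ∀ c, sympB m F c v0 = 0 → sympB m F u c = 0) : ∃ l : F, u = l • v0 := by
  obtain ⟨y0, hy0⟩ := exists_sympB_eq_one hv0
  refine ⟨- sympB m F u y0, ?_⟩
  by_contra hne
  have hne' : u - (- sympB m F u y0) • v0 ≠ 0 := sub_ne_zero.2 hne
  obtain ⟨x, hx⟩ := sympB_nondeg _ hne'
  apply hx
  have h1 := hu (x - sympB m F x v0 • y0) (by
    rw [map_sub, LinearMap.sub_apply, map_smul, LinearMap.smul_apply, hy0, smul_eq_mul, mul_one,
      sub_self])
  rw [map_sub, map_smul, smul_eq_mul] at h1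
  rw [map_sub, LinearMap.sub_apply, map_smul, LinearMap.smul_apply, smul_eq_mul,
    sympB_swap x v0]
  linear_combination h1

end heis

end Cfsg.Agent.Lib.Helper18
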