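import Mathlib
import Cfsg.Agent.Lib.Helper18.LSRep3

/-! The Landazuri–Seitz bound for symplectic groups in odd characteristic. -/

set_option autoImplicit false
set_option linter.unusedSimpArgs false
set_option linter.unusedSectionVars false

namespace Cfsg.Agent.Lib.Helper18

open Matrix Cfsg Cfsg.Agent.H5Symp Module

theorem card_cast_ne_zero_of_ringChar_ne {F K K' : Type*} [Field F] [Fintype F] [Field K]
    [Field K'] [Algebra K K'] (hK : ringChar K ≠ ringChar F) : (Fintype.card F : K') ≠ 0 := by
  obtain ⟨k, hp, hcard⟩ := FiniteField.card F (ringChar F)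
  rw [hcard, Nat.cast_pow]
  apply pow_ne_zero
  intro h0
  have h1 : ((ringChar F : ℕ) : K) = 0 := by
    apply (algebraMap K K').injective
    rw [map_natCast, h0, map_zero]
  have h2 := ringChar.dvd h1
  rcases (Nat.Prime.eq_one_or_self_of_dvd hp _ h2) with h3 | h3
  · exact CharP.ringChar_ne_one h3
  · exact hK h3

theorem card_spPerp_ge {F : Type*} [Field F] [Fintype F] {n : ℕ} (hn : 1 ≤ n)
    (v0 : Fin n ⊕ Fin n → F) [Fintype (spPerp v0)] :
    Fintype.card F * (Fintype.card F ^ (n - 1)) ^ 2 ≤ Fintype.card (spPerp v0) := by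
  rw [Module.card_eq_pow_finrank (K := F) (V := spPerp v0)]
  have h1 := LinearMap.finrank_range_add_finrank_ker ((sympB n F).flip v0)
  have h2 : finrank F (LinearMap.range ((sympB n F).flip v0)) ≤ 1 := by
    have := Submodule.finrank_le (LinearMap.range ((sympB n F).flip v0))
    rwa [Module.finrank_self] at this
  have h3 : finrank F (Fin n ⊕ Fin n → F) = n + n := by
    rw [Module.finrank_fintype_fun_eq_card, Fintype.card_sum, Fintype.card_fin]
  have h4 : 1 + (n - 1) * 2 ≤ finrank F (spPerp v0) := by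
    have : finrank F (spPerp v0) = finrank F (LinearMap.ker ((sympB n F).flip v0)) := rfl
    omega
  calc Fintype.card F * (Fintype.card F ^ (n - 1)) ^ 2
      = Fintype.card F ^ (1 + (n - 1) * 2) := by rw [pow_add, pow_one, pow_mul]
    _ ≤ _ := Nat.pow_le_pow_right Fintype.card_pos h4

theorem sp_LS_bound {F : Type*} [Field F] [Fintype F] (hodd : Odd (Fintype.card F)) (n : ℕ)
    (hn : 1 ≤ n) {K : Type*} [Field K] (hK : ringChar K ≠ ringChar F) {d : ℕ}
    (ρ : symplecticGroup (Fin n) F →* GL (Fin d) K)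
    (hker : ρ.ker ≤ Subgroup.center (symplecticGroup (Fin n) F)) :
    (Fintype.card F - 1) / 2 * Fintype.card F ^ (n - 1) ≤ d := by
  classical
  obtain ⟨pc⟩ : Nonempty (AddChar.PrimitiveAddChar F K) :=
    ⟨AddChar.FiniteField.primitiveChar F K hK⟩
  have h2 : (2 : F) ≠ 0 := by
    intro h0
    obtain ⟨k, hk⟩ := hodd
    have h1 := Nat.cast_card_eq_zero F
    rw [hk] at h1
    push_cast at h1
    rw [h0, zero_mul, zero_add] at h1
    exact one_ne_zero h1
  have hq : (Fintype.card F : CyclotomicField pc.n K) ≠ 0 := card_cast_ne_zero_of_ringChar_ne hK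
  obtain ⟨v0, hv0⟩ : ∃ v0 : Fin n ⊕ Fin n → F, v0 ≠ 0 :=
    ⟨Pi.single (Sum.inl ⟨0, hn⟩) 1, by
      intro h
      have := congrFun h (Sum.inl ⟨0, hn⟩)
      simp at this⟩
  have hb := heis_LS_bound (P := spPerp v0) pc.char pc.prim hq
    (lsRep (CyclotomicField pc.n K) ρ) (fun c => tv v0 c) (fun a b => (tv_mul_tv v0 a b).symm)
    ⟨1, fun h => tv_not_mem_center hv0 (hker (MonoidHom.mem_ker.2 ((lsRep_eq_one_iff ρ _).1 h)))⟩
    (sp_torus hv0) (fun w => spHs v0 w.1)
    (fun a => AddMonoidHom.mk' (fun c => 2 * sympB n F a.1 c.1) (by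
      intro x y
      rw [Submodule.coe_add, map_add, mul_add]))
    (fun a c => spHs_comm (mem_spPerp.1 a.2) (mem_spPerp.1 c.2))
    (fun a c => spHs_comm_tv (mem_spPerp.1 a.2) c)
    (Fintype.card F) (Fintype.card F ^ (n - 1)) ?_ (card_spPerp_ge hn v0) Fintype.card_pos
  · rwa [Module.finrank_fin_fun] at hb
  · intro ψ hψ a
    have hprim : ψ.IsPrimitive := AddChar.IsPrimitive.of_ne_one hψ
    have key : ∀ a' : {a' : spPerp v0 // ∀ c : spPerp v0,
        ψ (2 * sympB n F a'.1 c.1) = ψ (2 * sympB n F a.1 c.1)},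
        ∃ l : F, a'.1.1 - a.1 = l • v0 := by
      rintro ⟨a', ha'⟩
      apply eq_smul_of_perp_perp hv0
      intro c hc
      have h3 : AddChar.mulShift ψ (2 * sympB n F a'.1 c) =
          AddChar.mulShift ψ (2 * sympB n F a.1 c) := by
        ext l
        have h4 := ha' ⟨l • c, mem_spPerp.2 (by
          rw [map_smul, LinearMap.smul_apply, hc, smul_zero])⟩
        simp only [map_smul, smul_eq_mul] at h4
        rw [AddChar.mulShift_apply, AddChar.mulShift_apply]
        convert h4 using 2 <;> ring
      have h5 := AddChar.to_mulShift_inj_of_isPrimitive hprim h3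
      have h6 := mul_left_cancel₀ h2 h5
      rw [map_sub, LinearMap.sub_apply, h6, sub_self]
    choose g hg using key
    have hinj : Function.Injective g := by
      intro x y hxy
      apply Subtype.ext
      apply Subtype.ext
      have h7 := hg x
      rw [hxy, ← hg y] at h7
      exact sub_left_injective h7
    have h8 := Nat.card_le_card_of_injective g hinj
    rw [Nat.card_eq_fintype_card (α := F)] at h8
    exact h8

end Cfsg.Agent.Lib.Helper18
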