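import Mathlib
import Cfsg.Agent.Lib.Helper18.LSRep4

/-! The Landazuri–Seitz bound for special linear groups. -/

set_option autoImplicit false
set_option linter.unusedSimpArgs false
set_option linter.unusedSectionVars false

namespace Cfsg.Agent.Lib.Helper18

open Matrix Module

section sl

variable {F : Type*} [Field F] {n : ℕ}

/-- general transvections in `SL_n` -/
def slT (u θ : Fin n → F) (h : θ ⬝ᵥ u = 0) : SpecialLinearGroup (Fin n) F :=
  ⟨1 + vecMulVec u θ, by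
    rw [vecMulVec_eq Unit, det_one_add_replicateCol_mul_replicateRow, h, add_zero]⟩

theorem slT_coe (u θ : Fin n → F) (h : θ ⬝ᵥ u = 0) :
    ((slT u θ h : SpecialLinearGroup (Fin n) F) : Matrix (Fin n) (Fin n) F) = 1 + vecMulVec u θ :=
  rfl

theorem slT_mul_same (v0 φ φ' : Fin n → F) (h : φ ⬝ᵥ v0 = 0) (h' : φ' ⬝ᵥ v0 = 0)
    (h'' : (φ + φ') ⬝ᵥ v0 = 0) : slT v0 (φ + φ') h'' = slT v0 φ h * slT v0 φ' h' := by
  apply Subtype.ext
  change 1 + vecMulVec v0 (φ + φ') = (1 + vecMulVec v0 φ) * (1 + vecMulVec v0 φ')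
  have h1 : vecMulVec v0 φ * vecMulVec v0 φ' = 0 := by
    rw [vecMulVec_mul_vecMulVec, h, zero_smul, vecMulVec_zero]
  rw [vecMulVec_add, add_mul, mul_add, mul_add, h1]
  simp only [one_mul, mul_one, add_zero]
  abel

theorem slT_zero (v0 : Fin n → F) (h : (0 : Fin n → F) ⬝ᵥ v0 = 0) : slT v0 0 h = 1 := by
  apply Subtype.ext
  change 1 + vecMulVec v0 (0 : Fin n → F) = 1
  rw [vecMulVec_zero, add_zero]

theorem slT_comm (u θ v0 φ φ' : Fin n → F) (hθu : θ ⬝ᵥ u = 0) (hθv : θ ⬝ᵥ v0 = 0)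
    (hφ : φ ⬝ᵥ v0 = 0) (hφ' : φ' ⬝ᵥ v0 = 0) (hrel : φ' = φ - (φ ⬝ᵥ u) • θ) :
    slT u θ hθu * slT v0 φ hφ = slT v0 φ' hφ' * slT u θ hθu := by
  apply Subtype.ext
  change (1 + vecMulVec u θ) * (1 + vecMulVec v0 φ) = (1 + vecMulVec v0 φ') * (1 + vecMulVec u θ)
  have h1 : vecMulVec u θ * vecMulVec v0 φ = 0 := by
    rw [vecMulVec_mul_vecMulVec, hθv, zero_smul, vecMulVec_zero]
  have h2 : vecMulVec v0 φ' * vecMulVec u θ = vecMulVec v0 ((φ ⬝ᵥ u) • θ) := by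
    rw [vecMulVec_mul_vecMulVec, hrel, sub_dotProduct, smul_dotProduct, hθu, smul_zero, sub_zero]
  have h3 : vecMulVec v0 φ' = vecMulVec v0 φ - vecMulVec v0 ((φ ⬝ᵥ u) • θ) := by
    rw [hrel, vecMulVec_sub]
  rw [add_mul, mul_add, mul_add, add_mul, mul_add, mul_add, h1, h2, h3]
  simp only [one_mul, mul_one, add_zero]
  abel

/-- the covectors vanishing on `v0` -/
def slPerp (v0 : Fin n → F) : Submodule F (Fin n → F) where
  carrier := {φ | φ ⬝ᵥ v0 = 0}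
  add_mem' := by
    intro a b ha hb
    change (a + b) ⬝ᵥ v0 = 0
    rw [add_dotProduct, ha, hb, add_zero]
  zero_mem' := zero_dotProduct v0
  smul_mem' := by
    intro c a ha
    change (c • a) ⬝ᵥ v0 = 0
    rw [smul_dotProduct, ha, smul_zero]

variable {K : Type*} [Field K]

/-- the characters of `slPerp v0` -/
def slChar (ψ0 : AddChar F K) (v0 y : Fin n → F) : AddChar (slPerp v0) K where
  toFun φ := ψ0 (φ.1 ⬝ᵥ y)
  map_zero_eq_one' := by
    rw [Submodule.coe_zero, zero_dotProduct, AddChar.map_zero_eq_one]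
  map_add_eq_mul' := by
    intro a b
    rw [Submodule.coe_add, add_dotProduct, AddChar.map_add_eq_mul]

theorem slChar_apply (ψ0 : AddChar F K) (v0 y : Fin n → F) (φ : slPerp v0) :
    slChar ψ0 v0 y φ = ψ0 (φ.1 ⬝ᵥ y) := rfl

variable {V : Type*} [AddCommGroup V] [Module K V]
  (ρ : Representation K (SpecialLinearGroup (Fin n) F) V)

/-- the operators of the root group -/
def slR (v0 : Fin n → F) (φ : slPerp v0) : V →ₗ[K] V := ρ (slT v0 φ.1 φ.2)

theorem slR_apply (v0 : Fin n → F) (φ : slPerp v0) (w : V) :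
    slR ρ v0 φ w = ρ (slT v0 φ.1 φ.2) w := rfl

theorem slStep (ψ0 : AddChar F K) (v0 u θ y : Fin n → F) (hθu : θ ⬝ᵥ u = 0) (hθv : θ ⬝ᵥ v0 = 0)
    (hE : chEigK (slR ρ v0) (slChar ψ0 v0 y) ≠ ⊥) :
    chEigK (slR ρ v0) (slChar ψ0 v0 (y + (θ ⬝ᵥ y) • u)) ≠ ⊥ := by
  obtain ⟨w, hw, hw0⟩ := Submodule.exists_mem_ne_zero_of_ne_bot hE
  intro hbot
  have h1 : ρ (slT u θ hθu) w ∈ chEigK (slR ρ v0) (slChar ψ0 v0 (y + (θ ⬝ᵥ y) • u)) := by
    intro φ'
    have hφ : (φ'.1 + (φ'.1 ⬝ᵥ u) • θ) ⬝ᵥ v0 = 0 := by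
      rw [add_dotProduct, smul_dotProduct, hθv, smul_zero, add_zero]
      exact φ'.2
    have hc := slT_comm u θ v0 (φ'.1 + (φ'.1 ⬝ᵥ u) • θ) φ'.1 hθu hθv hφ φ'.2 (by
      rw [add_dotProduct, smul_dotProduct, hθu, smul_zero, add_zero, add_sub_cancel_right])
    rw [slR_apply, ← Module.End.mul_apply, ← map_mul, ← hc, map_mul, Module.End.mul_apply]
    have h2 := hw ⟨φ'.1 + (φ'.1 ⬝ᵥ u) • θ, hφ⟩
    rw [slR_apply] at h2
    rw [h2, map_smul, slChar_apply, slChar_apply]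
    congr 2
    simp only [add_dotProduct, smul_dotProduct, dotProduct_add, dotProduct_smul, smul_eq_mul]
    ring
  rw [hbot, Submodule.mem_bot] at h1
  exact hw0 (repK_apply_injective ρ _ (h1.trans (map_zero _).symm))

end sl

end Cfsg.Agent.Lib.Helper18
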