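import Mathlib
import Cfsg.Agent.Lib.Helper18.LSRep5

/-! The Landazuri–Seitz bound for special linear groups: the main theorem. -/

set_option autoImplicit false
set_option linter.unusedSimpArgs false
set_option linter.unusedSectionVars false

namespace Cfsg.Agent.Lib.Helper18

open Matrix Module

section sl

variable {F : Type*} [Field F] {n : ℕ} {K : Type*} [Field K]
  {V : Type*} [AddCommGroup V] [Module K V]
  (ρ : Representation K (SpecialLinearGroup (Fin n) F) V)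

theorem slR_zero (v0 : Fin n → F) : slR ρ v0 0 = LinearMap.id :=
  (congrArg ρ (slT_zero v0 (0 : slPerp v0).2)).trans (map_one ρ)

theorem slR_add (v0 : Fin n → F) (a b : slPerp v0) :
    slR ρ v0 (a + b) = slR ρ v0 a ∘ₗ slR ρ v0 b :=
  (congrArg ρ (slT_mul_same v0 a.1 b.1 a.2 b.2 (a + b).2)).trans (map_mul ρ _ _)

theorem slMove (ψ0 : AddChar F K) (v0 θ y y' : Fin n → F) (hθv : θ ⬝ᵥ v0 = 0)
    (hy : θ ⬝ᵥ y = 1) (hy' : θ ⬝ᵥ y' = 1)
    (hE : chEigK (slR ρ v0) (slChar ψ0 v0 y) ≠ ⊥) :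
    chEigK (slR ρ v0) (slChar ψ0 v0 y') ≠ ⊥ := by
  have h := slStep ρ ψ0 v0 (y' - y) θ y (by rw [dotProduct_sub, hy, hy', sub_self]) hθv hE
  rwa [hy, one_smul, add_sub_cancel] at h

theorem slToOnes (hn : 3 ≤ n) (ψ0 : AddChar F K) (i0 : Fin n) (y : Fin n → F)
    (hy : ∃ j, j ≠ i0 ∧ y j ≠ 0) :
    chEigK (slR ρ (Pi.single i0 1)) (slChar ψ0 (Pi.single i0 1) y) ≠ ⊥ ↔
      chEigK (slR ρ (Pi.single i0 1)) (slChar ψ0 (Pi.single i0 1) (fun _ => 1)) ≠ ⊥ := by
  classical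
  obtain ⟨j, hj0, hyj⟩ := hy
  obtain ⟨i, hi0, hij⟩ : ∃ i : Fin n, i ≠ i0 ∧ i ≠ j := by
    by_contra hcon
    push Not at hcon
    have hsub : (Finset.univ : Finset (Fin n)) ⊆ {i0, j} := by
      intro i _
      rw [Finset.mem_insert, Finset.mem_singleton]
      by_cases h : i = i0
      · exact Or.inl h
      · exact Or.inr (hcon i h)
    have := (Finset.card_le_card hsub).trans Finset.card_le_two
    rw [Finset.card_univ, Fintype.card_fin] at this
    omega
  have a1 : (Pi.single j (y j)⁻¹ : Fin n → F) ⬝ᵥ Pi.single i0 1 = 0 := by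
    rw [single_dotProduct, Pi.single_eq_of_ne hj0, mul_zero]
  have a2 : (Pi.single j (y j)⁻¹ : Fin n → F) ⬝ᵥ y = 1 := by
    rw [single_dotProduct, inv_mul_cancel₀ hyj]
  have a3 : (Pi.single j (y j)⁻¹ : Fin n → F) ⬝ᵥ Function.update y i 1 = 1 := by
    rw [single_dotProduct, Function.update_of_ne (Ne.symm hij), inv_mul_cancel₀ hyj]
  have b1 : (Pi.single i 1 : Fin n → F) ⬝ᵥ Pi.single i0 1 = 0 := by
    rw [single_dotProduct, Pi.single_eq_of_ne hi0, mul_zero]
  have b2 : (Pi.single i 1 : Fin n → F) ⬝ᵥ Function.update y i 1 = 1 := by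
    rw [single_dotProduct, Function.update_self, mul_one]
  have b3 : (Pi.single i 1 : Fin n → F) ⬝ᵥ (fun _ => 1) = 1 := by
    rw [single_dotProduct, mul_one]
  constructor
  · intro h
    exact slMove ρ ψ0 _ _ _ _ b1 b2 b3 (slMove ρ ψ0 _ _ _ _ a1 a2 a3 h)
  · intro h
    exact slMove ρ ψ0 _ _ _ _ a1 a3 a2 (slMove ρ ψ0 _ _ _ _ b1 b3 b2 h)

end sl

theorem slT_not_mem_center {F : Type*} [Field F] {n : ℕ} (i0 i1 : Fin n) (h01 : i1 ≠ i0)
    (h : (Pi.single i1 1 : Fin n → F) ⬝ᵥ Pi.single i0 1 = 0) :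
    slT (Pi.single i0 1) (Pi.single i1 (1 : F)) h ∉
      Subgroup.center (SpecialLinearGroup (Fin n) F) := by
  intro hcen
  obtain ⟨c, -, hc⟩ := Matrix.SpecialLinearGroup.mem_center_iff.1 hcen
  have h1 := congrFun (congrFun hc i0) i1
  rw [slT_coe] at h1
  simp [Matrix.scalar_apply, Matrix.diagonal_apply, vecMulVec_apply, h01, Ne.symm h01] at h1

theorem sl_LS_bound {F : Type*} [Field F] [Fintype F] (k : ℕ) (hk : 2 ≤ k)
    {K : Type*} [Field K] (hK : ringChar K ≠ ringChar F) {d : ℕ}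
    (ρ : SpecialLinearGroup (Fin (k + 1)) F →* GL (Fin d) K)
    (hker : ρ.ker ≤ Subgroup.center (SpecialLinearGroup (Fin (k + 1)) F)) :
    Fintype.card F ^ k - 1 ≤ d := by
  classical
  obtain ⟨pc⟩ : Nonempty (AddChar.PrimitiveAddChar F K) :=
    ⟨AddChar.FiniteField.primitiveChar F K hK⟩
  have hq : (Fintype.card F : CyclotomicField pc.n K) ≠ 0 := card_cast_ne_zero_of_ringChar_ne hK
  obtain ⟨ψ0, hψ0⟩ : ∃ ψ0 : AddChar F (CyclotomicField pc.n K), ψ0 = pc.char := ⟨_, rfl⟩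
  have hprim : ψ0.IsPrimitive := hψ0 ▸ pc.prim
  obtain ⟨ρ', hρ'⟩ : ∃ ρ' : Representation (CyclotomicField pc.n K)
      (SpecialLinearGroup (Fin (k + 1)) F) (Fin d → CyclotomicField pc.n K),
      ρ' = lsRep (CyclotomicField pc.n K) ρ := ⟨_, rfl⟩
  obtain ⟨v0, hv0⟩ : ∃ v0 : Fin (k + 1) → F, v0 = Pi.single 0 1 := ⟨_, rfl⟩
  have hr0 : slR ρ' v0 0 = LinearMap.id := slR_zero ρ' v0
  have hradd : ∀ a b, slR ρ' v0 (a + b) = slR ρ' v0 a ∘ₗ slR ρ' v0 b := slR_add ρ' v0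
  have hcardP : (Fintype.card (slPerp v0) : CyclotomicField pc.n K) ≠ 0 := by
    rw [Module.card_eq_pow_finrank (K := F) (V := slPerp v0), Nat.cast_pow]
    exact pow_ne_zero _ hq
  have hN : (Fintype.card (Fin (k + 1) → F) : CyclotomicField pc.n K) ≠ 0 := by
    rw [Fintype.card_fun, Nat.cast_pow]
    exact pow_ne_zero _ hq
  have hmem0 : ∀ φ : slPerp v0, φ.1 0 = 0 := by
    rintro ⟨φ, hφ⟩
    change φ ⬝ᵥ v0 = 0 at hφ
    rw [hv0, dotProduct_single, mul_one] at hφ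
    exact hφ
  have hcomp : ∀ φ : slPerp v0, ∑ y : Fin (k + 1) → F, (slChar ψ0 v0 y φ)⁻¹ =
      if φ = 0 then (Fintype.card (Fin (k + 1) → F) : CyclotomicField pc.n K) else 0 := by
    intro φ
    let χ : AddChar (Fin (k + 1) → F) (CyclotomicField pc.n K) :=
      { toFun := fun y => ψ0 (-(φ.1 ⬝ᵥ y))
        map_zero_eq_one' := by rw [dotProduct_zero, neg_zero, AddChar.map_zero_eq_one]
        map_add_eq_mul' := by
          intro a b
          rw [dotProduct_add, neg_add, AddChar.map_add_eq_mul] }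
    have h1 : ∀ y ∈ (Finset.univ : Finset (Fin (k + 1) → F)), (slChar ψ0 v0 y φ)⁻¹ = χ y := by
      intro y _
      rw [slChar_apply, ← AddChar.map_neg_eq_inv]
      rfl
    rw [Finset.sum_congr rfl h1, AddChar.sum_eq_ite]
    by_cases hφ : φ = 0
    · rw [if_pos hφ, if_pos]
      ext y
      change ψ0 (-(φ.1 ⬝ᵥ y)) = 1
      rw [hφ, Submodule.coe_zero, zero_dotProduct, neg_zero, AddChar.map_zero_eq_one]
    · rw [if_neg hφ, if_neg]
      intro hχ
      apply hφ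
      apply Subtype.ext
      funext j
      by_contra hj
      change φ.1 j ≠ 0 at hj
      obtain ⟨c, hc⟩ := AddChar.ne_one_iff.1 (hprim (neg_ne_zero.2 hj))
      apply hc
      have h2 := DFunLike.congr_fun hχ (Pi.single j c)
      change ψ0 (-(φ.1 ⬝ᵥ Pi.single j c)) = 1 at h2
      rw [dotProduct_single] at h2
      rw [AddChar.mulShift_apply, neg_mul]
      exact h2
  have hi1 : (⟨1, by omega⟩ : Fin (k + 1)) ≠ 0 := by
    intro h
    have := congrArg Fin.val h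
    simp at this
  have hne : ∃ φ, slR ρ' v0 φ ≠ LinearMap.id := by
    have h1 : (Pi.single (⟨1, by omega⟩ : Fin (k + 1)) 1 : Fin (k + 1) → F) ⬝ᵥ v0 = 0 := by
      rw [hv0, single_dotProduct, Pi.single_eq_of_ne hi1, mul_zero]
    refine ⟨⟨_, h1⟩, fun h => ?_⟩
    have h2 : ρ' (slT v0 _ h1) = 1 := h
    rw [hρ', lsRep_eq_one_iff] at h2
    have h3 := hker (MonoidHom.mem_ker.2 h2)
    subst hv0
    exact slT_not_mem_center 0 _ hi1 h1 h3
  obtain ⟨y1, hy1, hE1⟩ := exists_chEigK_ne_bot hcardP (slR ρ' v0) hr0 hradd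
    (fun y => slChar ψ0 v0 y) hN hcomp hne
  have hy1' : ∃ j, j ≠ 0 ∧ y1 j ≠ 0 := by
    by_contra hcon
    push Not at hcon
    apply hy1
    ext φ
    rw [slChar_apply, AddChar.one_apply]
    have : φ.1 ⬝ᵥ y1 = 0 := by
      apply Finset.sum_eq_zero
      intro j _
      by_cases hj : j = 0
      · rw [hj, hmem0, zero_mul]
      · rw [hcon j hj, mul_zero]
    rw [this, AddChar.map_zero_eq_one]
  have hall : ∀ y : Fin (k + 1) → F, (∃ j, j ≠ 0 ∧ y j ≠ 0) →
      chEigK (slR ρ' v0) (slChar ψ0 v0 y) ≠ ⊥ := by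
    intro y hy
    subst hv0
    exact (slToOnes ρ' (by omega) ψ0 0 y hy).2 ((slToOnes ρ' (by omega) ψ0 0 y1 hy1').1 hE1)
  have hsum := sum_finrank_chEigK_le hcardP (slR ρ' v0)
    (fun x : {x : Fin k → F // ¬ (x = 0)} => slChar ψ0 v0 (Fin.cons 0 x.1)) (by
      intro x x' hxx
      apply Subtype.ext
      funext l
      apply AddChar.to_mulShift_inj_of_isPrimitive hprim
      ext c
      have hmem : (Pi.single l.succ c : Fin (k + 1) → F) ⬝ᵥ v0 = 0 := by
        rw [hv0, single_dotProduct, Pi.single_eq_of_ne (Fin.succ_ne_zero l), mul_zero]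
      have h1 := DFunLike.congr_fun hxx ⟨_, hmem⟩
      rw [slChar_apply, slChar_apply, single_dotProduct, single_dotProduct, Fin.cons_succ,
        Fin.cons_succ] at h1
      rw [AddChar.mulShift_apply, AddChar.mulShift_apply, mul_comm, h1, mul_comm])
  rw [Module.finrank_fin_fun] at hsum
  refine le_trans ?_ hsum
  refine le_trans ?_ (Finset.card_nsmul_le_sum _ _ 1 ?_)
  · rw [Finset.card_univ, Fintype.card_subtype_compl, Fintype.card_subtype_eq, Fintype.card_fun,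
      Fintype.card_fin, smul_eq_mul, mul_one]
  · rintro ⟨x, hx⟩ _
    rw [Nat.one_le_iff_ne_zero, Ne, Submodule.finrank_eq_zero]
    apply hall
    obtain ⟨l, hl⟩ := Function.ne_iff.1 hx
    exact ⟨l.succ, Fin.succ_ne_zero l, by rw [Fin.cons_succ]; exact hl⟩

end Cfsg.Agent.Lib.Helper18
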