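import Mathlib
import Cfsg.Prelude.Def_LieClassical
import Cfsg.Agent.Lib.Helper18.HermQuad

set_option linter.unusedSimpArgs false
set_option linter.unusedSectionVars false

namespace Cfsg.Agent.Lib.Helper18

open Matrix Cfsg.Agent.Lib.Helper15

section root

variable {F K : Type*} [Field F] [Fintype F] [Field K] [Fintype K] {q : ℕ}
variable [Algebra F K] (hF : Fintype.card F = q) (hK : Fintype.card K = q ^ 2)

include hF hK in
/-- an anisotropic binary form over `F_q` is the norm form of `F_{q^2}` -/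
theorem exists_root_big (a c : F)
    (hac : ∀ z₁ z₂ : F, z₁ ^ 2 + a * z₁ * z₂ + c * z₂ ^ 2 = 0 → z₁ = 0 ∧ z₂ = 0) :
    ∃ t : K, t + t ^ q = algebraMap F K a ∧ t ^ (q + 1) = algebraMap F K c := by
  classical
  obtain ⟨θ, hθ⟩ := exists_trF_eq_one hK
  obtain ⟨e, he⟩ := exists_minus_equiv a c hac (hermQ hF hK (0 + 1) θ) 0 _ (by simp) (by simp)
    (hermQ_good_odd hF hK θ hθ 0 (by decide))
  have hN : ∀ v, (e v 0) ^ (q + 1) = algebraMap F K (Cfsg.quadFormMinus 0 F a c v) := by
    intro v
    rw [← he, hermQ_spec hF hK _ θ hθ]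
    simp [Cfsg.hermForm, pow_succ']
  obtain ⟨α, hα⟩ : ∃ α, α = e (Pi.single (Sum.inr 0) 1) 0 := ⟨_, rfl⟩
  obtain ⟨β, hβ⟩ : ∃ β, β = e (Pi.single (Sum.inr 1) 1) 0 := ⟨_, rfl⟩
  have h1 : α ^ (q + 1) = 1 := by
    rw [hα, hN]
    simp [Cfsg.quadFormMinus]
  have h2 : β ^ (q + 1) = algebraMap F K c := by
    rw [hβ, hN]
    simp [Cfsg.quadFormMinus]
  have h3 : (α + β) ^ (q + 1) = algebraMap F K (1 + a + c) := by
    have : α + β = e (Pi.single (Sum.inr 0) 1 + Pi.single (Sum.inr 1) 1) 0 := by
      rw [map_add, hα, hβ]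
      rfl
    rw [this, hN]
    simp [Cfsg.quadFormMinus]
  have hα0 : α ≠ 0 := by
    rintro rfl
    rw [zero_pow (by omega)] at h1
    exact zero_ne_one h1
  have h4 : α * β ^ q + α ^ q * β = algebraMap F K a := by
    rw [pow_succ, herm_add_pow hK, map_add, map_add, map_one] at h3
    rw [pow_succ] at h1 h2
    linear_combination h3 - h1 - h2
  refine ⟨β / α, ?_, ?_⟩
  · rw [div_pow]
    have hαq : α ^ q ≠ 0 := pow_ne_zero _ hα0
    rw [pow_succ] at h1
    field_simp
    linear_combination h4 - algebraMap F K a * h1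
  · rw [div_pow, h1, h2, div_one]

end root

section iso

variable {K : Type*} [Field K] {k : ℕ} (a c : K)

/-- vectors supported on the binary part -/
def binVec (k : ℕ) (z1 z2 : K) : (Fin k ⊕ Fin k) ⊕ Fin 2 → K :=
  Pi.single (Sum.inr 0) z1 + Pi.single (Sum.inr 1) z2

theorem binVec_inl (z1 z2 : K) (j : Fin k ⊕ Fin k) : binVec k z1 z2 (Sum.inl j) = 0 := by
  simp [binVec]

theorem binVec_0 (z1 z2 : K) : binVec k z1 z2 (Sum.inr 0) = z1 := by
  simp [binVec]

theorem binVec_1 (z1 z2 : K) : binVec k z1 z2 (Sum.inr 1) = z2 := by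
  simp [binVec]

theorem minusQ_binVec (z1 z2 : K) :
    minusQ k K a c (binVec k z1 z2) = z1 ^ 2 + a * z1 * z2 + c * z2 ^ 2 := by
  rw [minusQ_apply]
  simp [Cfsg.quadFormMinus, binVec_inl, binVec_0, binVec_1]

theorem minusQ_polar_binVec (z1 z2 w1 w2 : K) :
    (minusQ k K a c).polarBilin (binVec k z1 z2) (binVec k w1 w2)
      = 2 * z1 * w1 + a * (z1 * w2 + z2 * w1) + 2 * c * z2 * w2 := by
  rw [qMinus_polar]
  simp [binVec_inl, binVec_0, binVec_1]

theorem minusQ_polar_binVec_single (z1 z2 : K) (j : Fin k ⊕ Fin k) :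
    (minusQ k K a c).polarBilin (binVec k z1 z2) (Pi.single (Sum.inl j) 1) = 0 := by
  rw [qMinus_polar]
  simp [binVec_inl]

variable [Fintype K]

/-- if the binary part splits then the form is hyperbolic -/
theorem exists_minus_plus_equiv (t s : K) (hts : t + s = a) (hts' : t * s = c) (hne : t ≠ s) :
    ∃ e : (Fin (k + 1) ⊕ Fin (k + 1) → K) ≃ₗ[K] ((Fin k ⊕ Fin k) ⊕ Fin 2 → K),
      ∀ v, Cfsg.quadFormMinus k K a c (e v) = Cfsg.quadFormPlus (k + 1) K v := by
  classical
  have hd : (t - s) ^ 2 ≠ 0 := pow_ne_zero 2 (sub_ne_zero.mpr hne)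
  obtain ⟨l, hl⟩ : ∃ l : K, l = -((t - s) ^ 2)⁻¹ := ⟨_, rfl⟩
  have hl' : l * (t - s) ^ 2 = -1 := by
    rw [hl, neg_mul, inv_mul_cancel₀ hd]
  let u : (Fin k ⊕ Fin k) ⊕ Fin 2 → K := binVec k (-t) 1
  let v : (Fin k ⊕ Fin k) ⊕ Fin 2 → K := binVec k (-(l * s)) l
  have hQu : minusQ k K a c u = 0 := by
    rw [minusQ_binVec, ← hts, ← hts']
    ring
  have hQv : minusQ k K a c v = 0 := by
    rw [minusQ_binVec, ← hts, ← hts']
    ring
  have huv : (minusQ k K a c).polarBilin u v = 1 := by
    rw [minusQ_polar_binVec, ← hts, ← hts']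
    linear_combination (-1 : K) * hl'
  obtain ⟨e, he⟩ := exists_quad_equiv_of_family (minusQ k K a c) (qPlus (k + 1) K) qPlus_nondeg
    (Sum.elim (Fin.cons u (fun i => Pi.single (Sum.inl (Sum.inl i)) 1))
      (Fin.cons v (fun i => Pi.single (Sum.inl (Sum.inr i)) 1)))
    (by
      rintro (i | i)
      · rw [qPlus_single]
        refine Fin.cases ?_ (fun i => ?_) i
        · exact hQu
        · simp only [Sum.elim_inl, Fin.cons_succ]
          exact qMinus_single a c _
      · rw [qPlus_single]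
        refine Fin.cases ?_ (fun i => ?_) i
        · exact hQv
        · simp only [Sum.elim_inr, Fin.cons_succ]
          exact qMinus_single a c _)
    (by
      rintro (i | i) (j | j)
      · rw [qPlus_polar_ll]
        refine Fin.cases ?_ (fun i => ?_) i <;> refine Fin.cases ?_ (fun j => ?_) j
        · exact qB_self _ hQu
        · exact minusQ_polar_binVec_single a c _ _ _
        · simp only [Sum.elim_inl, Fin.cons_succ, Fin.cons_zero]
          rw [qB_comm]
          exact minusQ_polar_binVec_single a c _ _ _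
        · exact qMinus_polar_ll a c i j
      · rw [qPlus_polar_lr]
        refine Fin.cases ?_ (fun i => ?_) i <;> refine Fin.cases ?_ (fun j => ?_) j
        · simpa using huv
        · simp only [Sum.elim_inl, Sum.elim_inr, Fin.cons_succ, Fin.cons_zero,
            (Fin.succ_ne_zero j).symm, if_false]
          exact minusQ_polar_binVec_single a c _ _ _
        · simp only [Sum.elim_inl, Sum.elim_inr, Fin.cons_succ, Fin.cons_zero,
            Fin.succ_ne_zero i, if_false]
          rw [qB_comm]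
          exact minusQ_polar_binVec_single a c _ _ _
        · simp only [Sum.elim_inl, Sum.elim_inr, Fin.cons_succ, Fin.succ_inj]
          exact qMinus_polar_lr a c i j
      · rw [qB_comm, qB_comm _ (Pi.single _ _), qPlus_polar_lr]
        refine Fin.cases ?_ (fun i => ?_) i <;> refine Fin.cases ?_ (fun j => ?_) j
        · simpa using huv
        · simp only [Sum.elim_inl, Sum.elim_inr, Fin.cons_succ, Fin.cons_zero,
            Fin.succ_ne_zero j, if_false]
          rw [qB_comm]
          exact minusQ_polar_binVec_single a c _ _ _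
        · simp only [Sum.elim_inl, Sum.elim_inr, Fin.cons_succ, Fin.cons_zero,
            (Fin.succ_ne_zero i).symm, if_false]
          exact minusQ_polar_binVec_single a c _ _ _
        · simp only [Sum.elim_inl, Sum.elim_inr, Fin.cons_succ, Fin.succ_inj]
          exact qMinus_polar_lr a c j i
      · rw [qPlus_polar_rr]
        refine Fin.cases ?_ (fun i => ?_) i <;> refine Fin.cases ?_ (fun j => ?_) j
        · exact qB_self _ hQv
        · exact minusQ_polar_binVec_single a c _ _ _
        · simp only [Sum.elim_inr, Fin.cons_succ, Fin.cons_zero]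
          rw [qB_comm]
          exact minusQ_polar_binVec_single a c _ _ _
        · exact qMinus_polar_rr a c i j)
    (by
      rw [Nat.card_fun, Nat.card_fun, Nat.card_eq_fintype_card (α := (Fin k ⊕ Fin k) ⊕ Fin 2),
        Nat.card_eq_fintype_card (α := Fin (k + 1) ⊕ Fin (k + 1)), Fintype.card_sum,
        Fintype.card_sum, Fintype.card_sum, Fintype.card_fin, Fintype.card_fin, Fintype.card_fin,
        show k + k + 2 = k + 1 + (k + 1) by omega])
  exact ⟨e, fun v => by rw [← minusQ_apply, he, qPlus_apply]⟩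

end iso

section ext

variable {F K : Type*} [Field F] [Field K] (i : F →+* K) (k : ℕ) (a c : F)

theorem quadFormMinus_map (v : (Fin k ⊕ Fin k) ⊕ Fin 2 → F) :
    Cfsg.quadFormMinus k K (i a) (i c) (fun j => i (v j)) = i (Cfsg.quadFormMinus k F a c v) := by
  simp [Cfsg.quadFormMinus, map_sum, map_add, map_mul, map_pow]

theorem minusQ_polar_map (v w : (Fin k ⊕ Fin k) ⊕ Fin 2 → F) :
    (minusQ k K (i a) (i c)).polarBilin (fun j => i (v j)) (fun j => i (w j))
      = i ((minusQ k F a c).polarBilin v w) := by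
  rw [QuadraticMap.polarBilin_apply_apply, QuadraticMap.polarBilin_apply_apply,
    QuadraticMap.polar, QuadraticMap.polar]
  simp only [minusQ_apply]
  have : ((fun j => i (v j)) + fun j => i (w j)) = fun j => i ((v + w) j) := by
    ext j
    simp
  rw [this, quadFormMinus_map, quadFormMinus_map, quadFormMinus_map, map_sub, map_sub]

theorem quadFormMinus_map_preserve (A : Matrix ((Fin k ⊕ Fin k) ⊕ Fin 2) ((Fin k ⊕ Fin k) ⊕ Fin 2) F)
    (hA : ∀ v, Cfsg.quadFormMinus k F a c (A *ᵥ v) = Cfsg.quadFormMinus k F a c v)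
    (v : (Fin k ⊕ Fin k) ⊕ Fin 2 → K) :
    Cfsg.quadFormMinus k K (i a) (i c) (A.map i *ᵥ v) = Cfsg.quadFormMinus k K (i a) (i c) v := by
  have h1 := (quad_preserve_iff (minusQ k F a c) A).1 (fun v => by
    rw [minusQ_apply, minusQ_apply, hA])
  have h2 := (quad_preserve_iff (minusQ k K (i a) (i c)) (A.map i)).2 ⟨fun j => ?_, fun j l => ?_⟩ v
  · rw [minusQ_apply, minusQ_apply] at h2
    exact h2
  · have hs : (Pi.single j 1 : (Fin k ⊕ Fin k) ⊕ Fin 2 → K)
        = fun l => i ((Pi.single j 1 : (Fin k ⊕ Fin k) ⊕ Fin 2 → F) l) := by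
      ext l
      by_cases h : l = j
      · subst h; simp
      · simp [Pi.single_apply, h]
    rw [hs]
    simp only [Matrix.map_apply, minusQ_apply]
    rw [quadFormMinus_map, quadFormMinus_map, ← minusQ_apply, ← minusQ_apply, h1.1]
  · have hs : ∀ j, (Pi.single j 1 : (Fin k ⊕ Fin k) ⊕ Fin 2 → K)
        = fun l => i ((Pi.single j 1 : (Fin k ⊕ Fin k) ⊕ Fin 2 → F) l) := by
      intro j
      ext l
      by_cases h : l = j
      · subst h; simp
      · simp [Pi.single_apply, h]
    rw [hs j, hs l]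
    simp only [Matrix.map_apply]
    rw [minusQ_polar_map, minusQ_polar_map, h1.2]

end ext

end Cfsg.Agent.Lib.Helper18
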