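import Mathlib
import Cfsg.Prelude.Def_LieClassical
import Cfsg.Agent.Lib.Helper18.IsoReindex
import Cfsg.Agent.Lib.Helper18.Quad8

set_option linter.unusedSimpArgs false
set_option linter.unusedSectionVars false

namespace Cfsg.Agent.Lib.Helper18

open Matrix

section minus2

variable {F : Type*} [Field F] (a b : F)

/-- the binary form `x^2 + a x y + b y^2` -/
def Qm (w : Fin 2 → F) : F := w 0 ^ 2 + a * w 0 * w 1 + b * w 1 ^ 2

/-- multiplication by `s + t ω` where `ω^2 = a ω - b` -/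
def rotMat (s t : F) : Matrix (Fin 2) (Fin 2) F := !![s, -b * t; t, s + a * t]

theorem rotMat_form (s t : F) (w : Fin 2 → F) :
    Qm a b (rotMat a b s t *ᵥ w) = (s ^ 2 + a * s * t + b * t ^ 2) * Qm a b w := by
  simp only [Qm, rotMat, Matrix.mulVec, dotProduct, Fin.sum_univ_two]
  simp
  ring

theorem rotMat_det (s t : F) : (rotMat a b s t).det = s ^ 2 + a * s * t + b * t ^ 2 := by
  simp [rotMat, Matrix.det_fin_two]
  ring

theorem rotMat_comm (s t : F) : Commute (rotMat a b s t) (rotMat a b 0 1) := by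
  show _ * _ = _ * _
  simp only [rotMat, Matrix.mul_fin_two]
  congr 1
  ext i j
  fin_cases i <;> fin_cases j <;> simp <;> ring

/-- the rotation subgroup -/
def rotSub : Subgroup (Cfsg.isometryGroup F (Qm a b)) where
  carrier := {g | Commute (g.1 : Matrix (Fin 2) (Fin 2) F) (rotMat a b 0 1)}
  mul_mem' := fun {g h} h1 h2 => by
    show Commute ((g.1 * h.1 : GL (Fin 2) F) : Matrix (Fin 2) (Fin 2) F) _
    rw [Units.val_mul]
    exact Commute.mul_left h1 h2
  one_mem' := Commute.one_left _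
  inv_mem' := fun {g} h => by
    show Commute ((g.1⁻¹ : GL (Fin 2) F) : Matrix (Fin 2) (Fin 2) F) _
    exact Commute.units_inv_left h

theorem rotSub_shape (g : Cfsg.isometryGroup F (Qm a b)) (hg : g ∈ rotSub a b) :
    (g.1 : Matrix (Fin 2) (Fin 2) F) = rotMat a b (g.1.1 0 0) (g.1.1 1 0) := by
  have h : (g.1 : Matrix (Fin 2) (Fin 2) F) * rotMat a b 0 1 = rotMat a b 0 1 * g.1.1 := hg
  have h00 := congrFun (congrFun h 0) 0
  have h10 := congrFun (congrFun h 1) 0
  simp [rotMat, Matrix.mul_apply, Fin.sum_univ_two] at h00 h10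
  ext i j
  fin_cases i <;> fin_cases j
  · simp [rotMat]
  · simp [rotMat, h00]
  · simp [rotMat]
  · simp [rotMat, h10]

theorem iso_norm (g : Cfsg.isometryGroup F (Qm a b)) :
    (g.1.1 0 0) ^ 2 + a * (g.1.1 0 0) * (g.1.1 1 0) + b * (g.1.1 1 0) ^ 2 = 1 := by
  have h := (mem_isometryGroup_iff _ _).mp g.2 ![1, 0]
  simp only [Qm, Matrix.mulVec, dotProduct, Fin.sum_univ_two] at h
  simpa using h

/-- package a rotation -/
noncomputable def mkRot (s t : F) (h : s ^ 2 + a * s * t + b * t ^ 2 = 1) :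
    Cfsg.isometryGroup F (Qm a b) :=
  ⟨Matrix.GeneralLinearGroup.mkOfDetNeZero (rotMat a b s t)
    (by rw [rotMat_det, h]; exact one_ne_zero), by
    rw [mem_isometryGroup_iff]
    intro v
    show Qm a b (rotMat a b s t *ᵥ v) = _
    rw [rotMat_form, h, one_mul]⟩

theorem mkRot_coe (s t : F) (h : s ^ 2 + a * s * t + b * t ^ 2 = 1) :
    ((mkRot a b s t h).1 : Matrix (Fin 2) (Fin 2) F) = rotMat a b s t := rfl

theorem card_rotSub : Nat.card (rotSub a b)
    = Nat.card {p : F × F // p.1 ^ 2 + a * p.1 * p.2 + b * p.2 ^ 2 = 1} := by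
  apply Nat.card_congr
  refine Equiv.ofBijective (fun g => ⟨(g.1.1.1 0 0, g.1.1.1 1 0), iso_norm a b g.1⟩) ⟨?_, ?_⟩
  · intro g h hgh
    have h1 := congrArg Subtype.val hgh
    simp only [Prod.mk.injEq] at h1
    apply Subtype.ext
    apply Subtype.ext
    apply Units.ext
    rw [rotSub_shape a b g.1 g.2, rotSub_shape a b h.1 h.2, h1.1, h1.2]
  · rintro ⟨⟨s, t⟩, hst⟩
    refine ⟨⟨mkRot a b s t hst, rotMat_comm a b s t⟩, ?_⟩
    apply Subtype.ext
    simp [mkRot_coe, rotMat]

/-- the rotation subgroup is cyclic -/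
theorem isCyclic_rotSub [Finite F] (hroot : ∀ r : F, r ^ 2 + a * r + b ≠ 0) :
    IsCyclic (rotSub a b) := by
  let K := AlgebraicClosure F
  obtain ⟨ρ, hρ⟩ := IsAlgClosed.exists_root
    (Polynomial.C (1 : K) * Polynomial.X ^ 2 + Polynomial.C (-(algebraMap F K a)) * Polynomial.X
      + Polynomial.C (algebraMap F K b)) (by
      rw [Polynomial.degree_quadratic one_ne_zero]
      norm_num)
  have hρ2 : ρ ^ 2 = algebraMap F K a * ρ - algebraMap F K b := by
    simp [Polynomial.IsRoot] at hρ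
    linear_combination hρ
  let Φ : rotSub a b →* K :=
    { toFun := fun g => algebraMap F K (g.1.1.1 0 0) + algebraMap F K (g.1.1.1 1 0) * ρ
      map_one' := by
        show algebraMap F K ((1 : Matrix (Fin 2) (Fin 2) F) 0 0)
          + algebraMap F K ((1 : Matrix (Fin 2) (Fin 2) F) 1 0) * ρ = 1
        simp
      map_mul' := fun g h => by
        show algebraMap F K ((g.1.1.1 * h.1.1.1 : Matrix (Fin 2) (Fin 2) F) 0 0)
          + algebraMap F K ((g.1.1.1 * h.1.1.1 : Matrix (Fin 2) (Fin 2) F) 1 0) * ρ = _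
        have hg := rotSub_shape a b g.1 g.2
        have h01 : g.1.1.1 0 1 = -b * g.1.1.1 1 0 := by
          conv_lhs => rw [hg]
          simp [rotMat]
        have h11 : g.1.1.1 1 1 = g.1.1.1 0 0 + a * g.1.1.1 1 0 := by
          conv_lhs => rw [hg]
          simp [rotMat]
        rw [Matrix.mul_apply, Matrix.mul_apply, Fin.sum_univ_two, Fin.sum_univ_two, h01, h11]
        simp only [map_add, map_mul, map_neg]
        linear_combination (-(algebraMap F K (g.1.1.1 1 0)) * algebraMap F K (h.1.1.1 1 0)) * hρ2 }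
  have hinj : Function.Injective Φ := by
    intro g h hgh
    have h1 : algebraMap F K (g.1.1.1 0 0) + algebraMap F K (g.1.1.1 1 0) * ρ
      = algebraMap F K (h.1.1.1 0 0) + algebraMap F K (h.1.1.1 1 0) * ρ := hgh
    obtain ⟨s, hs⟩ : ∃ s, s = g.1.1.1 0 0 - h.1.1.1 0 0 := ⟨_, rfl⟩
    obtain ⟨t, ht⟩ : ∃ t, t = g.1.1.1 1 0 - h.1.1.1 1 0 := ⟨_, rfl⟩
    have h2 : algebraMap F K s + algebraMap F K t * ρ = 0 := by
      rw [hs, ht, map_sub, map_sub]
      linear_combination h1
    have ht0 : t = 0 := by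
      by_contra ht0
      apply hroot (s / t)
      have ht' : algebraMap F K t ≠ 0 := by
        rwa [Ne, map_eq_zero]
      have h3 : ρ = - algebraMap F K (s / t) := by
        rw [map_div₀, eq_neg_iff_add_eq_zero, ← mul_right_inj' ht', mul_add, mul_div_cancel₀ _ ht',
          mul_zero]
        linear_combination h2
      apply (algebraMap F K).injective
      rw [map_zero, map_add, map_add, map_pow, map_mul]
      rw [h3] at hρ2
      linear_combination hρ2
    have hs0 : s = 0 := by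
      rw [ht0, map_zero, zero_mul, add_zero, map_eq_zero] at h2
      exact h2
    apply Subtype.ext
    apply Subtype.ext
    apply Units.ext
    rw [rotSub_shape a b g.1 g.2, rotSub_shape a b h.1 h.2, sub_eq_zero.mp (hs.symm.trans hs0),
      sub_eq_zero.mp (ht.symm.trans ht0)]
  exact isCyclic_of_injective_ringHom Φ hinj

/-- the reflection `z ↦ z̄` -/
noncomputable def mkRefl : Cfsg.isometryGroup F (Qm a b) :=
  ⟨⟨!![1, a; 0, -1], !![1, a; 0, -1], by simp [Matrix.mul_fin_two, Matrix.one_fin_two],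
    by simp [Matrix.mul_fin_two, Matrix.one_fin_two]⟩, by
    rw [mem_isometryGroup_iff]
    intro v
    simp only [Qm, Matrix.mulVec, dotProduct, Fin.sum_univ_two]
    simp
    ring⟩

theorem mkRefl_coe : ((mkRefl a b).1 : Matrix (Fin 2) (Fin 2) F) = !![1, a; 0, -1] := rfl

theorem mkRefl_sq : mkRefl a b ^ 2 = 1 := by
  apply Subtype.ext
  apply Units.ext
  show ((mkRefl a b).1 ^ 2 : GL (Fin 2) F).1 = 1
  rw [pow_two, Units.val_mul, mkRefl_coe]
  simp [Matrix.mul_fin_two, Matrix.one_fin_two]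

theorem mkRefl_not_mem (h : (2 : F) = 0 → a ≠ 0) : mkRefl a b ∉ rotSub a b := by
  intro hm
  have h1 := rotSub_shape a b _ hm
  rw [mkRefl_coe] at h1
  have h01 := congrFun (congrFun h1 0) 1
  have h11 := congrFun (congrFun h1 1) 1
  simp [rotMat] at h01 h11
  apply h _ h01
  linear_combination (-1 : F) * h11

theorem mkRefl_conj (g : Cfsg.isometryGroup F (Qm a b)) (hg : g ∈ rotSub a b) :
    mkRefl a b * g * (mkRefl a b)⁻¹ = g⁻¹ := by
  have hinv : (mkRefl a b)⁻¹ = mkRefl a b := by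
    rw [inv_eq_iff_mul_eq_one, ← pow_two, mkRefl_sq]
  rw [hinv, eq_inv_iff_mul_eq_one]
  apply Subtype.ext
  apply Units.ext
  show ((mkRefl a b).1 * g.1 * (mkRefl a b).1 * g.1 : GL (Fin 2) F).1 = 1
  rw [Units.val_mul, Units.val_mul, Units.val_mul, mkRefl_coe, rotSub_shape a b g hg]
  have hn := iso_norm a b g
  obtain ⟨s, hs⟩ : ∃ s, s = g.1.1 0 0 := ⟨_, rfl⟩
  obtain ⟨t, ht⟩ : ∃ t, t = g.1.1 1 0 := ⟨_, rfl⟩
  rw [← hs, ← ht] at hn ⊢
  simp only [rotMat, Matrix.mul_fin_two, Matrix.one_fin_two]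
  congr 1
  ext i j
  fin_cases i <;> fin_cases j <;> simp
  · linear_combination hn
  · ring
  · ring
  · linear_combination hn

end minus2

end Cfsg.Agent.Lib.Helper18
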