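import Mathlib
import Cfsg.Prelude.Def_ClassicalGeometry
import Cfsg.Agent.Lib.Helper18.Parabolic2
set_option autoImplicit false

/-! Siegel parabolic, Levi and Borel subgroups of the symplectic group. -/

namespace Cfsg.Agent.Lib.Helper18

open Matrix

variable {F : Type*} [Field F] {m : ℕ}
set_option linter.unusedSectionVars false

lemma sp_det_ne_zero' (g : Matrix.symplecticGroup (Fin m) F) :
    (g : Matrix (Fin m ⊕ Fin m) (Fin m ⊕ Fin m) F).det ≠ 0 :=
  (SymplecticGroup.symplectic_det g.2).ne_zero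

/-- The Levi embedding `A ↦ diag(A, A⁻ᵀ)`. -/
noncomputable def spLeviHom (m : ℕ) (F : Type*) [Field F] :
    Matrix.GeneralLinearGroup (Fin m) F →* Matrix.symplecticGroup (Fin m) F where
  toFun A := ⟨Matrix.fromBlocks (A : Matrix (Fin m) (Fin m) F) 0 0
      ((A⁻¹ : Matrix.GeneralLinearGroup (Fin m) F) : Matrix (Fin m) (Fin m) F)ᵀ, by
    rw [SymplecticGroup.fromBlocks_mem_iff]
    refine ⟨by simp, by simp, ?_⟩
    rw [← Matrix.transpose_mul, ← Units.val_mul, inv_mul_cancel]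
    simp⟩
  map_one' := by
    apply Subtype.ext
    simp [Matrix.fromBlocks_one]
  map_mul' A B := by
    apply Subtype.ext
    simp only [_root_.mul_inv_rev, Units.val_mul, Matrix.transpose_mul, Submonoid.coe_mul,
      Matrix.fromBlocks_multiply]
    simp

lemma sp_blocks_of_zero21 (g : Matrix.symplecticGroup (Fin m) F)
    (h : (g : Matrix (Fin m ⊕ Fin m) (Fin m ⊕ Fin m) F).toBlocks₂₁ = 0) :
    g.1.toBlocks₁₂ᵀ * g.1.toBlocks₂₂ = g.1.toBlocks₂₂ᵀ * g.1.toBlocks₁₂ ∧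
      g.1.toBlocks₁₁ᵀ * g.1.toBlocks₂₂ = 1 := by
  have h1 := g.2
  rw [← Matrix.fromBlocks_toBlocks g.1, SymplecticGroup.fromBlocks_mem_iff, h] at h1
  refine ⟨h1.2.1, ?_⟩
  simpa using h1.2.2

lemma mul_transpose_eq_one_of {A D : Matrix (Fin m) (Fin m) F} (h : Aᵀ * D = 1) :
    A * Dᵀ = 1 ∧ Dᵀ * A = 1 := by
  have h2 : Dᵀ * A = 1 := by
    have := congrArg Matrix.transpose h
    simpa using this
  exact ⟨mul_eq_one_comm.1 h2, h2⟩

lemma mem_stab_inr_iff (g : Matrix.symplecticGroup (Fin m) F) :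
    g ∈ Cfsg.stabilizing (Cfsg.spToMat m F) {v : Fin m ⊕ Fin m → F | ∀ i : Fin m, v (Sum.inr i) = 0} ↔
      g.1.toBlocks₂₁ = 0 :=
  stab_inr_iff g.1 (sp_det_ne_zero' g)

lemma mem_stab_inl_iff (g : Matrix.symplecticGroup (Fin m) F) :
    g ∈ Cfsg.stabilizing (Cfsg.spToMat m F) {v : Fin m ⊕ Fin m → F | ∀ i : Fin m, v (Sum.inl i) = 0} ↔
      g.1.toBlocks₁₂ = 0 :=
  stab_inl_iff g.1 (sp_det_ne_zero' g)

theorem sp_levi_equiv (m : ℕ) (F : Type*) [Field F] :
    Nonempty (↥(Cfsg.stabilizing (Cfsg.spToMat m F)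
        {v : Fin m ⊕ Fin m → F | ∀ i : Fin m, v (Sum.inr i) = 0} ⊓
      Cfsg.stabilizing (Cfsg.spToMat m F) {v : Fin m ⊕ Fin m → F | ∀ i : Fin m, v (Sum.inl i) = 0}) ≃*
      Matrix.GeneralLinearGroup (Fin m) F) := by
  have hmem : ∀ A, spLeviHom m F A ∈ (Cfsg.stabilizing (Cfsg.spToMat m F)
        {v : Fin m ⊕ Fin m → F | ∀ i : Fin m, v (Sum.inr i) = 0} ⊓
      Cfsg.stabilizing (Cfsg.spToMat m F) {v : Fin m ⊕ Fin m → F | ∀ i : Fin m, v (Sum.inl i) = 0}) := by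
    intro A
    refine ⟨(mem_stab_inr_iff _).2 ?_, (mem_stab_inl_iff _).2 ?_⟩
    · exact Matrix.toBlocks_fromBlocks₂₁ _ _ _ _
    · exact Matrix.toBlocks_fromBlocks₁₂ _ _ _ _
  refine ⟨(MulEquiv.ofBijective ((spLeviHom m F).codRestrict _ hmem) ⟨?_, ?_⟩).symm⟩
  · intro A B hAB
    have h1 : (spLeviHom m F A).1 = (spLeviHom m F B).1 :=
      congrArg (fun x => x.1.1) hAB
    have h2 := congrArg Matrix.toBlocks₁₁ h1
    apply Units.ext
    simpa [spLeviHom] using h2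
  · rintro ⟨g, hg1', hg2'⟩
    have hg1 := (mem_stab_inr_iff g).1 hg1'
    have hg2 := (mem_stab_inl_iff g).1 hg2'
    obtain ⟨-, h2⟩ := sp_blocks_of_zero21 g hg1
    obtain ⟨h3, h4⟩ := mul_transpose_eq_one_of h2
    refine ⟨⟨g.1.toBlocks₁₁, g.1.toBlocks₂₂ᵀ, h3, h4⟩, ?_⟩
    apply Subtype.ext
    apply Subtype.ext
    show Matrix.fromBlocks g.1.toBlocks₁₁ 0 0 (g.1.toBlocks₂₂ᵀ)ᵀ = g.1
    rw [Matrix.transpose_transpose]
    conv_rhs => rw [← Matrix.fromBlocks_toBlocks g.1, hg1, hg2]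

/-- Parametrisation of (subsets of) the Siegel parabolic. -/
noncomputable def spSiegelEquiv (P : Matrix (Fin m) (Fin m) F → Prop) :
    {g : Matrix.symplecticGroup (Fin m) F // g.1.toBlocks₂₁ = 0 ∧ P g.1.toBlocks₁₁} ≃
      {A : Matrix.GeneralLinearGroup (Fin m) F // P (A : Matrix (Fin m) (Fin m) F)} ×
        {S : Matrix (Fin m) (Fin m) F // Sᵀ = S} where
  toFun g := (⟨⟨g.1.1.toBlocks₁₁, g.1.1.toBlocks₂₂ᵀ,
      (mul_transpose_eq_one_of (sp_blocks_of_zero21 g.1 g.2.1).2).1,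
      (mul_transpose_eq_one_of (sp_blocks_of_zero21 g.1 g.2.1).2).2⟩, g.2.2⟩,
      ⟨g.1.1.toBlocks₂₂ᵀ * g.1.1.toBlocks₁₂, by
        rw [Matrix.transpose_mul, Matrix.transpose_transpose]
        exact (sp_blocks_of_zero21 g.1 g.2.1).1⟩)
  invFun x := ⟨⟨Matrix.fromBlocks (x.1.1 : Matrix (Fin m) (Fin m) F)
      ((x.1.1 : Matrix (Fin m) (Fin m) F) * x.2.1) 0
      ((x.1.1⁻¹ : Matrix.GeneralLinearGroup (Fin m) F) : Matrix (Fin m) (Fin m) F)ᵀ, by
        rw [SymplecticGroup.fromBlocks_mem_iff]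
        have h1 : ((x.1.1⁻¹ : Matrix.GeneralLinearGroup (Fin m) F) : Matrix (Fin m) (Fin m) F) *
            (x.1.1 : Matrix (Fin m) (Fin m) F) = 1 := by
          rw [← Units.val_mul, inv_mul_cancel]; rfl
        refine ⟨by simp, ?_, ?_⟩
        · rw [Matrix.transpose_mul, Matrix.transpose_transpose, Matrix.mul_assoc,
            ← Matrix.transpose_mul, h1, ← Matrix.mul_assoc, h1, x.2.2]
          simp
        · rw [← Matrix.transpose_mul, h1]
          simp⟩, Matrix.toBlocks_fromBlocks₂₁ _ _ _ _, by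
        rw [Matrix.toBlocks_fromBlocks₁₁]; exact x.1.2⟩
  left_inv := by
    rintro ⟨g, h1, h2⟩
    apply Subtype.ext
    apply Subtype.ext
    show Matrix.fromBlocks g.1.toBlocks₁₁ (g.1.toBlocks₁₁ * (g.1.toBlocks₂₂ᵀ * g.1.toBlocks₁₂)) 0
      (g.1.toBlocks₂₂ᵀ)ᵀ = g.1
    rw [← Matrix.mul_assoc, (mul_transpose_eq_one_of (sp_blocks_of_zero21 g h1).2).1, Matrix.one_mul,
      Matrix.transpose_transpose, ← h1, Matrix.fromBlocks_toBlocks]
  right_inv := by
    rintro ⟨⟨A, hA⟩, ⟨S, hS⟩⟩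
    refine Prod.ext ?_ ?_
    · apply Subtype.ext
      apply Units.ext
      exact Matrix.toBlocks_fromBlocks₁₁ _ _ _ _
    · apply Subtype.ext
      show (Matrix.fromBlocks (A : Matrix (Fin m) (Fin m) F) ((A : Matrix (Fin m) (Fin m) F) * S) 0
        ((A⁻¹ : Matrix.GeneralLinearGroup (Fin m) F) : Matrix (Fin m) (Fin m) F)ᵀ).toBlocks₂₂ᵀ *
        (Matrix.fromBlocks (A : Matrix (Fin m) (Fin m) F) ((A : Matrix (Fin m) (Fin m) F) * S) 0
        ((A⁻¹ : Matrix.GeneralLinearGroup (Fin m) F) : Matrix (Fin m) (Fin m) F)ᵀ).toBlocks₁₂ = S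
      rw [Matrix.toBlocks_fromBlocks₂₂, Matrix.toBlocks_fromBlocks₁₂, Matrix.transpose_transpose,
        ← Matrix.mul_assoc, ← Units.val_mul, inv_mul_cancel]
      simp

lemma card_pairs_le (n : ℕ) : Nat.card {p : Fin n × Fin n // p.2 ≤ p.1} = (n + 1) * n / 2 := by
  classical
  let e : {p : Fin n × Fin n // p.2 ≤ p.1} ≃ Σ i : Fin n, {j : Fin n // j ≤ i} :=
    { toFun := fun p => ⟨p.1.1, p.1.2, p.2⟩
      invFun := fun x => ⟨(x.1, x.2.1), x.2.2⟩
      left_inv := fun p => rfl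
      right_inv := fun x => rfl }
  rw [Nat.card_congr e, Nat.card_eq_fintype_card, Fintype.card_sigma]
  have : ∀ i : Fin n, Fintype.card {j : Fin n // j ≤ i} = (i : ℕ) + 1 := by
    intro i
    rw [Fintype.card_subtype]
    have : (Finset.univ.filter fun j : Fin n => j ≤ i) = Finset.Iic i := by
      ext j; simp
    rw [this, Fin.card_Iic]
  have h2 := Finset.sum_range_id (n + 1)
  rw [Finset.sum_range_succ' (fun i => i) n] at h2
  rw [Finset.sum_congr rfl fun i _ => this i, Fin.sum_univ_eq_sum_range (fun i => i + 1) n]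
  simpa using h2

/-- Symmetric matrices are determined by their lower triangle. -/
def symmMatEquiv (n : ℕ) (F : Type*) :
    {S : Matrix (Fin n) (Fin n) F // Sᵀ = S} ≃ ({p : Fin n × Fin n // p.2 ≤ p.1} → F) where
  toFun S p := S.1 p.1.1 p.1.2
  invFun f := ⟨fun i j => if h : j ≤ i then f ⟨(i, j), h⟩ else f ⟨(j, i), le_of_not_ge h⟩, by
    ext i j
    show (if h : i ≤ j then f ⟨(j, i), h⟩ else f ⟨(i, j), le_of_not_ge h⟩) =
      if h : j ≤ i then f ⟨(i, j), h⟩ else f ⟨(j, i), le_of_not_ge h⟩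
    by_cases h1 : i ≤ j
    · by_cases h2 : j ≤ i
      · have : i = j := le_antisymm h1 h2
        subst this
        rfl
      · rw [dif_pos h1, dif_neg h2]
    · have h2 : j ≤ i := le_of_not_ge h1
      rw [dif_neg h1, dif_pos h2]⟩
  left_inv := by
    rintro ⟨S, hS⟩
    apply Subtype.ext
    ext i j
    show (if h : j ≤ i then S i j else S j i) = S i j
    by_cases h : j ≤ i
    · rw [dif_pos h]
    · rw [dif_neg h]
      exact congrFun (congrFun hS i) j
  right_inv := by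
    intro f
    funext ⟨⟨i, j⟩, h⟩
    have h' : j ≤ i := h
    show (if h : j ≤ i then f ⟨(i, j), h⟩ else f ⟨(j, i), le_of_not_ge h⟩) = _
    rw [dif_pos h']

lemma card_symmMat [Fintype F] {q : ℕ} (hF : Fintype.card F = q) (n : ℕ) :
    Nat.card {S : Matrix (Fin n) (Fin n) F // Sᵀ = S} = q ^ ((n + 1) * n / 2) := by
  rw [Nat.card_congr (symmMatEquiv n F), Nat.card_fun, card_pairs_le, Nat.card_eq_fintype_card, hF]

lemma mem_sp_borel_iff [Finite F] (g : Matrix.symplecticGroup (Fin m) F) :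
    g ∈ (⨅ k : Fin m, Cfsg.stabilizing (Cfsg.spToMat m F) {v : Fin m ⊕ Fin m → F |
      (∀ i : Fin m, (k : ℕ) < (i : ℕ) → v (Sum.inl i) = 0) ∧ ∀ i : Fin m, v (Sum.inr i) = 0}) ↔
      g.1.toBlocks₂₁ = 0 ∧ ∀ i j : Fin m, j < i → g.1.toBlocks₁₁ i j = 0 := by
  rw [Subgroup.mem_iInf]
  constructor
  · intro h
    have key : ∀ j : Fin m, (∀ i : Fin m, (j : ℕ) < (i : ℕ) → g.1 (Sum.inl i) (Sum.inl j) = 0) ∧
        ∀ i : Fin m, g.1 (Sum.inr i) (Sum.inl j) = 0 := by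
      intro j
      have := (h j (Pi.single (Sum.inl j) 1)).1 (by
        refine ⟨fun i hi => ?_, fun i => by simp⟩
        have : i ≠ j := by
          rintro rfl
          exact lt_irrefl _ hi
        simp [this])
      simpa [Matrix.mulVec_single_one] using this
    refine ⟨?_, fun i j hij => (key j).1 i hij⟩
    ext i j
    exact (key j).2 i
  · rintro ⟨h1, h2⟩ k
    refine mem_iff_mulVec_mem_of_finite g.1 (sp_det_ne_zero' g) _ ?_
    rintro v ⟨hv1, hv2⟩
    refine ⟨fun i hi => ?_, fun i => ?_⟩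
    · show ∑ x, g.1 (Sum.inl i) x * v x = 0
      refine Finset.sum_eq_zero fun x _ => ?_
      rcases x with j | j
      · by_cases hj : (k : ℕ) < (j : ℕ)
        · rw [hv1 j hj, mul_zero]
        · have : g.1 (Sum.inl i) (Sum.inl j) = 0 := h2 i j (by
            show (j : ℕ) < (i : ℕ)
            omega)
          rw [this, zero_mul]
      · rw [hv2 j, mul_zero]
    · show ∑ x, g.1 (Sum.inr i) x * v x = 0
      refine Finset.sum_eq_zero fun x _ => ?_
      rcases x with j | j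
      · have : g.1 (Sum.inr i) (Sum.inl j) = 0 := congrFun (congrFun h1 i) j
        rw [this, zero_mul]
      · rw [hv2 j, mul_zero]

theorem card_sp_borel [Fintype F] {q : ℕ} (hF : Fintype.card F = q) (m : ℕ) :
    Nat.card ↥(⨅ k : Fin m, Cfsg.stabilizing (Cfsg.spToMat m F) {v : Fin m ⊕ Fin m → F |
      (∀ i : Fin m, (k : ℕ) < (i : ℕ) → v (Sum.inl i) = 0) ∧ ∀ i : Fin m, v (Sum.inr i) = 0}) =
      q ^ (m ^ 2) * (q - 1) ^ m := by
  have e1 : ↥(⨅ k : Fin m, Cfsg.stabilizing (Cfsg.spToMat m F) {v : Fin m ⊕ Fin m → F |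
      (∀ i : Fin m, (k : ℕ) < (i : ℕ) → v (Sum.inl i) = 0) ∧ ∀ i : Fin m, v (Sum.inr i) = 0}) ≃
      {g : Matrix.symplecticGroup (Fin m) F // g.1.toBlocks₂₁ = 0 ∧
        (fun A : Matrix (Fin m) (Fin m) F => ∀ i j : Fin m, j < i → A i j = 0) g.1.toBlocks₁₁} :=
    Equiv.subtypeEquivRight fun g => mem_sp_borel_iff g
  rw [Nat.card_congr (e1.trans (spSiegelEquiv
    (fun A : Matrix (Fin m) (Fin m) F => ∀ i j : Fin m, j < i → A i j = 0))), Nat.card_prod,
    card_upper_triangular hF, card_symmMat hF]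
  have harith : m * (m - 1) / 2 + (m + 1) * m / 2 = m ^ 2 := by
    have h1 : 2 ∣ m * (m - 1) := (Nat.even_mul_pred_self m).two_dvd
    have h2 : 2 ∣ (m + 1) * m := by
      rw [mul_comm]; exact (Nat.even_mul_succ_self m).two_dvd
    obtain ⟨a, ha⟩ := h1
    obtain ⟨b, hb⟩ := h2
    rw [ha, hb, Nat.mul_div_cancel_left _ two_pos, Nat.mul_div_cancel_left _ two_pos]
    rcases m with _ | m
    · simp at ha hb; omega
    · simp only [Nat.add_sub_cancel] at ha
      nlinarith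
  rw [← harith, pow_add]
  ring

end Cfsg.Agent.Lib.Helper18
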