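import Mathlib
import Cfsg.Prelude.Def_LieClassical

set_option linter.unusedSimpArgs false
set_option linter.unusedSectionVars false

namespace Cfsg.Agent.Lib.Helper18

open Matrix

section rows

variable {F : Type*} [Field F] {N : ℕ} {κ κ' : Type*} [Fintype κ] [Fintype κ']

/-- permute the rows of a matrix -/
def permRows (σ : Equiv.Perm (Fin N)) (X : Matrix (Fin N) κ F) : Matrix (Fin N) κ F :=
  X.submatrix σ.symm id

theorem permRows_apply (σ : Equiv.Perm (Fin N)) (X : Matrix (Fin N) κ F) (k : Fin N) (c : κ) :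
    permRows σ X k c = X (σ.symm k) c := rfl

theorem permRows_mul (σ τ : Equiv.Perm (Fin N)) (X : Matrix (Fin N) κ F) :
    permRows (σ * τ) X = permRows σ (permRows τ X) := by
  ext k c
  simp [permRows_apply, Equiv.Perm.mul_def]

theorem permRows_one (X : Matrix (Fin N) κ F) : permRows 1 X = X := by
  ext k c
  rfl

theorem permRows_mul_right (σ : Equiv.Perm (Fin N)) (X : Matrix (Fin N) κ F)
    (C : Matrix κ κ' F) : permRows σ (X * C) = permRows σ X * C := by
  ext k c
  simp [permRows_apply, Matrix.mul_apply]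

theorem permRows_add (σ : Equiv.Perm (Fin N)) (X Y : Matrix (Fin N) κ F) :
    permRows σ (X + Y) = permRows σ X + permRows σ Y := by
  ext k c
  simp [permRows_apply]

theorem permRows_ones (σ : Equiv.Perm (Fin N)) (d : κ → F) :
    permRows σ (vecMulVec (1 : Fin N → F) d) = vecMulVec 1 d := by
  ext k c
  simp [permRows_apply, vecMulVec_apply]

theorem transpose_permRows_mul (σ : Equiv.Perm (Fin N)) (X : Matrix (Fin N) κ F)
    (Y : Matrix (Fin N) κ' F) : (permRows σ X)ᵀ * permRows σ Y = Xᵀ * Y := by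
  ext c c'
  simp only [Matrix.mul_apply, Matrix.transpose_apply, permRows_apply]
  exact Equiv.sum_comp σ.symm (fun k => X k c * Y k c')

end rows

section machine

variable {F : Type*} [Field F] {N m : ℕ}
variable (B : Matrix (Fin N) (Fin m ⊕ Fin m) F)

/-- the span statement: vectors of coordinate sum zero are combinations of the columns of `B`
and the all-one vector -/
theorem heart_span (h2 : (2 : F) = 0) (hN : N = 2 * m + 2) (hgram : Bᵀ * B = J (Fin m) F)
    (hcol : ∀ c, ∑ k, B k c = 0) (w : Fin N → F) (hw : ∑ k, w k = 0) :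
    ∃ (c : Fin m ⊕ Fin m → F) (d : F), w = B *ᵥ c + d • (1 : Fin N → F) := by
  have hNF : (N : F) = 0 := by
    rw [hN]
    push_cast
    linear_combination ((m : F) + 1) * h2
  let L : ((Fin m ⊕ Fin m → F) × F) →ₗ[F] (Fin N → F) :=
    (Matrix.mulVecLin B).coprod (LinearMap.toSpanSingleton F _ (1 : Fin N → F))
  have hL : ∀ c d, L (c, d) = B *ᵥ c + d • (1 : Fin N → F) := by
    intro c d
    simp [L]
  let φ : (Fin N → F) →ₗ[F] F := ∑ k : Fin N, (LinearMap.proj k : (Fin N → F) →ₗ[F] F)
  have hφ : ∀ w, φ w = ∑ k, w k := by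
    intro w
    simp [φ, LinearMap.sum_apply]
  have hBt1 : Bᵀ *ᵥ (1 : Fin N → F) = 0 := by
    ext c
    simp [Matrix.mulVec, dotProduct, hcol]
  have hinj : Function.Injective L := by
    rw [← LinearMap.ker_eq_bot, LinearMap.ker_eq_bot']
    rintro ⟨c, d⟩ h
    rw [hL] at h
    have h1 := congrArg (fun x => Bᵀ *ᵥ x) h
    simp only [Matrix.mulVec_add, Matrix.mulVec_mulVec, hgram, Matrix.mulVec_smul, hBt1,
      smul_zero, add_zero, Matrix.mulVec_zero] at h1
    have h3 : c = 0 := by
      have h4 := congrArg (fun x => J (Fin m) F *ᵥ x) h1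
      simp only [Matrix.mulVec_mulVec, J_squared, Matrix.neg_mulVec, Matrix.one_mulVec,
        Matrix.mulVec_zero] at h4
      exact neg_eq_zero.mp h4
    rw [h3, Matrix.mulVec_zero, zero_add] at h
    have h5 := congrFun h ⟨0, by omega⟩
    simp at h5
    rw [h3, h5]
    rfl
  have hr1 : Module.finrank F (LinearMap.range L) = 2 * m + 1 := by
    rw [LinearMap.finrank_range_of_inj hinj, Module.finrank_prod, Module.finrank_self,
      Module.finrank_fintype_fun_eq_card, Fintype.card_sum, Fintype.card_fin]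
    ring
  have hsurj : LinearMap.range φ = ⊤ := by
    rw [LinearMap.range_eq_top]
    intro x
    refine ⟨Pi.single ⟨0, by omega⟩ x, ?_⟩
    rw [hφ]
    simp
  have hr2 : Module.finrank F (LinearMap.ker φ) = 2 * m + 1 := by
    have h1 := LinearMap.finrank_range_add_finrank_ker φ
    rw [hsurj, finrank_top, Module.finrank_self, Module.finrank_fintype_fun_eq_card,
      Fintype.card_fin] at h1
    omega
  have hle : LinearMap.range L ≤ LinearMap.ker φ := by
    rintro _ ⟨⟨c, d⟩, rfl⟩
    rw [LinearMap.mem_ker, hL, hφ]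
    simp only [Pi.add_apply, Pi.smul_apply, Pi.one_apply, smul_eq_mul, mul_one,
      Finset.sum_add_distrib, Finset.sum_const, Finset.card_univ, Fintype.card_fin, nsmul_eq_mul,
      hNF, zero_mul, add_zero]
    simp only [Matrix.mulVec, dotProduct]
    rw [Finset.sum_comm]
    simp only [← Finset.sum_mul, hcol, zero_mul, Finset.sum_const_zero]
  have heq := Submodule.eq_of_le_of_finrank_eq hle (hr1.trans hr2.symm)
  have hmem : w ∈ LinearMap.range L := by
    rw [heq, LinearMap.mem_ker, hφ, hw]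
  obtain ⟨⟨c, d⟩, hcd⟩ := hmem
  exact ⟨c, d, by rw [← hcd, hL]⟩

/-- the matrix of a permutation on the heart -/
def heartMat (σ : Equiv.Perm (Fin N)) : Matrix (Fin m ⊕ Fin m) (Fin m ⊕ Fin m) F :=
  -J (Fin m) F * Bᵀ * permRows σ B

theorem heart_key (h2 : (2 : F) = 0) (hN : N = 2 * m + 2) (hgram : Bᵀ * B = J (Fin m) F)
    (hcol : ∀ c, ∑ k, B k c = 0) (σ : Equiv.Perm (Fin N)) :
    ∃ d : Fin m ⊕ Fin m → F, permRows σ B = B * heartMat B σ + vecMulVec 1 d := by
  have hBt1 : Bᵀ *ᵥ (1 : Fin N → F) = 0 := by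
    ext c
    simp [Matrix.mulVec, dotProduct, hcol]
  have h1 : ∀ c, ∃ (x : Fin m ⊕ Fin m → F) (d : F),
      (fun k => permRows σ B k c) = B *ᵥ x + d • (1 : Fin N → F) := by
    intro c
    apply heart_span B h2 hN hgram hcol
    simp only [permRows_apply]
    rw [Equiv.sum_comp σ.symm (fun k => B k c), hcol]
  choose x d hxd using h1
  have h3 : permRows σ B = B * (Matrix.of (fun r c => x c r)) + vecMulVec 1 d := by
    ext k c
    have := congrFun (hxd c) k
    simp only [Pi.add_apply, Pi.smul_apply, Pi.one_apply, smul_eq_mul, mul_one] at this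
    rw [this]
    simp [Matrix.mul_apply, Matrix.mulVec, dotProduct, vecMulVec_apply]
  refine ⟨d, ?_⟩
  have h4 : heartMat B σ = Matrix.of (fun r c => x c r) := by
    unfold heartMat
    rw [h3, Matrix.mul_add, Matrix.mul_assoc (-J (Fin m) F), Matrix.mul_assoc (-J (Fin m) F),
      ← Matrix.mul_assoc Bᵀ, hgram, Matrix.mul_vecMulVec, hBt1, ← Matrix.mul_assoc,
      Matrix.neg_mul, J_squared]
    simp
  rw [h4]
  exact h3

theorem heartMat_mul (h2 : (2 : F) = 0) (hN : N = 2 * m + 2) (hgram : Bᵀ * B = J (Fin m) F)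
    (hcol : ∀ c, ∑ k, B k c = 0) (σ τ : Equiv.Perm (Fin N)) :
    heartMat B (σ * τ) = heartMat B σ * heartMat B τ := by
  have hBt1 : Bᵀ *ᵥ (1 : Fin N → F) = 0 := by
    ext c
    simp [Matrix.mulVec, dotProduct, hcol]
  obtain ⟨d1, h1⟩ := heart_key B h2 hN hgram hcol σ
  obtain ⟨d2, h3⟩ := heart_key B h2 hN hgram hcol τ
  have h4 : permRows (σ * τ) B = B * (heartMat B σ * heartMat B τ)
      + vecMulVec 1 (d1 ᵥ* heartMat B τ + d2) := by
    rw [permRows_mul, h3, permRows_add, permRows_mul_right, permRows_ones, h1, Matrix.add_mul,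
      Matrix.vecMulVec_mul, Matrix.mul_assoc, add_assoc, ← Matrix.vecMulVec_add]
  conv_lhs => unfold heartMat
  rw [h4, Matrix.mul_add, Matrix.mul_assoc (-J (Fin m) F), Matrix.mul_assoc (-J (Fin m) F),
      ← Matrix.mul_assoc Bᵀ, hgram, Matrix.mul_vecMulVec, hBt1, ← Matrix.mul_assoc,
      Matrix.neg_mul, J_squared]
  simp

theorem heartMat_one (hgram : Bᵀ * B = J (Fin m) F) : heartMat B 1 = 1 := by
  unfold heartMat
  rw [permRows_one, Matrix.mul_assoc, hgram, Matrix.neg_mul, J_squared, neg_neg]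

theorem heartMat_mem (h2 : (2 : F) = 0) (hN : N = 2 * m + 2) (hgram : Bᵀ * B = J (Fin m) F)
    (hcol : ∀ c, ∑ k, B k c = 0) (σ : Equiv.Perm (Fin N)) :
    heartMat B σ ∈ symplecticGroup (Fin m) F := by
  have hNF : (N : F) = 0 := by
    rw [hN]
    push_cast
    linear_combination ((m : F) + 1) * h2
  have hBt1 : Bᵀ *ᵥ (1 : Fin N → F) = 0 := by
    ext c
    simp [Matrix.mulVec, dotProduct, hcol]
  have h1B : (1 : Fin N → F) ᵥ* B = 0 := by
    ext c
    simp [Matrix.vecMul, dotProduct, hcol]
  obtain ⟨d, h1⟩ := heart_key B h2 hN hgram hcol σ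
  rw [SymplecticGroup.mem_iff']
  have h3 := transpose_permRows_mul σ B B
  rw [hgram, h1, Matrix.transpose_add, Matrix.transpose_mul, Matrix.transpose_vecMulVec,
    Matrix.add_mul, Matrix.mul_add, Matrix.mul_add, Matrix.vecMulVec_mul_vecMulVec,
    Matrix.mul_assoc _ Bᵀ, ← Matrix.mul_assoc Bᵀ, hgram, Matrix.mul_assoc _ Bᵀ,
    Matrix.mul_vecMulVec, hBt1, ← Matrix.mul_assoc (vecMulVec d 1), Matrix.vecMulVec_mul,
    h1B] at h3
  have h4 : (1 : Fin N → F) ⬝ᵥ 1 = 0 := by
    simp [dotProduct, hNF]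
  rw [h4] at h3
  simpa [Matrix.mul_assoc] using h3

/-- the homomorphism from the symmetric group to the symplectic group -/
noncomputable def heartHom (h2 : (2 : F) = 0) (hN : N = 2 * m + 2)
    (hgram : Bᵀ * B = J (Fin m) F) (hcol : ∀ c, ∑ k, B k c = 0) :
    Equiv.Perm (Fin N) →* symplecticGroup (Fin m) F where
  toFun σ := ⟨heartMat B σ, heartMat_mem B h2 hN hgram hcol σ⟩
  map_one' := Subtype.ext (heartMat_one B hgram)
  map_mul' σ τ := Subtype.ext (heartMat_mul B h2 hN hgram hcol σ τ)

theorem heartMat_injective (h2 : (2 : F) = 0) (hN : N = 2 * m + 2) (hm : 2 ≤ m)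
    (hgram : Bᵀ * B = J (Fin m) F) (hcol : ∀ c, ∑ k, B k c = 0) (σ : Equiv.Perm (Fin N))
    (hσ : heartMat B σ = 1) : σ = 1 := by
  classical
  obtain ⟨d, h1⟩ := heart_key B h2 hN hgram hcol σ
  rw [hσ, Matrix.mul_one] at h1
  -- action on vectors of sum zero
  have hact : ∀ w : Fin N → F, ∑ k, w k = 0 → ∃ l : F, ∀ k, w (σ.symm k) = w k + l := by
    intro w hw
    obtain ⟨c, e, hce⟩ := heart_span B h2 hN hgram hcol w hw
    refine ⟨d ⬝ᵥ c, fun k => ?_⟩
    rw [hce]
    simp only [Pi.add_apply, Pi.smul_apply, Pi.one_apply, smul_eq_mul, mul_one]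
    have h3 : (B *ᵥ c) (σ.symm k) = (permRows σ B *ᵥ c) k := rfl
    rw [h3, h1, Matrix.add_mulVec, Matrix.vecMulVec_mulVec]
    simp only [Pi.add_apply, Pi.smul_apply, Pi.one_apply]
    simp
    ring
  have hpair : ∀ i j : Fin N, i ≠ j → σ i = i ∨ σ i = j := by
    intro i j hij
    obtain ⟨l, hl⟩ := hact (Pi.single i 1 + Pi.single j 1) (by
      simp only [Pi.add_apply, Finset.sum_add_distrib, Finset.sum_pi_single', Finset.mem_univ,
        if_true]
      linear_combination h2)
    have hex : ∃ k : Fin N, k ≠ i ∧ k ≠ j ∧ k ≠ σ i ∧ k ≠ σ j := by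
      by_contra hcon
      push Not at hcon
      have hsub : (Finset.univ : Finset (Fin N)) ⊆ {i, j, σ i, σ j} := by
        intro k _
        simp only [Finset.mem_insert, Finset.mem_singleton]
        by_cases h1 : k = i
        · exact Or.inl h1
        · by_cases h2 : k = j
          · exact Or.inr (Or.inl h2)
          · by_cases h3 : k = σ i
            · exact Or.inr (Or.inr (Or.inl h3))
            · exact Or.inr (Or.inr (Or.inr (hcon k h1 h2 h3)))
      have := Finset.card_le_card hsub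
      rw [Finset.card_univ, Fintype.card_fin] at this
      have h4 : ({i, j, σ i, σ j} : Finset (Fin N)).card ≤ 4 := Finset.card_le_four
      omega
    obtain ⟨k, hk1, hk2, hk3, hk4⟩ := hex
    have hl0 : l = 0 := by
      have := hl k
      have e1 : σ.symm k ≠ i := fun h => hk3 (by rw [← h]; simp)
      have e2 : σ.symm k ≠ j := fun h => hk4 (by rw [← h]; simp)
      simp [Pi.single_apply, hk1, hk2, e1, e2] at this
      exact this.symm
    have := hl (σ i)
    rw [hl0, add_zero] at this
    simp only [Equiv.symm_apply_apply, Pi.add_apply, Pi.single_apply, if_true, hij, if_false,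
      add_zero] at this
    by_contra hcon
    push Not at hcon
    simp [hcon.1, hcon.2] at this
  ext i
  have hi : σ i = i := by
    obtain ⟨j, hj⟩ : ∃ j : Fin N, j ≠ i := by
      by_cases h0 : i = ⟨0, by omega⟩
      · exact ⟨⟨1, by omega⟩, by rw [h0]; simp⟩
      · exact ⟨⟨0, by omega⟩, fun h => h0 h.symm⟩
    rcases hpair i j hj.symm with h | h
    · exact h
    · obtain ⟨j', hj'1, hj'2⟩ : ∃ j' : Fin N, j' ≠ i ∧ j' ≠ j := by
        by_contra hcon
        push Not at hcon
        have hsub : (Finset.univ : Finset (Fin N)) ⊆ {i, j} := by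
          intro k _
          simp only [Finset.mem_insert, Finset.mem_singleton]
          by_cases h1 : k = i
          · exact Or.inl h1
          · exact Or.inr (hcon k h1)
        have := Finset.card_le_card hsub
        rw [Finset.card_univ, Fintype.card_fin] at this
        have h4 : ({i, j} : Finset (Fin N)).card ≤ 2 := Finset.card_le_two
        omega
      rcases hpair i j' hj'1.symm with h' | h'
      · exact h'
      · exact absurd (h.symm.trans h') hj'2.symm
  simp [hi]

theorem heartHom_injective (h2 : (2 : F) = 0) (hN : N = 2 * m + 2) (hm : 2 ≤ m)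
    (hgram : Bᵀ * B = J (Fin m) F) (hcol : ∀ c, ∑ k, B k c = 0) :
    Function.Injective (heartHom B h2 hN hgram hcol) := by
  rw [injective_iff_map_eq_one]
  intro σ hσ
  exact heartMat_injective B h2 hN hm hgram hcol σ (congrArg Subtype.val hσ)

end machine

end Cfsg.Agent.Lib.Helper18
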