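import Mathlib
import Cfsg.Prelude.Def_LieClassical
import Cfsg.Agent.Lib.Helper18.PermSp
import Cfsg.Agent.Lib.Helper18.Quad3

set_option linter.unusedSimpArgs false
set_option linter.unusedSectionVars false

namespace Cfsg.Agent.Lib.Helper18

open Matrix

section e2

variable {F : Type*} [Field F] {N : ℕ}

/-- the second elementary symmetric function -/
def e2 (w : Fin N → F) : F := ∑ k, ∑ l, if k < l then w k * w l else 0

theorem sum_rel_eq (T : Fin N → Fin N → F) (hT : ∀ k l, T k l = T l k)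
    (R : Fin N → Fin N → Prop) [DecidableRel R]
    (hR : ∀ k l, k < l → (R k l ↔ ¬ R l k)) (hR0 : ∀ k, ¬ R k k) :
    ∑ k, ∑ l, (if R k l then T k l else 0) = ∑ k, ∑ l, if k < l then T k l else 0 := by
  have h1 : ∀ k l, (if R k l then T k l else 0)
      = (if k < l then (if R k l then T k l else 0) else 0)
        + (if l < k then (if R k l then T k l else 0) else 0) := by
    intro k l
    rcases lt_trichotomy k l with h | h | h
    · rw [if_pos h, if_neg (not_lt.mpr h.le), add_zero]
    · subst h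
      rw [if_neg (hR0 k), if_neg (lt_irrefl _), add_zero]
    · rw [if_neg (not_lt.mpr h.le), if_pos h, zero_add]
  rw [Finset.sum_congr rfl (fun k _ => Finset.sum_congr rfl (fun l _ => h1 k l))]
  simp_rw [Finset.sum_add_distrib]
  rw [Finset.sum_comm (f := fun k l => if l < k then (if R k l then T k l else 0) else 0),
    ← Finset.sum_add_distrib]
  apply Finset.sum_congr rfl
  intro k _
  rw [← Finset.sum_add_distrib]
  apply Finset.sum_congr rfl
  intro l _
  by_cases h : k < l
  · rw [if_pos h, if_pos h, if_pos h]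
    by_cases h3 : R k l
    · rw [if_pos h3, if_neg ((hR k l h).mp h3), add_zero]
    · rw [if_neg h3, if_pos (by
        by_contra h4
        exact h3 ((hR k l h).mpr h4)), zero_add, hT]
  · rw [if_neg h, if_neg h, if_neg h, add_zero]

theorem e2_perm (σ : Equiv.Perm (Fin N)) (w : Fin N → F) :
    e2 (fun k => w (σ.symm k)) = e2 w := by
  classical
  unfold e2
  rw [← Equiv.sum_comp σ]
  have h1 : ∀ k, ∑ l, (if σ k < l then w (σ.symm (σ k)) * w (σ.symm l) else 0)
      = ∑ l, (if σ k < σ l then w k * w l else 0) := by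
    intro k
    rw [← Equiv.sum_comp σ]
    simp
  simp_rw [h1]
  apply sum_rel_eq (fun k l => w k * w l) (fun k l => mul_comm _ _) (fun k l => σ k < σ l)
  · intro k l hkl
    have hne : σ k ≠ σ l := fun h => hkl.ne (σ.injective h)
    constructor
    · intro h
      exact not_lt.mpr h.le
    · intro h
      exact lt_of_le_of_ne (not_lt.mp h) hne
  · intro k
    exact lt_irrefl _

theorem e2_add (u w : Fin N → F) :
    e2 (u + w) = e2 u + e2 w + ((∑ k, u k) * (∑ k, w k) - u ⬝ᵥ w) := by
  unfold e2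
  have h1 : ∀ k l : Fin N, (if k < l then (u + w) k * (u + w) l else 0)
      = (if k < l then u k * u l else 0) + (if k < l then w k * w l else 0)
        + ((if k < l then u k * w l else 0) + (if k < l then w k * u l else 0)) := by
    intro k l
    by_cases h : k < l
    · simp only [if_pos h, Pi.add_apply]
      ring
    · simp only [if_neg h, add_zero]
  simp_rw [h1, Finset.sum_add_distrib]
  congr 1
  rw [Finset.sum_comm (f := fun k l => if k < l then w k * u l else 0),
    ← Finset.sum_add_distrib, Finset.sum_mul_sum, dotProduct, ← Finset.sum_sub_distrib]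
  apply Finset.sum_congr rfl
  intro k _
  rw [← Finset.sum_add_distrib]
  have h3 : u k * w k = ∑ l, if l = k then u k * w l else 0 := by
    rw [Finset.sum_ite_eq']
    simp
  rw [h3, ← Finset.sum_sub_distrib]
  apply Finset.sum_congr rfl
  intro l _
  rcases lt_trichotomy k l with h | h | h
  · rw [if_pos h, if_neg (not_lt.mpr h.le), if_neg h.ne', add_zero, sub_zero]
  · subst h
    rw [if_neg (lt_irrefl _), if_neg (lt_irrefl _), if_pos rfl, add_zero, sub_self]
  · rw [if_neg (not_lt.mpr h.le), if_pos h, if_neg h.ne, zero_add, sub_zero, mul_comm]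

theorem e2_smul (a : F) (w : Fin N → F) : e2 (a • w) = a * a * e2 w := by
  unfold e2
  simp only [Finset.mul_sum]
  apply Finset.sum_congr rfl
  intro k _
  apply Finset.sum_congr rfl
  intro l _
  by_cases h : k < l
  · simp only [if_pos h, Pi.smul_apply, smul_eq_mul]
    ring
  · simp only [if_neg h, mul_zero]

theorem e2_polar (u w : Fin N → F) :
    QuadraticMap.polar e2 u w = (∑ k, u k) * (∑ k, w k) - u ⬝ᵥ w := by
  rw [QuadraticMap.polar, e2_add]
  ring

/-- `e2` as a quadratic form -/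
def e2Q (F : Type*) [Field F] (N : ℕ) : QuadraticForm F (Fin N → F) :=
  QuadraticMap.ofPolar e2 (fun a w => by rw [e2_smul, smul_eq_mul])
    (fun x x' y => by
      simp only [e2_polar, Pi.add_apply, Finset.sum_add_distrib, add_dotProduct]
      ring)
    (fun a x y => by
      simp only [e2_polar, Pi.smul_apply, smul_eq_mul, ← Finset.mul_sum, smul_dotProduct]
      ring)

theorem e2Q_apply (w : Fin N → F) : e2Q F N w = e2 w := rfl

theorem e2_add_ones (he1 : e2 (1 : Fin N → F) = 0) (w : Fin N → F) (hw : ∑ k, w k = 0) (a : F) :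
    e2 (w + a • (1 : Fin N → F)) = e2 w := by
  rw [e2_add, e2_smul, he1, hw]
  simp [dotProduct, ← Finset.sum_mul, hw]

end e2

section machine

variable {F : Type*} [Field F] {N m : ℕ}
variable (B : Matrix (Fin N) (Fin m ⊕ Fin m) F)

theorem heartMat_preserve (h2 : (2 : F) = 0) (hN : N = 2 * m + 2)
    (hgram : Bᵀ * B = J (Fin m) F) (hcol : ∀ c, ∑ k, B k c = 0)
    (he1 : e2 (1 : Fin N → F) = 0) (Q : (Fin m ⊕ Fin m → F) → F)
    (hQ : ∀ v, e2 (B *ᵥ v) = Q v) (σ : Equiv.Perm (Fin N)) (v : Fin m ⊕ Fin m → F) :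
    Q (heartMat B σ *ᵥ v) = Q v := by
  obtain ⟨d, h1⟩ := heart_key B h2 hN hgram hcol σ
  have h3 : B *ᵥ (heartMat B σ *ᵥ v) = permRows σ B *ᵥ v + (-(d ⬝ᵥ v)) • (1 : Fin N → F) := by
    rw [h1, Matrix.add_mulVec, Matrix.vecMulVec_mulVec, Matrix.mulVec_mulVec]
    ext k
    simp
  have h4 : permRows σ B *ᵥ v = fun k => (B *ᵥ v) (σ.symm k) := rfl
  have h5 : ∑ k, (permRows σ B *ᵥ v) k = 0 := by
    rw [h4, Equiv.sum_comp σ.symm (fun k => (B *ᵥ v) k)]
    simp only [Matrix.mulVec, dotProduct]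
    rw [Finset.sum_comm]
    simp only [← Finset.sum_mul, hcol, zero_mul, Finset.sum_const_zero]
  rw [← hQ, h3, e2_add_ones he1 _ h5, h4, e2_perm, hQ]

/-- the homomorphism to matrices -/
noncomputable def heartMatHom (h2 : (2 : F) = 0) (hN : N = 2 * m + 2)
    (hgram : Bᵀ * B = J (Fin m) F) (hcol : ∀ c, ∑ k, B k c = 0) :
    Equiv.Perm (Fin N) →* Matrix (Fin m ⊕ Fin m) (Fin m ⊕ Fin m) F where
  toFun σ := heartMat B σ
  map_one' := heartMat_one B hgram
  map_mul' σ τ := heartMat_mul B h2 hN hgram hcol σ τ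

/-- the homomorphism to the isometry group -/
noncomputable def heartIsoHom (h2 : (2 : F) = 0) (hN : N = 2 * m + 2)
    (hgram : Bᵀ * B = J (Fin m) F) (hcol : ∀ c, ∑ k, B k c = 0)
    (he1 : e2 (1 : Fin N → F) = 0) (Q : (Fin m ⊕ Fin m → F) → F)
    (hQ : ∀ v, e2 (B *ᵥ v) = Q v) :
    Equiv.Perm (Fin N) →* Cfsg.isometryGroup F Q :=
  (heartMatHom B h2 hN hgram hcol).toHomUnits.codRestrict (Cfsg.isometryGroup F Q)
    (fun σ u _ => heartMat_preserve B h2 hN hgram hcol he1 Q hQ σ u)

theorem heartIsoHom_injective (h2 : (2 : F) = 0) (hN : N = 2 * m + 2) (hm : 2 ≤ m)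
    (hgram : Bᵀ * B = J (Fin m) F) (hcol : ∀ c, ∑ k, B k c = 0)
    (he1 : e2 (1 : Fin N → F) = 0) (Q : (Fin m ⊕ Fin m → F) → F)
    (hQ : ∀ v, e2 (B *ᵥ v) = Q v) :
    Function.Injective (heartIsoHom B h2 hN hgram hcol he1 Q hQ) := by
  rw [injective_iff_map_eq_one]
  intro σ hσ
  apply heartMat_injective B h2 hN hm hgram hcol σ
  have := congrArg (fun g : Cfsg.isometryGroup F Q =>
    (g.1 : Matrix (Fin m ⊕ Fin m) (Fin m ⊕ Fin m) F)) hσ
  exact this

/-- criterion for `e2 (B v) = Q v` -/
theorem e2_mulVec_eq (h2 : (2 : F) = 0) (hgram : Bᵀ * B = J (Fin m) F)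
    (hcol : ∀ c, ∑ k, B k c = 0) (Q : QuadraticForm F (Fin m ⊕ Fin m → F))
    (h1 : ∀ c, e2 (fun k => B k c) = Q (Pi.single c 1))
    (h3 : ∀ c c', Q.polarBilin (Pi.single c 1) (Pi.single c' 1) = J (Fin m) F c c')
    (v : Fin m ⊕ Fin m → F) : e2 (B *ᵥ v) = Q v := by
  have hcolv : ∀ c, B *ᵥ (Pi.single c 1) = fun k => B k c := by
    intro c
    ext k
    simp
  have key := quad_ext_basis ((e2Q F N).comp (Matrix.mulVecLin B)) Q
    (fun c => (Pi.single c 1 : Fin m ⊕ Fin m → F))
    (fun c => by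
      rw [QuadraticMap.comp_apply, Matrix.mulVecLin_apply, hcolv, e2Q_apply, h1])
    (fun c c' => by
      rw [h3, QuadraticMap.polarBilin_apply_apply, QuadraticMap.polar, QuadraticMap.comp_apply,
        QuadraticMap.comp_apply, QuadraticMap.comp_apply, map_add, Matrix.mulVecLin_apply,
        Matrix.mulVecLin_apply, hcolv, hcolv, e2Q_apply, e2Q_apply, e2Q_apply, e2_add, hcol,
        ← hgram, Matrix.mul_apply]
      simp only [dotProduct, Matrix.transpose_apply]
      have : ∀ x : F, -x = x := fun x => by linear_combination (-x) * h2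
      ring_nf
      rw [this]) v Finset.univ
  have hv : ∑ i, v i • (Pi.single i 1 : Fin m ⊕ Fin m → F) = v := by
    ext k
    simp [Finset.sum_apply, Pi.single_apply]
  rw [hv, QuadraticMap.comp_apply, Matrix.mulVecLin_apply] at key
  exact key

end machine

end Cfsg.Agent.Lib.Helper18
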