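import Mathlib
import Cfsg.Prelude.Def_LieClassical
import Cfsg.Agent.Lib.Helper18.PermO
import Cfsg.Agent.Lib.Helper18.Quad4

set_option linter.unusedSimpArgs false
set_option linter.unusedSectionVars false

namespace Cfsg.Agent.Lib.Helper18

open Matrix

/-- three weight four vectors -/
def X8 : Fin 3 → Fin 8 → ZMod 2 :=
  ![![1,1,1,1,0,0,0,0], ![1,1,0,0,0,1,1,0], ![1,0,1,0,0,0,1,1]]

/-- three more weight four vectors -/
def Y8 : Fin 3 → Fin 8 → ZMod 2 :=
  ![![1,1,1,0,1,0,0,0], ![1,1,0,0,0,1,0,1], ![1,0,0,1,1,1,0,0]]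

/-- a hyperbolic basis of the heart of the permutation module of degree eight -/
def B8z : Matrix (Fin 8) (Fin 3 ⊕ Fin 3) (ZMod 2) :=
  Matrix.of fun k c => Sum.elim (fun i => X8 i k) (fun i => Y8 i k) c

theorem B8z_gram : B8zᵀ * B8z = J (Fin 3) (ZMod 2) := by decide +kernel

theorem B8z_col : ∀ c, ∑ k, B8z k c = 0 := by decide +kernel

theorem B8z_e2 : ∀ c, e2 (fun k => B8z k c) = 0 := by decide +kernel

theorem e2_one8 : e2 (1 : Fin 8 → ZMod 2) = 0 := by decide +kernel

section gen

variable {F : Type*} [Field F]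

theorem e2_map {K : Type*} [Field K] {N : ℕ} (f : K →+* F) (w : Fin N → K) :
    e2 (fun k => f (w k)) = f (e2 w) := by
  unfold e2
  simp only [map_sum, apply_ite f, map_mul, map_zero]

theorem qPlus_polar_eq_J (h2 : (2 : F) = 0) (m : ℕ) (c c' : Fin m ⊕ Fin m) :
    (qPlus m F).polarBilin (Pi.single c 1) (Pi.single c' 1) = J (Fin m) F c c' := by
  have hneg : (-1 : F) = 1 := by linear_combination (-1 : F) * h2
  rcases c with a | a <;> rcases c' with b | b
  · rw [qPlus_polar_ll]
    simp [J]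
  · rw [qPlus_polar_lr]
    simp only [J, Matrix.fromBlocks_apply₁₂, Matrix.neg_apply, Matrix.one_apply]
    split_ifs
    · exact hneg.symm
    · simp
  · rw [QuadraticMap.polarBilin_apply_apply, QuadraticMap.polar_comm,
      ← QuadraticMap.polarBilin_apply_apply, qPlus_polar_lr]
    simp only [J, Matrix.fromBlocks_apply₂₁, Matrix.one_apply, eq_comm]
  · rw [qPlus_polar_rr]
    simp [J]

theorem exists_perm8_embedding (h2 : (2 : F) = 0) :
    ∃ f : Equiv.Perm (Fin 8) →* Cfsg.isometryGroup F (Cfsg.quadFormPlus 3 F),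
      Function.Injective f := by
  have : CharP F 2 := CharTwo.of_one_ne_zero_of_two_eq_zero one_ne_zero h2
  let f : ZMod 2 →+* F := ZMod.castHom (dvd_refl 2) F
  let B : Matrix (Fin 8) (Fin 3 ⊕ Fin 3) F := B8z.map f
  have hgram : Bᵀ * B = J (Fin 3) F := by
    show (B8z.map f)ᵀ * B8z.map f = _
    rw [← Matrix.transpose_map, ← Matrix.map_mul, B8z_gram]
    simp only [J, Matrix.fromBlocks_map]
    congr 1
    · ext i j; simp
    · ext i j
      simp only [Matrix.map_apply, Matrix.neg_apply, Matrix.one_apply, map_neg, apply_ite f,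
        map_one, map_zero]
    · ext i j
      simp [Matrix.one_apply, apply_ite f]
    · ext i j; simp
  have hcol : ∀ c, ∑ k, B k c = 0 := by
    intro c
    show ∑ k, f (B8z k c) = 0
    rw [← map_sum, B8z_col, map_zero]
  have he1 : e2 (1 : Fin 8 → F) = 0 := by
    have := e2_map f (1 : Fin 8 → ZMod 2)
    rw [e2_one8, map_zero] at this
    rw [← this]
    congr 1
    ext k
    simp
  have hQ : ∀ v, e2 (B *ᵥ v) = Cfsg.quadFormPlus 3 F v := by
    intro v
    rw [← qPlus_apply]
    apply e2_mulVec_eq B h2 hgram hcol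
    · intro c
      rw [qPlus_single]
      show e2 (fun k => f (B8z k c)) = 0
      rw [e2_map, B8z_e2, map_zero]
    · exact qPlus_polar_eq_J h2 3
  exact ⟨heartIsoHom B h2 rfl hgram hcol he1 _ hQ,
    heartIsoHom_injective B h2 rfl (by norm_num) hgram hcol he1 _ hQ⟩

theorem perm8_equiv [Fintype F] (hF : Fintype.card F = 2) :
    Nonempty (Cfsg.isometryGroup F (Cfsg.quadFormPlus 3 F) ≃* Equiv.Perm (Fin 8)) := by
  classical
  have h2 : (2 : F) = 0 := by
    have := Nat.cast_card_eq_zero F
    rw [hF] at this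
    exact_mod_cast this
  obtain ⟨f, hf⟩ := exists_perm8_embedding (F := F) h2
  have hcard : Nat.card (Cfsg.isometryGroup F (Cfsg.quadFormPlus 3 F)) = 40320 := by
    rw [card_isometry_plus, hF]
    simp [Finset.prod_range_succ, oSeq]
  have hcard2 : Nat.card (Equiv.Perm (Fin 8)) = 40320 := by
    rw [Nat.card_eq_fintype_card, Fintype.card_perm, Fintype.card_fin]
    rfl
  have hbij : Function.Bijective f := by
    have : Finite (Cfsg.isometryGroup F (Cfsg.quadFormPlus 3 F)) :=
      Nat.finite_of_card_ne_zero (by omega)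
    exact (Nat.bijective_iff_injective_and_card f).mpr ⟨hf, by rw [hcard, hcard2]⟩
  exact ⟨(MulEquiv.ofBijective f hbij).symm⟩

end gen

end Cfsg.Agent.Lib.Helper18
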