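import Mathlib
import Cfsg.Prelude.Def_LieClassical
import Cfsg.Agent.Lib.Helper18.PermSp

set_option linter.unusedSimpArgs false
set_option linter.unusedSectionVars false

namespace Cfsg.Agent.Lib.Helper18

open Matrix

section basis

variable (F : Type*) [Field F] (m : ℕ)

/-- an explicit symplectic basis of the heart of the permutation module -/
def heartBasis : Matrix (Fin (2 * m + 2)) (Fin m ⊕ Fin m) F :=
  Matrix.of (fun k c => Sum.elim (fun i : Fin m => if (k : ℕ) < 2 * i + 2 then (1 : F) else 0)
    (fun i : Fin m => if (k : ℕ) = 2 * i + 1 ∨ (k : ℕ) = 2 * i + 2 then (1 : F) else 0) c)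

variable {F m}

theorem heartBasis_inl (k : Fin (2 * m + 2)) (i : Fin m) :
    heartBasis F m k (Sum.inl i) = if (k : ℕ) < 2 * i + 2 then (1 : F) else 0 := rfl

theorem heartBasis_inr (k : Fin (2 * m + 2)) (i : Fin m) :
    heartBasis F m k (Sum.inr i) = if (k : ℕ) = 2 * i + 1 ∨ (k : ℕ) = 2 * i + 2 then (1 : F) else 0 :=
  rfl

theorem sum_fin_ind_lt (N c : ℕ) (hc : c ≤ N) :
    ∑ k : Fin N, (if (k : ℕ) < c then (1 : F) else 0) = c := by
  rw [Fin.sum_univ_eq_sum_range (fun k => if k < c then (1 : F) else 0) N, Finset.sum_boole]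
  congr 1
  have : (Finset.range N).filter (fun k => k < c) = Finset.range c := by
    ext k
    simp only [Finset.mem_filter, Finset.mem_range]
    omega
  rw [this, Finset.card_range]

theorem sum_fin_ind_pair (N a b : ℕ) (ha : a < N) (hb : b < N) (hab : a ≠ b) (g : ℕ → F) :
    ∑ k : Fin N, (if (k : ℕ) = a ∨ (k : ℕ) = b then (1 : F) else 0) * g k = g a + g b := by
  rw [Fin.sum_univ_eq_sum_range (fun k => (if k = a ∨ k = b then (1 : F) else 0) * g k) N]
  have h1 : ∀ k, (if k = a ∨ k = b then (1 : F) else 0) * g k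
      = (if k = a then g k else 0) + (if k = b then g k else 0) := by
    intro k
    by_cases h1 : k = a
    · have : k ≠ b := fun h => hab (h1.symm.trans h)
      simp [h1, hab]
    · by_cases h2 : k = b
      · simp [h1, h2, hab.symm]
      · simp [h1, h2]
  simp_rw [h1]
  rw [Finset.sum_add_distrib, Finset.sum_ite_eq', Finset.sum_ite_eq']
  simp [ha, hb]

theorem heartBasis_col (h2 : (2 : F) = 0) (c : Fin m ⊕ Fin m) :
    ∑ k, heartBasis F m k c = 0 := by
  rcases c with i | i
  · simp only [heartBasis_inl]
    rw [sum_fin_ind_lt _ _ (by omega)]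
    push_cast
    linear_combination ((i : F) + 1) * h2
  · simp only [heartBasis_inr]
    have := sum_fin_ind_pair (F := F) (2 * m + 2) (2 * i + 1) (2 * i + 2) (by omega) (by omega)
      (by omega) (fun _ => 1)
    simp only [mul_one] at this
    rw [this]
    linear_combination h2

theorem heartBasis_gram (h2 : (2 : F) = 0) :
    (heartBasis F m)ᵀ * heartBasis F m = J (Fin m) F := by
  have h11 : (1 : F) + 1 = 0 := by linear_combination h2
  have hneg : (-1 : F) = 1 := by linear_combination (-1 : F) * h2
  ext c c'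
  rw [Matrix.mul_apply]
  simp only [Matrix.transpose_apply]
  rcases c with i | i <;> rcases c' with j | j
  · simp only [heartBasis_inl]
    have h1 : ∀ k : Fin (2 * m + 2), (if (k : ℕ) < 2 * i + 2 then (1 : F) else 0)
        * (if (k : ℕ) < 2 * j + 2 then (1 : F) else 0)
        = if (k : ℕ) < 2 * (min (i : ℕ) j) + 2 then (1 : F) else 0 := by
      intro k
      by_cases h1 : (k : ℕ) < 2 * i + 2 <;> by_cases h3 : (k : ℕ) < 2 * j + 2
      · rw [if_pos h1, if_pos h3, if_pos (by omega), mul_one]
      · rw [if_pos h1, if_neg h3, if_neg (by omega), mul_zero]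
      · rw [if_neg h1, if_pos h3, if_neg (by omega), zero_mul]
      · rw [if_neg h1, if_neg h3, if_neg (by omega), zero_mul]
    simp_rw [h1]
    rw [sum_fin_ind_lt _ _ (by omega)]
    simp only [J, Matrix.fromBlocks_apply₁₁, Matrix.zero_apply]
    push_cast
    linear_combination (((min (i : ℕ) j : ℕ) : F) + 1) * h2
  · simp only [heartBasis_inl, heartBasis_inr]
    simp_rw [mul_comm (if _ < _ then (1 : F) else 0)]
    rw [sum_fin_ind_pair (F := F) (2 * m + 2) (2 * j + 1) (2 * j + 2) (by omega) (by omega)
      (by omega) (fun k => if k < 2 * i + 2 then (1 : F) else 0)]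
    simp only [J, Matrix.fromBlocks_apply₁₂, Matrix.neg_apply, Matrix.one_apply]
    by_cases hij : i = j
    · subst hij
      rw [if_pos (by omega), if_neg (by omega), if_pos rfl, hneg, add_zero]
    · rw [if_neg hij, neg_zero]
      have hij' : (i : ℕ) ≠ j := fun h => hij (Fin.ext h)
      by_cases hlt : (j : ℕ) < i
      · rw [if_pos (by omega), if_pos (by omega), h11]
      · rw [if_neg (by omega), if_neg (by omega), add_zero]
  · simp only [heartBasis_inl, heartBasis_inr]
    rw [sum_fin_ind_pair (F := F) (2 * m + 2) (2 * i + 1) (2 * i + 2) (by omega) (by omega)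
      (by omega) (fun k => if k < 2 * j + 2 then (1 : F) else 0)]
    simp only [J, Matrix.fromBlocks_apply₂₁, Matrix.one_apply]
    by_cases hij : i = j
    · subst hij
      rw [if_pos (by omega), if_neg (by omega), if_pos rfl, add_zero]
    · rw [if_neg hij]
      have hij' : (i : ℕ) ≠ j := fun h => hij (Fin.ext h)
      by_cases hlt : (i : ℕ) < j
      · rw [if_pos (by omega), if_pos (by omega), h11]
      · rw [if_neg (by omega), if_neg (by omega), add_zero]
  · simp only [heartBasis_inr]
    rw [sum_fin_ind_pair (F := F) (2 * m + 2) (2 * i + 1) (2 * i + 2) (by omega) (by omega)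
      (by omega) (fun k => if k = 2 * j + 1 ∨ k = 2 * j + 2 then (1 : F) else 0)]
    simp only [J, Matrix.fromBlocks_apply₂₂, Matrix.zero_apply]
    by_cases hij : (i : ℕ) = j
    · rw [if_pos (by omega), if_pos (by omega), h11]
    · rw [if_neg (by omega), if_neg (by omega), add_zero]

/-- `S_{2m+2}` embeds in `Sp_{2m}` in characteristic two -/
theorem exists_perm_embedding_sp (h2 : (2 : F) = 0) (hm : 2 ≤ m) :
    ∃ f : Equiv.Perm (Fin (2 * m + 2)) →* symplecticGroup (Fin m) F, Function.Injective f :=
  ⟨heartHom (heartBasis F m) h2 rfl (heartBasis_gram h2) (heartBasis_col h2),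
    heartHom_injective _ h2 rfl hm _ _⟩

end basis

end Cfsg.Agent.Lib.Helper18
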