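import Mathlib
import Cfsg.Prelude.Def_LieClassical
import Cfsg.Agent.Lib.Helper18.PermO8
import Cfsg.Agent.Lib.Helper18.PermSp2
import Cfsg.Agent.Lib.Helper18.F2Forms2
import Cfsg.Agent.Lib.Helper18.StdForm
set_option autoImplicit false
set_option linter.unusedSimpArgs false
set_option linter.unusedSectionVars false

/-! `Sym(4k+4)` inside `O^±_{4k+2}(2)`. -/

namespace Cfsg.Agent.Lib.Helper18

open Matrix

section e2more

variable {F : Type*} [Field F] {N : ℕ}

lemma e2_zero' : e2 (0 : Fin N → F) = 0 := by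
  unfold e2
  simp

lemma e2_single (a : Fin N) (x : F) : e2 (Pi.single a x : Fin N → F) = 0 := by
  classical
  unfold e2
  refine Finset.sum_eq_zero fun k _ => Finset.sum_eq_zero fun l _ => ?_
  split_ifs with h
  · by_cases hk : k = a
    · have hl : l ≠ a := by
        rintro rfl
        rw [hk] at h
        exact lt_irrefl _ h
      simp [hl]
    · simp [hk]
  · rfl

lemma e2_ind_lt (c : ℕ) (hc : c ≤ N) :
    e2 (fun k : Fin N => if (k : ℕ) < c then (1 : F) else 0) = ∑ j ∈ Finset.range c, (j : F) := by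
  classical
  induction c with
  | zero =>
    simp only [Nat.not_lt_zero, if_false, Finset.range_zero, Finset.sum_empty]
    exact e2_zero'
  | succ c ih =>
    have h1 : (fun k : Fin N => if (k : ℕ) < c + 1 then (1 : F) else 0) =
        (fun k : Fin N => if (k : ℕ) < c then (1 : F) else 0) + Pi.single (⟨c, by omega⟩ : Fin N) 1 := by
      funext k
      simp only [Pi.add_apply, Pi.single_apply, Fin.ext_iff]
      by_cases h : (k : ℕ) < c
      · have h2 : (k : ℕ) ≠ c := by omega
        simp [h, h2, Nat.lt_succ_of_lt h]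
      · by_cases h2 : (k : ℕ) = c
        · simp [h2]
        · have h3 : ¬ (k : ℕ) < c + 1 := by omega
          simp [h, h2, h3]
    rw [h1, e2_add, ih (by omega), e2_single, sum_fin_ind_lt _ _ (by omega), Finset.sum_range_succ]
    simp

lemma e2_ind_pair (a b : ℕ) (ha : a < N) (hb : b < N) (hab : a ≠ b) :
    e2 (fun k : Fin N => if (k : ℕ) = a ∨ (k : ℕ) = b then (1 : F) else 0) = 1 := by
  classical
  have h1 : (fun k : Fin N => if (k : ℕ) = a ∨ (k : ℕ) = b then (1 : F) else 0) =
      Pi.single (⟨a, ha⟩ : Fin N) 1 + Pi.single (⟨b, hb⟩ : Fin N) 1 := by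
    funext k
    simp only [Pi.add_apply, Pi.single_apply, Fin.ext_iff]
    by_cases h : (k : ℕ) = a
    · have h2 : (k : ℕ) ≠ b := by omega
      simp [h, h2, hab]
    · by_cases h2 : (k : ℕ) = b
      · simp [h2, hab.symm]
      · simp [h, h2]
  have hne : (⟨a, ha⟩ : Fin N) ≠ ⟨b, hb⟩ := by
    intro h
    exact hab (congrArg Fin.val h)
  rw [h1, e2_add, e2_single, e2_single]
  simp [hne]

end e2more

/-- triangular numbers mod two. -/
def triF (c : ℕ) : ZMod 2 := ∑ j ∈ Finset.range c, (j : ZMod 2)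

lemma triF_two_mul (i : ℕ) : triF (2 * i) = i := by
  have h2 : (2 : ZMod 2) = 0 := by decide
  induction i with
  | zero => simp [triF]
  | succ i ih =>
    unfold triF at ih ⊢
    rw [show 2 * (i + 1) = 2 * i + 1 + 1 from by ring, Finset.sum_range_succ, Finset.sum_range_succ, ih]
    push_cast
    linear_combination (2 * (i : ZMod 2)) * h2

/-- the vector describing the quadratic form on the heart. -/
def heartC (m : ℕ) : Fin m ⊕ Fin m → ZMod 2 :=
  Sum.elim (fun _ => 1) (fun i => (((i : ℕ) + 1 : ℕ) : ZMod 2))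

lemma quadFormPlus_heartC (m : ℕ) : Cfsg.quadFormPlus m (ZMod 2) (heartC m) = triF (m + 1) := by
  unfold Cfsg.quadFormPlus heartC triF
  simp only [Sum.elim_inl, Sum.elim_inr, one_mul]
  rw [Fin.sum_univ_eq_sum_range (fun i => ((i + 1 : ℕ) : ZMod 2)) m, Finset.sum_range_succ']
  simp

lemma f2B_single_inl (m : ℕ) (a : Fin m) (c : Fin m ⊕ Fin m → ZMod 2) :
    f2B m (Pi.single (Sum.inl a) 1) c = c (Sum.inr a) := by
  classical
  unfold f2B Cfsg.quadFormPlus
  simp [Pi.single_apply, add_mul, Finset.sum_add_distrib]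

lemma f2B_single_inr (m : ℕ) (a : Fin m) (c : Fin m ⊕ Fin m → ZMod 2) :
    f2B m (Pi.single (Sum.inr a) 1) c = c (Sum.inl a) := by
  classical
  unfold f2B Cfsg.quadFormPlus
  simp [Pi.single_apply, mul_add, Finset.sum_add_distrib]

lemma heart_e2_eq (m : ℕ) (v : Fin m ⊕ Fin m → ZMod 2) :
    e2 (heartBasis (ZMod 2) m *ᵥ v) = f2Q (heartC m) v := by
  classical
  have h2 : (2 : ZMod 2) = 0 := by decide
  refine e2_mulVec_eq _ h2 (heartBasis_gram h2) (heartBasis_col h2) (f2Q (heartC m)) ?_ ?_ v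
  · intro c
    rw [f2Q_apply, f2Equiv_apply]
    have hs : Cfsg.quadFormPlus m (ZMod 2) (Pi.single c 1) = 0 := by
      rw [← qPlus_apply, qPlus_single]
    rw [hs, zero_add]
    rcases c with i | i
    · rw [f2B_single_inl]
      simp only [heartBasis_inl]
      rw [e2_ind_lt _ (by omega)]
      have := triF_two_mul ((i : ℕ) + 1)
      unfold triF at this
      rw [show 2 * (i : ℕ) + 2 = 2 * ((i : ℕ) + 1) by ring, this]
      rfl
    · rw [f2B_single_inr]
      simp only [heartBasis_inr]
      rw [e2_ind_pair _ _ (by omega) (by omega) (by omega)]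
      rfl
  · intro c c'
    rw [f2Q_polar, qPlus_polar_eq_J h2]

lemma heart_e2_one (m : ℕ) (hm : Odd m) : e2 (1 : Fin (2 * m + 2) → ZMod 2) = 0 := by
  have h1 : (1 : Fin (2 * m + 2) → ZMod 2) =
      fun k : Fin (2 * m + 2) => if (k : ℕ) < 2 * m + 2 then (1 : ZMod 2) else 0 := by
    funext k
    simp [k.2]
  rw [h1, e2_ind_lt _ le_rfl]
  have := triF_two_mul (m + 1)
  unfold triF at this
  rw [show 2 * m + 2 = 2 * (m + 1) by ring, this]
  obtain ⟨j, rfl⟩ := hm
  have h2 : (2 : ZMod 2) = 0 := by decide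
  push_cast
  linear_combination ((j : ZMod 2) + 1) * h2

/-- the embedding into the isometry group of the form on the heart. -/
theorem exists_perm_embedding_heart (m : ℕ) (hm2 : 2 ≤ m) (hm : Odd m) :
    ∃ φ : Equiv.Perm (Fin (2 * m + 2)) →* Cfsg.isometryGroup (ZMod 2) (⇑(f2Q (heartC m))),
      Function.Injective φ := by
  have h2 : (2 : ZMod 2) = 0 := by decide
  exact ⟨heartIsoHom (heartBasis (ZMod 2) m) h2 rfl (heartBasis_gram h2) (heartBasis_col h2)
    (heart_e2_one m hm) _ (heart_e2_eq m),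
    heartIsoHom_injective _ h2 rfl hm2 _ _ _ _ _⟩

/-- transport of an embedding along an isometry. -/
theorem exists_hom_iso_transport {F : Type*} [Field F] {ι ι' : Type} [Fintype ι] [DecidableEq ι]
    [Fintype ι'] [DecidableEq ι'] (Q : (ι → F) → F) (Q' : (ι' → F) → F)
    (g : (ι → F) ≃ₗ[F] (ι' → F)) (hg : ∀ v, Q v = Q' (g v))
    {G : Type*} [Group G] (φ : G →* Cfsg.isometryGroup F Q) (hφ : Function.Injective φ) :
    ∃ ψ : G →* Cfsg.isometryGroup F Q', Function.Injective ψ := by
  let ρ : G →* Module.End F (ι → F) :=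
    (Matrix.toLinAlgEquiv' (R := F) (n := ι)).toMulEquiv.toMonoidHom.comp
      ((Units.coeHom _).comp ((Cfsg.isometryGroup F Q).subtype.comp φ))
  have hρ : ∀ x v, ρ x v = (φ x).1.1 *ᵥ v := fun x v => rfl
  refine exists_hom_iso_of_equiv Q Q' g.symm (fun v => by rw [hg, g.apply_symm_apply]) ρ ?_ ?_
  · intro x y hxy
    apply hφ
    apply Subtype.ext
    apply Units.ext
    exact (Matrix.toLinAlgEquiv' (R := F) (n := ι)).injective hxy
  · intro x v
    rw [hρ]
    exact (φ x).2 v v

end Cfsg.Agent.Lib.Helper18
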