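import Mathlib
import Cfsg.Agent.Lib.Helper18.Symp2
set_option autoImplicit false
set_option linter.unusedSimpArgs false
set_option linter.unusedSectionVars false

/-! Symplectic frames adapted to a totally isotropic subspace. -/

namespace Cfsg.Agent.Lib.Helper18

section symp

variable {F : Type*} [Field F] [Fintype F] {V : Type*} [AddCommGroup V] [Module F V] [Finite V]
variable (B : LinearMap.BilinForm F V)

/-- a totally isotropic subspace of `U` of size `q^k`. -/
def IsoGood (U W : Submodule F V) (k : ℕ) : Prop :=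
  W ≤ U ∧ Nat.card W = Fintype.card F ^ k ∧ ∀ u ∈ W, ∀ v ∈ W, B u v = 0

/-- symplectic frames of `U` whose first `k` first members lie in `W`. -/
def AFrame (U W : Submodule F V) (j k : ℕ) : Type _ :=
  {f : SympFrame B U j // ∀ i : Fin j, (i : ℕ) < k → (f.1 i).1 ∈ W}

instance aFrame_finite (U W : Submodule F V) (j k : ℕ) : Finite (AFrame B U W j k) := by
  unfold AFrame
  infer_instance

/-- generic rearrangement -/
def sigmaSubtypeEquiv' {α : Type*} {β : α → Type*} (Q₁ : α → Prop) (Q₂ : ∀ a, β a → Prop) :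
    {s : Σ a, β a // Q₁ s.1 ∧ Q₂ s.1 s.2} ≃ Σ a : {a // Q₁ a}, {b : β a.1 // Q₂ a.1 b} where
  toFun s := ⟨⟨s.1.1, s.2.1⟩, ⟨s.1.2, s.2.2⟩⟩
  invFun t := ⟨⟨t.1.1, t.2.1⟩, ⟨t.1.2, t.2.2⟩⟩
  left_inv := fun _ => rfl
  right_inv := fun _ => rfl

variable {B} (hB : B.IsAlt)
include hB

/-- peeling off the first hyperbolic pair. -/
def sympFrameSucc (U : Submodule F V) (k : ℕ) :
    SympFrame B U (k + 1) ≃ Σ p : {p : U × U // B p.1.1 p.2.1 = 1},
        SympFrame B (sympPerp B U p.1.1.1 p.1.2.1) k :=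
  { toFun := fun f => ⟨⟨(⟨(f.1 0).1, (f.2.1 0).1⟩, ⟨(f.1 0).2, (f.2.1 0).2⟩), by
        simpa using (f.2.2 0 0).2.2⟩,
      ⟨fun i => f.1 i.succ, fun i => ⟨⟨(f.2.1 _).1, (f.2.2 0 i.succ).1, by
          show B (f.1 0).2 (f.1 i.succ).1 = 0
          rw [symp_swap hB, (f.2.2 i.succ 0).2.2]
          simp [Fin.succ_ne_zero]⟩,
        ⟨(f.2.1 _).2, by
          have := (f.2.2 0 i.succ).2.2
          simpa [(Fin.succ_ne_zero i).symm] using this, (f.2.2 0 i.succ).2.1⟩⟩,
        fun i l => by simpa using f.2.2 i.succ l.succ⟩⟩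
    invFun := fun p => ⟨Fin.cons (p.1.1.1.1, p.1.1.2.1) p.2.1,
      sympFrame_cons_aux hB U k p.1.1.1.1 p.1.1.2.1 p.1.1.1.2 p.1.1.2.2 p.1.2 p.2.1
        p.2.2.1 p.2.2.2⟩
    left_inv := fun f => Subtype.ext (by
      funext i
      refine Fin.cases ?_ (fun i => ?_) i <;> simp)
    right_inv := fun p => rfl }

/-- peeling off the first hyperbolic pair of an adapted frame. -/
def aFrameSucc (U W : Submodule F V) (j k : ℕ) :
    AFrame B U W (j + 1) (k + 1) ≃ Σ p : {p : {p : U × U // B p.1.1 p.2.1 = 1} // p.1.1.1 ∈ W},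
      AFrame B (sympPerp B U p.1.1.1.1 p.1.1.2.1) (W ⊓ sympPerp B U p.1.1.1.1 p.1.1.2.1) j k :=
  ((sympFrameSucc hB U j).subtypeEquiv
    (p := fun f : SympFrame B U (j + 1) => ∀ i : Fin (j + 1), (i : ℕ) < k + 1 → (f.1 i).1 ∈ W)
    (q := fun s : (Σ p : {p : U × U // B p.1.1 p.2.1 = 1},
        SympFrame B (sympPerp B U p.1.1.1 p.1.2.1) j) => s.1.1.1.1 ∈ W ∧ ∀ i : Fin j, (i : ℕ) < k →
      (s.2.1 i).1 ∈ W ⊓ sympPerp B U s.1.1.1.1 s.1.1.2.1) (by
    intro f
    constructor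
    · intro h
      refine ⟨h 0 (Nat.succ_pos k), fun i hi => ⟨h i.succ (by simp; omega), ?_⟩⟩
      exact (((sympFrameSucc hB U j) f).2.2.1 i).1
    · rintro ⟨h0, h1⟩ i
      refine Fin.cases (fun _ => h0) (fun i hi => ?_) i
      exact (h1 i (by simp at hi; omega)).1)).trans
  (sigmaSubtypeEquiv' (fun p : {p : U × U // B p.1.1 p.2.1 = 1} => p.1.1.1 ∈ W)
    (fun p (f : SympFrame B (sympPerp B U p.1.1.1 p.1.2.1) j) => ∀ i : Fin j, (i : ℕ) < k →
      (f.1 i).1 ∈ W ⊓ sympPerp B U p.1.1.1 p.1.2.1))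

theorem isoGood_perp {U W : Submodule F V} {k : ℕ} (hW : IsoGood B U W (k + 1))
    (x y : V) (hx : x ∈ W) (_hy : y ∈ U) (hxy : B x y = 1) :
    IsoGood B (sympPerp B U x y) (W ⊓ sympPerp B U x y) k := by
  have hq : 0 < Fintype.card F := Fintype.card_pos
  have hyx : B y x = -1 := by rw [symp_swap hB, hxy]
  refine ⟨inf_le_right, ?_, fun u hu v hv => hW.2.2 u hu.1 v hv.1⟩
  let e : W ≃ F × (W ⊓ sympPerp B U x y : Submodule F V) :=
    { toFun := fun w => (B y w.1, ⟨w.1 + (B y w.1) • x, W.add_mem w.2 (W.smul_mem _ hx),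
        hW.1 (W.add_mem w.2 (W.smul_mem _ hx)), by
          show B x _ = 0
          rw [map_add, map_smul, hB x, hW.2.2 x hx w.1 w.2]; simp, by
          show B y _ = 0
          rw [map_add, map_smul, hyx]; simp⟩)
      invFun := fun p => ⟨p.2.1 - p.1 • x, W.sub_mem p.2.2.1 (W.smul_mem _ hx)⟩
      left_inv := fun w => by
        apply Subtype.ext
        simp
      right_inv := fun p => by
        have h2 : B y p.2.1 = 0 := p.2.2.2.2.2
        have h1 : B y (p.2.1 - p.1 • x) = p.1 := by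
          rw [map_sub, map_smul, hyx, h2]; simp
        refine Prod.ext h1 (Subtype.ext ?_)
        simp only [h1]
        simp }
  have h1 := Nat.card_congr e
  rw [hW.2.1, Nat.card_prod, Nat.card_eq_fintype_card (α := F), pow_succ, mul_comm] at h1
  exact (Nat.eq_of_mul_eq_mul_left hq h1).symm

omit hB in
theorem iso_card_pairs {U W : Submodule F V} {j k : ℕ} (hU : SympGood B U (j + 1))
    (hW : IsoGood B U W k) :
    Nat.card {p : {p : U × U // B p.1.1 p.2.1 = 1} // p.1.1.1 ∈ W}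
      = (Fintype.card F ^ k - 1) * Fintype.card F ^ (2 * j + 1) := by
  classical
  have hq : 0 < Fintype.card F := Fintype.card_pos
  let e : {p : {p : U × U // B p.1.1 p.2.1 = 1} // p.1.1.1 ∈ W} ≃
      Σ x : {x : W // x ≠ 0}, {y : U // B x.1.1 y.1 = 1} :=
    { toFun := fun p => ⟨⟨⟨p.1.1.1.1, p.2⟩, fun h => by
        have := p.1.2
        have h' : p.1.1.1.1 = 0 := congrArg Subtype.val h
        rw [h'] at this
        simp at this⟩, ⟨p.1.1.2, p.1.2⟩⟩
      invFun := fun p => ⟨⟨(⟨p.1.1.1, hW.1 p.1.1.2⟩, p.2.1), p.2.2⟩, p.1.1.2⟩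
      left_inv := fun p => rfl
      right_inv := fun p => rfl }
  have := Fintype.ofFinite {x : W // x ≠ 0}
  rw [Nat.card_congr e, Nat.card_sigma]
  have h1 : ∀ x : {x : W // x ≠ 0}, Nat.card {y : U // B x.1.1 y.1 = 1}
      = Fintype.card F ^ (2 * j + 1) := by
    intro x
    have hx0 : x.1.1 ≠ 0 := fun h => x.2 (Subtype.ext h)
    obtain ⟨y, hy, hne⟩ := hU.2 x.1.1 (hW.1 x.1.2) hx0
    have := card_fiber_linear ((B x.1.1).domRestrict U) ⟨⟨y, hy⟩, hne⟩ 1
    rw [hU.1] at this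
    have h2 : Fintype.card F ^ (2 * (j + 1)) = Fintype.card F * Fintype.card F ^ (2 * j + 1) := by
      ring
    rw [h2] at this
    exact Nat.eq_of_mul_eq_mul_left hq this
  simp_rw [h1]
  rw [Finset.sum_const, Finset.card_univ, smul_eq_mul, ← Nat.card_eq_fintype_card]
  congr 1
  have h3 : Nat.card {x : W // x ≠ 0} = Nat.card W - 1 := by
    have := Fintype.ofFinite W
    rw [Nat.card_eq_fintype_card, Nat.card_eq_fintype_card, Fintype.card_subtype_compl]
    simp
  rw [h3, hW.2.1]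

theorem aFrame_card (r : ℕ) {U W : Submodule F V} {k : ℕ} (hU : SympGood B U (r + k))
    (hW : IsoGood B U W k) :
    Nat.card (AFrame B U W (r + k) k) =
      (∏ i ∈ Finset.range k, ((Fintype.card F ^ (i + 1) - 1) * Fintype.card F ^ (2 * (r + i) + 1))) *
      ∏ i ∈ Finset.range r, ((Fintype.card F ^ (2 * (i + 1)) - 1) * Fintype.card F ^ (2 * i + 1)) := by
  induction k generalizing U W with
  | zero =>
    rw [Finset.prod_range_zero, one_mul, ← sympFrame_card hB (k := r) hU]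
    exact Nat.card_congr (Equiv.subtypeUnivEquiv fun f i hi => absurd hi (Nat.not_lt_zero _))
  | succ k ih =>
    have := Fintype.ofFinite {p : {p : U × U // B p.1.1 p.2.1 = 1} // p.1.1.1 ∈ W}
    rw [show r + (k + 1) = (r + k) + 1 from rfl, Nat.card_congr (aFrameSucc hB U W (r + k) k),
      Nat.card_sigma]
    have h1 : ∀ p : {p : {p : U × U // B p.1.1 p.2.1 = 1} // p.1.1.1 ∈ W},
        Nat.card (AFrame B (sympPerp B U p.1.1.1.1 p.1.1.2.1)
          (W ⊓ sympPerp B U p.1.1.1.1 p.1.1.2.1) (r + k) k) = _ :=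
      fun p => ih (sympGood_perp hB hU p.1.1.1.1 p.1.1.2.1 p.1.1.1.2 p.1.1.2.2 p.1.2)
        (isoGood_perp hB hW p.1.1.1.1 p.1.1.2.1 p.2 p.1.1.2.2 p.1.2)
    simp_rw [h1]
    rw [Finset.sum_const, Finset.card_univ, ← Nat.card_eq_fintype_card, iso_card_pairs (j := r + k) hU hW,
      Finset.prod_range_succ, smul_eq_mul]
    ring

end symp

end Cfsg.Agent.Lib.Helper18
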