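import Mathlib
import Cfsg.Prelude.Def_ClassicalGeometry
import Cfsg.Agent.Lib.Helper18.SpIso
import Cfsg.Agent.Lib.Helper18.Parabolic3
set_option autoImplicit false
set_option linter.unusedSimpArgs false
set_option linter.unusedSectionVars false

/-! Order of the stabiliser of a totally isotropic subspace in `Sp`. -/

namespace Cfsg.Agent.Lib.Helper18

open Matrix

variable {F : Type*} [Field F] [Fintype F] {m : ℕ}

/-- symplectic matrices are symplectic frames. -/
def spFrameEquiv (m : ℕ) (F : Type*) [Field F] [Fintype F] : Matrix.symplecticGroup (Fin m) F ≃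
    SympFrame (sympB m F) (⊤ : Submodule F (Fin m ⊕ Fin m → F)) m := by
  let e : Matrix (Fin m ⊕ Fin m) (Fin m ⊕ Fin m) F
      ≃ (Fin m → (Fin m ⊕ Fin m → F) × (Fin m ⊕ Fin m → F)) :=
    { toFun := fun A i => (fun k => A k (Sum.inr i), fun k => A k (Sum.inl i))
      invFun := fun f => Matrix.of (fun k j => Sum.elim (fun i => (f i).2 k) (fun i => (f i).1 k) j)
      left_inv := fun A => by
        ext k (j | j) <;> rfl
      right_inv := fun f => rfl }
  refine e.subtypeEquiv (fun A => ?_)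
  show A ∈ symplecticGroup (Fin m) F ↔
    (∀ i : Fin m, (fun k => A k (Sum.inr i)) ∈ (⊤ : Submodule F (Fin m ⊕ Fin m → F)) ∧
      (fun k => A k (Sum.inl i)) ∈ (⊤ : Submodule F (Fin m ⊕ Fin m → F))) ∧
    ∀ i l : Fin m, sympB m F (fun k => A k (Sum.inr i)) (fun k => A k (Sum.inr l)) = 0 ∧
      sympB m F (fun k => A k (Sum.inl i)) (fun k => A k (Sum.inl l)) = 0 ∧
      sympB m F (fun k => A k (Sum.inr i)) (fun k => A k (Sum.inl l)) = if i = l then 1 else 0
  rw [SymplecticGroup.mem_iff']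
  constructor
  · intro h
    refine ⟨fun i => ⟨Submodule.mem_top, Submodule.mem_top⟩, fun i l => ⟨?_, ?_, ?_⟩⟩
    · have := congrFun (congrFun h (Sum.inr i)) (Sum.inr l)
      rw [sympB_col] at this
      simpa [Matrix.J] using this
    · have := congrFun (congrFun h (Sum.inl i)) (Sum.inl l)
      rw [sympB_col] at this
      simpa [Matrix.J] using this
    · have := congrFun (congrFun h (Sum.inr i)) (Sum.inl l)
      rw [sympB_col] at this
      simpa [Matrix.J, Matrix.one_apply] using this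
  · intro h
    ext (i | i) (l | l)
    · rw [sympB_col]
      simpa [Matrix.J] using (h.2 i l).2.1
    · rw [sympB_col, symp_swap sympB_isAlt]
      have := (h.2 l i).2.2
      simp only [Matrix.J, Matrix.fromBlocks_apply₁₂, Matrix.neg_apply, Matrix.one_apply]
      rw [show (sympB m F (fun k => A k (Sum.inr l)) (fun k => A k (Sum.inl i)))
        = if l = i then 1 else 0 from this]
      simp only [eq_comm]
    · rw [sympB_col]
      simpa [Matrix.J, Matrix.one_apply] using (h.2 i l).2.2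
    · rw [sympB_col]
      simpa [Matrix.J] using (h.2 i l).1

lemma spFrameEquiv_apply (g : Matrix.symplecticGroup (Fin m) F) (i : Fin m) :
    ((spFrameEquiv m F g).1 i).1 = fun k => g.1 k (Sum.inr i) := rfl

/-- the standard totally isotropic subspace. -/
def stdIso (F : Type*) [Field F] (m k : ℕ) : Set (Fin m ⊕ Fin m → F) :=
  {v | (∀ i, v (Sum.inl i) = 0) ∧ ∀ i : Fin m, k ≤ (i : ℕ) → v (Sum.inr i) = 0}

lemma card_stdIso {k : ℕ} (hk : k ≤ m) : Nat.card (stdIso F m k) = Fintype.card F ^ k := by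
  classical
  let e : stdIso F m k ≃ (Fin k → F) :=
    { toFun := fun v i => v.1 (Sum.inr (Fin.castLE hk i))
      invFun := fun c => ⟨fun x => Sum.elim (fun _ => 0)
        (fun i : Fin m => if h : (i : ℕ) < k then c ⟨i, h⟩ else 0) x, fun i => rfl, fun i hi => by
          show (if h : (i : ℕ) < k then c ⟨i, h⟩ else 0) = 0
          rw [dif_neg (by omega)]⟩
      left_inv := by
        rintro ⟨v, hv1, hv2⟩
        apply Subtype.ext
        funext x
        rcases x with i | i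
        · exact (hv1 i).symm
        · show (if h : (i : ℕ) < k then v (Sum.inr (Fin.castLE hk ⟨i, h⟩)) else 0) = v (Sum.inr i)
          by_cases h : (i : ℕ) < k
          · rw [dif_pos h]; rfl
          · rw [dif_neg h, hv2 i (by omega)]
      right_inv := by
        intro c
        funext i
        show (if h : ((Fin.castLE hk i : Fin m) : ℕ) < k then c ⟨(Fin.castLE hk i : Fin m), h⟩ else 0) = c i
        rw [dif_pos (by simp)]
        rfl }
  rw [Nat.card_congr e, Nat.card_fun, Nat.card_eq_fintype_card, Nat.card_eq_fintype_card,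
    Fintype.card_fin]

lemma mulVec_mem_of_stdIso {k : ℕ} (W : Submodule F (Fin m ⊕ Fin m → F))
    (M : Matrix (Fin m ⊕ Fin m) (Fin m ⊕ Fin m) F)
    (hM : ∀ i : Fin m, (i : ℕ) < k → (fun x => M x (Sum.inr i)) ∈ W)
    (v : Fin m ⊕ Fin m → F) (hv : v ∈ stdIso F m k) : M *ᵥ v ∈ W := by
  have h1 : M *ᵥ v = ∑ x, v x • (fun y => M y x) := by
    funext y
    simp [Matrix.mulVec, dotProduct, Finset.sum_apply, mul_comm]
  rw [h1]
  refine W.sum_mem fun x _ => ?_
  rcases x with i | i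
  · rw [hv.1 i, zero_smul]; exact W.zero_mem
  · by_cases h : (i : ℕ) < k
    · exact W.smul_mem _ (hM i h)
    · rw [hv.2 i (by omega), zero_smul]; exact W.zero_mem

lemma exists_stdIso_of_mem {k : ℕ} (hk : k ≤ m) (W : Submodule F (Fin m ⊕ Fin m → F))
    (hWk : Nat.card W = Fintype.card F ^ k)
    (M : Matrix (Fin m ⊕ Fin m) (Fin m ⊕ Fin m) F) (hdet : M.det ≠ 0)
    (hM : ∀ i : Fin m, (i : ℕ) < k → (fun x => M x (Sum.inr i)) ∈ W)
    (w : Fin m ⊕ Fin m → F) (hw : w ∈ W) : ∃ v ∈ stdIso F m k, M *ᵥ v = w := by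
  let f : stdIso F m k → W := fun v => ⟨M *ᵥ v.1, mulVec_mem_of_stdIso W M hM v.1 v.2⟩
  have hinj : Function.Injective f := by
    intro a b hab
    have h1 : M *ᵥ a.1 = M *ᵥ b.1 := congrArg Subtype.val hab
    have h2 : M *ᵥ (a.1 - b.1) = 0 := by rw [Matrix.mulVec_sub, h1, sub_self]
    exact Subtype.ext (sub_eq_zero.1 (mulVec_eq_zero_of_det_ne_zero M hdet h2))
  have hbij : Function.Bijective f := by
    rw [Nat.bijective_iff_injective_and_card]
    exact ⟨hinj, by rw [card_stdIso hk, hWk]⟩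
  obtain ⟨v, hv⟩ := hbij.2 ⟨w, hw⟩
  exact ⟨v.1, v.2, congrArg Subtype.val hv⟩

theorem card_sp_stab_iso_aux (r k : ℕ) (W : Submodule F (Fin (r + k) ⊕ Fin (r + k) → F))
    (hWk : Module.finrank F W = k)
    (hW : ∀ u ∈ W, ∀ v ∈ W, Cfsg.sympForm (r + k) F u v = 0) :
    Nat.card ↥(Cfsg.stabilizing (Cfsg.spToMat (r + k) F) (W : Set (Fin (r + k) ⊕ Fin (r + k) → F))) =
      (∏ i ∈ Finset.range k, ((Fintype.card F ^ (i + 1) - 1) * Fintype.card F ^ (2 * (r + i) + 1))) *
      ∏ i ∈ Finset.range r, ((Fintype.card F ^ (2 * (i + 1)) - 1) * Fintype.card F ^ (2 * i + 1)) := by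
  classical
  have hq : 1 < Fintype.card F := Fintype.one_lt_card
  have hWc : Nat.card W = Fintype.card F ^ k := by
    rw [Module.natCard_eq_pow_finrank (K := F), hWk, Nat.card_eq_fintype_card]
  have hgood : IsoGood (sympB (r + k) F) ⊤ W k :=
    ⟨le_top, hWc, fun u hu v hv => by rw [sympB_apply]; exact hW u hu v hv⟩
  have hcard := aFrame_card sympB_isAlt r sympGood_top hgood
  let S := {g : Matrix.symplecticGroup (Fin (r + k)) F //
    ∀ i : Fin (r + k), (i : ℕ) < k → (fun x => g.1 x (Sum.inr i)) ∈ W}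
  have hS : Nat.card S = Nat.card (AFrame (sympB (r + k) F) ⊤ W (r + k) k) :=
    Nat.card_congr ((spFrameEquiv (r + k) F).subtypeEquiv fun g => Iff.rfl)
  have hpos : 0 < Nat.card S := by
    rw [hS, hcard]
    refine Nat.mul_pos (Finset.prod_pos fun i _ => Nat.mul_pos ?_ (by positivity))
      (Finset.prod_pos fun i _ => Nat.mul_pos ?_ (by positivity))
    · have : 1 < Fintype.card F ^ (i + 1) := Nat.one_lt_pow (by omega) hq
      omega
    · have : 1 < Fintype.card F ^ (2 * (i + 1)) := Nat.one_lt_pow (by omega) hq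
      omega
  obtain ⟨⟨g₀, hg₀⟩⟩ := (Finite.card_pos_iff.mp hpos)
  rw [← hcard, ← hS]
  refine Nat.card_congr (Equiv.ofBijective (fun h => ⟨h.1 * g₀, fun i hi => ?_⟩) ⟨?_, ?_⟩)
  · have h1 : (fun x => (h.1 * g₀).1 x (Sum.inr i)) = h.1.1 *ᵥ (fun x => g₀.1 x (Sum.inr i)) := by
      funext x
      rfl
    rw [h1]
    exact (h.2 _).1 (hg₀ i hi)
  · intro a b hab
    have h1 : a.1 * g₀ = b.1 * g₀ := congrArg Subtype.val hab
    exact Subtype.ext (mul_right_cancel h1)
  · rintro ⟨g, hg⟩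
    refine ⟨⟨g * g₀⁻¹, ?_⟩, Subtype.ext (by simp)⟩
    refine mem_iff_mulVec_mem_of_finite (g * g₀⁻¹).1 (sp_det_ne_zero' (g * g₀⁻¹)) _ ?_
    intro w hw
    obtain ⟨v, hv, rfl⟩ := exists_stdIso_of_mem (Nat.le_add_left k r) W hWc g₀.1 (sp_det_ne_zero' g₀)
      hg₀ w hw
    have h2 : (g * g₀⁻¹).1 *ᵥ (g₀.1 *ᵥ v) = g.1 *ᵥ v := by
      rw [Matrix.mulVec_mulVec]
      have : (g * g₀⁻¹).1 * g₀.1 = (g * g₀⁻¹ * g₀).1 := rfl
      rw [this, inv_mul_cancel_right]
    show (g * g₀⁻¹).1 *ᵥ (g₀.1 *ᵥ v) ∈ W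
    rw [h2]
    exact mulVec_mem_of_stdIso W g.1 hg v hv

end Cfsg.Agent.Lib.Helper18
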