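import Mathlib
import Cfsg.Agent.Lib.Helper18.SpPerfect
import Cfsg.Agent.Lib.Helper29.SpTransv

set_option linter.unusedSimpArgs false
set_option linter.unusedSectionVars false

/-! Iwasawa's argument for the symplectic groups -/

namespace Cfsg.Agent.Lib.Helper18

open Matrix Cfsg Cfsg.Agent.H5Symp

section sp

variable {F : Type*} [Field F] {m : ℕ}

local notation "B" => sympForm m F

/-- the root subgroup of `v` -/
def tvHom (v : Fin m ⊕ Fin m → F) : Multiplicative F →* symplecticGroup (Fin m) F where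
  toFun c := tv v (Multiplicative.toAdd c)
  map_one' := tv_zero_right v
  map_mul' _ _ := (tv_mul_tv v _ _).symm

theorem tv_smul_left (v : Fin m ⊕ Fin m → F) (a c : F) : tv (a • v) c = tv v (c * a ^ 2) := by
  apply sp_ext
  intro x
  rw [tv_coe_mulVec, tv_coe_mulVec, form_smul_right, smul_smul]
  congr 2
  ring

theorem mem_center_of_scalar (g : symplecticGroup (Fin m) F) (a : F)
    (ha : ∀ x, (g : Matrix (Fin m ⊕ Fin m) (Fin m ⊕ Fin m) F) *ᵥ x = a • x) :
    g ∈ Subgroup.center (symplecticGroup (Fin m) F) := by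
  rw [Subgroup.mem_center_iff]
  intro h
  apply sp_ext
  intro x
  rw [sp_coe_mul_mulVec, sp_coe_mul_mulVec, ha, ha, mulVec_smul]

/-- a non-central normal subgroup contains an element moving some vector non-orthogonally -/
theorem exists_form_ne_zero_of_not_le_center (N : Subgroup (symplecticGroup (Fin m) F)) [N.Normal]
    (hN : ¬ N ≤ Subgroup.center (symplecticGroup (Fin m) F)) :
    ∃ n ∈ N, ∃ v, B v ((n : Matrix (Fin m ⊕ Fin m) (Fin m ⊕ Fin m) F) *ᵥ v) ≠ 0 := by
  obtain ⟨g, hg, hgc⟩ := SetLike.not_le_iff_exists.1 hN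
  obtain ⟨u, hu⟩ : ∃ u, LinearIndependent F
      ![u, (g : Matrix (Fin m ⊕ Fin m) (Fin m ⊕ Fin m) F).mulVecLin u] := by
    by_contra hcon
    push Not at hcon
    obtain ⟨a, ha⟩ := LinearMap.exists_eq_smul_id_of_forall_notLinearIndependent hcon
    apply hgc
    apply mem_center_of_scalar g a
    intro x
    have := congrArg (fun f : (Fin m ⊕ Fin m → F) →ₗ[F] (Fin m ⊕ Fin m → F) => f x) ha
    simpa using this
  rw [LinearIndependent.pair_iff, Matrix.mulVecLin_apply] at hu
  have hnot : (g : Matrix (Fin m ⊕ Fin m) (Fin m ⊕ Fin m) F) *ᵥ u ∉ Submodule.span F {u} := by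
    intro hmem
    obtain ⟨l, hl⟩ := Submodule.mem_span_singleton.1 hmem
    have := hu l (-1) (by rw [hl, neg_smul, one_smul, add_neg_cancel])
    exact one_ne_zero (neg_eq_zero.1 this.2)
  obtain ⟨x, hx1, hx2⟩ := Cfsg.Agent.Lib.Helper29.exists_perp_form_eq_one _ hnot
  have hux : B u x = 0 := hx1 u (Submodule.mem_span_singleton_self u)
  have hxu : B x u = 0 := by rw [form_swap, hux, neg_zero]
  have hxg : B x ((g : Matrix (Fin m ⊕ Fin m) (Fin m ⊕ Fin m) F) *ᵥ u) = -1 := by
    rw [form_swap, hx2]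
  refine ⟨g * tv u 1 * g⁻¹ * (tv u 1)⁻¹, ?_, x, ?_⟩
  · have h1 : tv u 1 * g⁻¹ * (tv u 1)⁻¹ ∈ N :=
      Subgroup.Normal.conj_mem inferInstance _ (N.inv_mem hg) _
    have := N.mul_mem hg h1
    simpa only [mul_assoc] using this
  · rw [sp_conj_tv, tv_inv, sp_coe_mul_mulVec, tv_coe_mulVec, tv_coe_mulVec]
    simp only [hxu, mul_zero, zero_smul, add_zero, hxg, form_add_right, form_smul_right, form_self]
    simp

theorem exists_both {v z : Fin m ⊕ Fin m → F} (hv : v ≠ 0) (hz : z ≠ 0) :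
    ∃ y, B v y ≠ 0 ∧ B z y ≠ 0 := by
  obtain ⟨y₁, _, h₁⟩ := nondeg_top v trivial hv
  obtain ⟨y₂, _, h₂⟩ := nondeg_top z trivial hz
  by_cases h3 : B z y₁ = 0
  · by_cases h4 : B v y₂ = 0
    · refine ⟨y₁ + y₂, ?_, ?_⟩
      · rwa [form_add_right, h4, add_zero]
      · rwa [form_add_right, h3, zero_add]
    · exact ⟨y₂, h4, h₂⟩
  · exact ⟨y₁, h₁, h3⟩

/-- Iwasawa: a non-central normal subgroup contains the commutator subgroup -/
theorem commutator_le_of_not_le_center (N : Subgroup (symplecticGroup (Fin m) F)) [hNn : N.Normal]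
    (hN : ¬ N ≤ Subgroup.center (symplecticGroup (Fin m) F)) :
    commutator (symplecticGroup (Fin m) F) ≤ N := by
  obtain ⟨n₀, hn₀, v, hβ⟩ := exists_form_ne_zero_of_not_le_center N hN
  have hv : v ≠ 0 := by
    rintro rfl
    exact hβ (form_zero_left _)
  apply hNn.commutator_le_of_self_sup_commutative_eq_top (H := (tvHom v).range) ?_ inferInstance
  obtain ⟨M, hM⟩ : ∃ M, M = N ⊔ (tvHom v).range := ⟨_, rfl⟩
  rw [← hM]
  have hNM : N ≤ M := hM ▸ le_sup_left
  have hvM : ∀ c, tv v c ∈ M := by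
    intro c
    have : tv v c ∈ (tvHom v).range := ⟨Multiplicative.ofAdd c, rfl⟩
    exact hM ▸ (Subgroup.mem_sup_right this)
  have hsmul : ∀ (z : Fin m ⊕ Fin m → F) (l : F), l ≠ 0 → (∀ c, tv (l • z) c ∈ M) →
      ∀ c, tv z c ∈ M := by
    intro z l hl h c
    have := h (c / l ^ 2)
    rw [tv_smul_left] at this
    have e : c / l ^ 2 * l ^ 2 = c := by field_simp
    rwa [e] at this
  have hb : ∀ w, B v w ≠ 0 → ∀ c, tv w c ∈ M := by
    intro w hw
    obtain ⟨h, _, hh1, hh2⟩ := step2 (W := ⊤) (u := v)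
      (v := (B v ((n₀ : Matrix (Fin m ⊕ Fin m) (Fin m ⊕ Fin m) F) *ᵥ v))⁻¹ •
        ((n₀ : Matrix (Fin m ⊕ Fin m) (Fin m ⊕ Fin m) F) *ᵥ v))
      (v' := (B v w)⁻¹ • w) trivial trivial trivial
      (by rw [form_smul_right, inv_mul_cancel₀ hβ]) (by rw [form_smul_right, inv_mul_cancel₀ hw])
    have hh3 : ((h⁻¹ : symplecticGroup (Fin m) F) : Matrix (Fin m ⊕ Fin m) (Fin m ⊕ Fin m) F) *ᵥ v
        = v := by
      conv_lhs => rw [← hh1]
      exact sp_inv_mulVec h v
    rw [mulVec_smul] at hh2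
    have hh4 : ((h * n₀ * h⁻¹ : symplecticGroup (Fin m) F) :
        Matrix (Fin m ⊕ Fin m) (Fin m ⊕ Fin m) F) *ᵥ v
        = (B v ((n₀ : Matrix (Fin m ⊕ Fin m) (Fin m ⊕ Fin m) F) *ᵥ v) * (B v w)⁻¹) • w := by
      rw [sp_coe_mul_mulVec, sp_coe_mul_mulVec, hh3, mul_smul, ← hh2, smul_smul,
        mul_inv_cancel₀ hβ, one_smul]
    apply hsmul w _ (mul_ne_zero hβ (inv_ne_zero hw))
    intro c
    rw [← hh4, ← sp_conj_tv]
    have hn : h * n₀ * h⁻¹ ∈ M := hNM (hNn.conj_mem _ hn₀ _)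
    exact M.mul_mem (M.mul_mem hn (hvM c)) (M.inv_mem hn)
  have hadd : ∀ x y, (∀ c, tv x c ∈ M) → (∀ c, tv y c ∈ M) → B x y ≠ 0 →
      ∀ c, tv (x + y) c ∈ M := by
    intro x y hx hy hxy c
    have h1 : ((tv y (B x y)⁻¹ : symplecticGroup (Fin m) F) :
        Matrix (Fin m ⊕ Fin m) (Fin m ⊕ Fin m) F) *ᵥ x = x + y := by
      rw [tv_coe_mulVec, inv_mul_cancel₀ hxy, one_smul]
    rw [← h1, ← sp_conj_tv]
    exact M.mul_mem (M.mul_mem (hy _) (hx c)) (M.inv_mem (hy _))
  have hall : ∀ z c, tv z c ∈ M := by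
    intro z
    by_cases hz : z = 0
    · intro c
      rw [hz, tv_zero_left]
      exact M.one_mem
    by_cases hvz : B v z = 0
    · obtain ⟨y, hy1, hy2⟩ := exists_both hv hz
      have h1 := hadd (z - y) y (hb _ (by rw [form_sub_right, hvz, zero_sub]; exact neg_ne_zero.2 hy1))
        (hb _ hy1) (by rw [form_sub_left, form_self, sub_zero]; exact hy2)
      rwa [sub_add_cancel] at h1
    · exact hb z hvz
  rw [eq_top_iff, ← Cfsg.Agent.S0765.result, Subgroup.closure_le]
  rintro A ⟨w, c, hA⟩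
  have hA' : A = tv w c := Subtype.ext hA
  rw [hA']
  exact hall w c

theorem psp_simple_of_perfect (hm : 1 ≤ m)
    (hperf : commutator (symplecticGroup (Fin m) F) = ⊤) :
    IsSimpleGroup (symplecticGroup (Fin m) F ⧸ Subgroup.center (symplecticGroup (Fin m) F)) := by
  have hnt : Nontrivial (symplecticGroup (Fin m) F ⧸
      Subgroup.center (symplecticGroup (Fin m) F)) := by
    rw [QuotientGroup.nontrivial_iff]
    intro htop
    have h1 := (commutator_eq_bot_iff_center_eq_top _).2 htop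
    rw [hperf] at h1
    have he : (Pi.single (Sum.inl ⟨0, hm⟩) 1 : Fin m ⊕ Fin m → F) ≠ 0 := by
      intro h
      have := congrFun h (Sum.inl ⟨0, hm⟩)
      simp at this
    have h2 : tv (Pi.single (Sum.inl ⟨0, hm⟩) 1) (1 : F) ∈
        (⊤ : Subgroup (symplecticGroup (Fin m) F)) := trivial
    rw [h1, Subgroup.mem_bot] at h2
    have h3 := rank_tv_sub_one he (one_ne_zero (α := F))
    rw [h2] at h3
    simp at h3
  refine ⟨fun H hH => ?_⟩
  by_cases hle : H.comap (QuotientGroup.mk' _) ≤ Subgroup.center (symplecticGroup (Fin m) F)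
  · left
    rw [Subgroup.eq_bot_iff_forall]
    intro x hx
    induction x using QuotientGroup.induction_on with | _ g => ?_
    exact (QuotientGroup.eq_one_iff g).2 (hle hx)
  · right
    have h1 := commutator_le_of_not_le_center (H.comap (QuotientGroup.mk' _)) hle
    rw [hperf, top_le_iff] at h1
    rw [eq_top_iff]
    intro x _
    induction x using QuotientGroup.induction_on with | _ g => ?_
    have : g ∈ H.comap (QuotientGroup.mk' (Subgroup.center (symplecticGroup (Fin m) F))) := by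
      rw [h1]
      trivial
    exact this

end sp

end Cfsg.Agent.Lib.Helper18
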