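import Mathlib
import Cfsg.Prelude.Def_LieClassical
import Cfsg.Prelude.Def_ClassicalGeometry
import Cfsg.Agent.Lib.Helper18.Parabolic2
set_option autoImplicit false

/-! The stabiliser of a nondegenerate subspace in a classical group is a direct product. -/

namespace Cfsg.Agent.Lib.Helper18

open Matrix

variable {F : Type*} [Field F]
variable {ι ι₁ ι₂ : Type} [Fintype ι] [DecidableEq ι] [Fintype ι₁] [DecidableEq ι₁]
  [Fintype ι₂] [DecidableEq ι₂]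

/-- `toMat` identifies `H` with the invertible matrices preserving `β`. -/
def IsFormGroup {H : Type*} [Group H] (toMat : H →* Matrix ι ι F)
    (β : (ι → F) → (ι → F) → F) : Prop :=
  Function.Injective toMat ∧ ∀ M : Matrix ι ι F, (∃ h, toMat h = M) ↔
    (M.det ≠ 0 ∧ ∀ u v, β (M *ᵥ u) (M *ᵥ v) = β u v)

lemma mat_ext_mulVec {κ : Type*} [Fintype κ] [DecidableEq κ] {M N : Matrix κ κ F}
    (h : ∀ v, M *ᵥ v = N *ᵥ v) : M = N :=
  Matrix.toLin'.injective (LinearMap.ext h)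

lemma det_ne_zero_of_mulVec {κ : Type*} [Fintype κ] [DecidableEq κ] {M : Matrix κ κ F}
    (h : ∀ v, M *ᵥ v = 0 → v = 0) : M.det ≠ 0 := by
  intro h0
  obtain ⟨v, hv, hv0⟩ := Matrix.exists_mulVec_eq_zero_iff.2 h0
  exact hv (h v hv0)

/-- block-diagonal matrix with respect to the decomposition `e`. -/
noncomputable def prodMat (e : ((ι₁ → F) × (ι₂ → F)) ≃ₗ[F] (ι → F)) (A : Matrix ι₁ ι₁ F)
    (D : Matrix ι₂ ι₂ F) : Matrix ι ι F :=
  LinearMap.toMatrix' (e.toLinearMap ∘ₗ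
    (LinearMap.prodMap (Matrix.toLin' A) (Matrix.toLin' D)) ∘ₗ e.symm.toLinearMap)

lemma prodMat_mulVec (e : ((ι₁ → F) × (ι₂ → F)) ≃ₗ[F] (ι → F)) (A : Matrix ι₁ ι₁ F)
    (D : Matrix ι₂ ι₂ F) (v : ι → F) :
    prodMat e A D *ᵥ v = e (A *ᵥ (e.symm v).1, D *ᵥ (e.symm v).2) := by
  unfold prodMat
  rw [LinearMap.toMatrix'_mulVec]
  rfl

lemma prodMat_mul (e : ((ι₁ → F) × (ι₂ → F)) ≃ₗ[F] (ι → F)) (A A' : Matrix ι₁ ι₁ F)
    (D D' : Matrix ι₂ ι₂ F) :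
    prodMat e (A * A') (D * D') = prodMat e A D * prodMat e A' D' := by
  apply mat_ext_mulVec
  intro v
  rw [← Matrix.mulVec_mulVec, prodMat_mulVec, prodMat_mulVec, prodMat_mulVec,
    LinearEquiv.symm_apply_apply, Matrix.mulVec_mulVec, Matrix.mulVec_mulVec]

theorem stab_equiv_prod {H H₁ H₂ : Type*} [Group H] [Group H₁] [Group H₂]
    {toMat : H →* Matrix ι ι F} {toMat₁ : H₁ →* Matrix ι₁ ι₁ F} {toMat₂ : H₂ →* Matrix ι₂ ι₂ F}
    {β : (ι → F) → (ι → F) → F} {β₁ : (ι₁ → F) → (ι₁ → F) → F} {β₂ : (ι₂ → F) → (ι₂ → F) → F}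
    (hH : IsFormGroup toMat β) (h₁ : IsFormGroup toMat₁ β₁) (h₂ : IsFormGroup toMat₂ β₂)
    (e : ((ι₁ → F) × (ι₂ → F)) ≃ₗ[F] (ι → F))
    (he : ∀ x y, β (e x) (e y) = β₁ x.1 y.1 + β₂ x.2 y.2)
    (W : Set (ι → F)) (hW : ∀ v, v ∈ W ↔ (e.symm v).2 = 0)
    (h0 : ∀ y, β₂ 0 y = 0) (h0' : ∀ x, β₁ x 0 = 0) (hnd : ∀ y, (∀ x, β₁ x y = 0) → y = 0) :
    Nonempty (↥(Cfsg.stabilizing toMat W) ≃* H₁ × H₂) := by
  classical
  have p₁ : ∀ a : H₁, (toMat₁ a).det ≠ 0 ∧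
      ∀ u v, β₁ (toMat₁ a *ᵥ u) (toMat₁ a *ᵥ v) = β₁ u v := fun a => (h₁.2 _).1 ⟨a, rfl⟩
  have p₂ : ∀ a : H₂, (toMat₂ a).det ≠ 0 ∧
      ∀ u v, β₂ (toMat₂ a *ᵥ u) (toMat₂ a *ᵥ v) = β₂ u v := fun a => (h₂.2 _).1 ⟨a, rfl⟩
  have pH : ∀ a : H, (toMat a).det ≠ 0 ∧
      ∀ u v, β (toMat a *ᵥ u) (toMat a *ᵥ v) = β u v := fun a => (hH.2 _).1 ⟨a, rfl⟩
  have hgood : ∀ (A : Matrix ι₁ ι₁ F) (D : Matrix ι₂ ι₂ F),
      (A.det ≠ 0 ∧ ∀ u v, β₁ (A *ᵥ u) (A *ᵥ v) = β₁ u v) →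
      (D.det ≠ 0 ∧ ∀ u v, β₂ (D *ᵥ u) (D *ᵥ v) = β₂ u v) →
      ((prodMat e A D).det ≠ 0 ∧ ∀ u v, β (prodMat e A D *ᵥ u) (prodMat e A D *ᵥ v) = β u v) := by
    rintro A D ⟨hA1, hA2⟩ ⟨hD1, hD2⟩
    refine ⟨det_ne_zero_of_mulVec fun v hv => ?_, fun u v => ?_⟩
    · rw [prodMat_mulVec, LinearEquiv.map_eq_zero_iff, Prod.mk_eq_zero] at hv
      have h1 := mulVec_eq_zero_of_det_ne_zero A hA1 hv.1
      have h2 := mulVec_eq_zero_of_det_ne_zero D hD1 hv.2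
      have : e.symm v = 0 := Prod.ext h1 h2
      exact (LinearEquiv.map_eq_zero_iff _).1 this
    · rw [prodMat_mulVec, prodMat_mulVec, he, hA2, hD2, ← he, LinearEquiv.apply_symm_apply,
        LinearEquiv.apply_symm_apply]
  choose lift hlift using fun (x : H₁ × H₂) =>
    (hH.2 (prodMat e (toMat₁ x.1) (toMat₂ x.2))).2 (hgood _ _ (p₁ x.1) (p₂ x.2))
  let Ψ : H₁ × H₂ →* H := MonoidHom.mk' lift (fun x y => hH.1 (by
    rw [map_mul, hlift, hlift, hlift, Prod.fst_mul, Prod.snd_mul, map_mul, map_mul, prodMat_mul]))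
  have hΨmem : ∀ x, Ψ x ∈ Cfsg.stabilizing toMat W := by
    intro x v
    show v ∈ W ↔ toMat (lift x) *ᵥ v ∈ W
    rw [hlift, hW, hW, prodMat_mulVec, LinearEquiv.symm_apply_apply]
    constructor
    · intro h
      show toMat₂ x.2 *ᵥ (e.symm v).2 = 0
      rw [h, Matrix.mulVec_zero]
    · exact mulVec_eq_zero_of_det_ne_zero _ (p₂ x.2).1
  refine ⟨(MulEquiv.ofBijective (Ψ.codRestrict _ hΨmem) ⟨?_, ?_⟩).symm⟩
  · intro x y hxy
    have h1 : lift x = lift y := congrArg Subtype.val hxy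
    have h2 : prodMat e (toMat₁ x.1) (toMat₂ x.2) = prodMat e (toMat₁ y.1) (toMat₂ y.2) := by
      rw [← hlift, ← hlift, h1]
    refine Prod.ext (h₁.1 (mat_ext_mulVec fun v => ?_)) (h₂.1 (mat_ext_mulVec fun v => ?_))
    · have := congrArg (fun M => (e.symm (M *ᵥ e (v, 0))).1) h2
      simpa [prodMat_mulVec] using this
    · have := congrArg (fun M => (e.symm (M *ᵥ e (0, v))).2) h2
      simpa [prodMat_mulVec] using this
  · rintro ⟨g, hg⟩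
    obtain ⟨G, hG⟩ : ∃ G, G = toMat g := ⟨_, rfl⟩
    have hGdet : G.det ≠ 0 := hG ▸ (pH g).1
    have hGpres : ∀ u v, β (G *ᵥ u) (G *ᵥ v) = β u v := hG ▸ (pH g).2
    have hgW : ∀ v, v ∈ W ↔ G *ᵥ v ∈ W := hG ▸ hg
    let A : Matrix ι₁ ι₁ F := LinearMap.toMatrix' ((LinearMap.fst F _ _) ∘ₗ e.symm.toLinearMap ∘ₗ
      (Matrix.toLin' G) ∘ₗ e.toLinearMap ∘ₗ (LinearMap.inl F _ _))
    let D : Matrix ι₂ ι₂ F := LinearMap.toMatrix' ((LinearMap.snd F _ _) ∘ₗ e.symm.toLinearMap ∘ₗ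
      (Matrix.toLin' G) ∘ₗ e.toLinearMap ∘ₗ (LinearMap.inr F _ _))
    have hA : ∀ x, A *ᵥ x = (e.symm (G *ᵥ e (x, 0))).1 := fun x => by
      rw [LinearMap.toMatrix'_mulVec]; rfl
    have hD : ∀ y, D *ᵥ y = (e.symm (G *ᵥ e (0, y))).2 := fun y => by
      rw [LinearMap.toMatrix'_mulVec]; rfl
    have k1 : ∀ x, (e.symm (G *ᵥ e (x, 0))).2 = 0 := fun x =>
      (hW _).1 ((hgW _).1 ((hW _).2 (by simp)))
    have hsurj : ∀ z, ∃ w, G *ᵥ w = z := by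
      intro z
      refine ⟨G⁻¹ *ᵥ z, ?_⟩
      rw [Matrix.mulVec_mulVec, Matrix.mul_nonsing_inv _ (isUnit_iff_ne_zero.2 hGdet),
        Matrix.one_mulVec]
    have k2 : ∀ y, (e.symm (G *ᵥ e (0, y))).1 = 0 := by
      intro y
      apply hnd
      intro x
      obtain ⟨w', hw'⟩ := hsurj (e (x, 0))
      have hw'W : w' ∈ W := (hgW w').2 (hw' ▸ (hW _).2 (by simp))
      have h3 : β (e (x, 0)) (G *ᵥ e (0, y)) = β₁ x (e.symm (G *ᵥ e (0, y))).1 +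
          β₂ 0 (e.symm (G *ᵥ e (0, y))).2 := by
        conv_lhs => rw [← e.apply_symm_apply (G *ᵥ e (0, y))]
        rw [he]
      rw [h0, add_zero] at h3
      rw [← h3, ← hw', hGpres, ← e.apply_symm_apply w', he, (hW _).1 hw'W, h0, h0', add_zero]
    have k3 : ∀ x y, G *ᵥ e (x, y) = e (A *ᵥ x, D *ᵥ y) := by
      intro x y
      have h4 : e (x, y) = e (x, 0) + e (0, y) := by
        rw [← map_add]; simp
      rw [h4, Matrix.mulVec_add]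
      apply e.symm.injective
      rw [map_add, e.symm_apply_apply, hA, hD]
      refine Prod.ext ?_ ?_
      · simp [k2]
      · simp [k1]
    have k4 : G = prodMat e A D := by
      apply mat_ext_mulVec
      intro v
      rw [prodMat_mulVec, ← k3, Prod.mk.eta, e.apply_symm_apply]
    have hA' : A.det ≠ 0 ∧ ∀ u v, β₁ (A *ᵥ u) (A *ᵥ v) = β₁ u v := by
      refine ⟨det_ne_zero_of_mulVec fun v hv => ?_, fun u v => ?_⟩
      · have h5 := k3 v 0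
        rw [hv, Matrix.mulVec_zero] at h5
        have h6 : e (v, 0) = 0 := mulVec_eq_zero_of_det_ne_zero G hGdet (by
          rw [h5]; exact map_zero e)
        have h7 := (LinearEquiv.map_eq_zero_iff _).1 h6
        exact (Prod.mk_eq_zero.1 h7).1
      · have h5 := hGpres (e (u, 0)) (e (v, 0))
        rw [k3, k3, he, he, Matrix.mulVec_zero] at h5
        simpa [h0] using h5
    have hD' : D.det ≠ 0 ∧ ∀ u v, β₂ (D *ᵥ u) (D *ᵥ v) = β₂ u v := by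
      refine ⟨det_ne_zero_of_mulVec fun v hv => ?_, fun u v => ?_⟩
      · have h5 := k3 0 v
        rw [hv, Matrix.mulVec_zero] at h5
        have h6 : e (0, v) = 0 := mulVec_eq_zero_of_det_ne_zero G hGdet (by
          rw [h5]; exact map_zero e)
        have h7 := (LinearEquiv.map_eq_zero_iff _).1 h6
        exact (Prod.mk_eq_zero.1 h7).2
      · have h5 := hGpres (e (0, u)) (e (0, v))
        rw [k3, k3, he, he, Matrix.mulVec_zero] at h5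
        simpa [h0'] using h5
    obtain ⟨a, ha⟩ := (h₁.2 A).2 hA'
    obtain ⟨d, hd⟩ := (h₂.2 D).2 hD'
    refine ⟨(a, d), Subtype.ext (hH.1 ?_)⟩
    show toMat (lift (a, d)) = toMat g
    rw [hlift, ha, hd, ← k4, hG]

end Cfsg.Agent.Lib.Helper18
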