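import Mathlib
import Cfsg.Prelude.Def_LieClassical
import Cfsg.Prelude.Def_ClassicalGeometry
import Cfsg.Agent.Lib.Helper18.StabProd
import Cfsg.Agent.Lib.Helper18.Herm2
import Cfsg.Agent.S0755
set_option autoImplicit false

/-! Stabiliser of a nondegenerate subspace in `GU`. -/

namespace Cfsg.Agent.Lib.Helper18

open Matrix

variable {F : Type*} [Field F]

lemma isFormGroup_gu (n q : ℕ) :
    IsFormGroup ((Cfsg.glToMat (Fin n) F).comp (Cfsg.GU n F q).subtype) (Cfsg.hermForm n F q) := by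
  refine ⟨fun x y h => Subtype.ext (Units.ext h), fun M => ⟨?_, ?_⟩⟩
  · rintro ⟨h, rfl⟩
    exact ⟨gl_det_ne_zero h.1, h.2⟩
  · rintro ⟨h1, h2⟩
    exact ⟨⟨Matrix.GeneralLinearGroup.mkOfDetNeZero M h1, h2⟩, rfl⟩

variable [Fintype F] {q : ℕ} (hF : Fintype.card F = q ^ 2) {n : ℕ}
include hF

/-- the involutory automorphism `x ↦ x ^ q`. -/
def hermSigma : F →+* F where
  toFun x := x ^ q
  map_one' := one_pow q
  map_mul' x y := mul_pow x y q
  map_zero' := zero_pow (by have := herm_q_pos hF; omega)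
  map_add' x y := herm_add_pow hF x y

lemma hermSigma_apply (x : F) : hermSigma hF x = x ^ q := rfl

lemma hermSigma_ne_id : hermSigma hF ≠ RingHom.id F := by
  classical
  intro h
  have hq := herm_q_pos hF
  have h1 : ∀ x : F, x ^ q = x := fun x => by
    have := congrArg (fun f => f x) h
    simpa [hermSigma_apply] using this
  -- X^q - X has at most q roots
  have h2 : Fintype.card F ≤ q := by
    have hne : (Polynomial.X ^ q - Polynomial.X : Polynomial F) ≠ 0 :=
      FiniteField.X_pow_card_sub_X_ne_zero F hq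
    have hdeg : (Polynomial.X ^ q - Polynomial.X : Polynomial F).natDegree = q :=
      FiniteField.X_pow_card_sub_X_natDegree_eq F hq
    have h3 : (Finset.univ : Finset F) ⊆ (Polynomial.X ^ q - Polynomial.X : Polynomial F).roots.toFinset := by
      intro x _
      rw [Multiset.mem_toFinset, Polynomial.mem_roots hne]
      simp [h1 x]
    calc Fintype.card F = (Finset.univ : Finset F).card := rfl
      _ ≤ _ := Finset.card_le_card h3
      _ ≤ _ := Multiset.toFinset_card_le _
      _ ≤ _ := Polynomial.card_roots' _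
      _ = q := hdeg
  rw [hF] at h2
  nlinarith

/-- the hermitian form restricted to a subspace, as a sesquilinear map. -/
def hermS (U : Submodule F (Fin n → F)) : U →ₛₗ[hermSigma hF] U →ₗ[F] F :=
  LinearMap.mk₂'ₛₗ (hermSigma hF) (RingHom.id F) (fun u v => Cfsg.hermForm n F q v.1 u.1)
    (fun u u' v => herm_add_right hF v.1 u.1 u'.1)
    (fun c u v => herm_smul_right c v.1 u.1)
    (fun u v v' => herm_add_left v.1 v'.1 u.1)
    (fun c u v => herm_smul_left c v.1 u.1)

lemma hermS_apply (U : Submodule F (Fin n → F)) (u v : U) :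
    hermS hF U u v = Cfsg.hermForm n F q v.1 u.1 := rfl

theorem exists_herm_equiv (U : Submodule F (Fin n → F)) (k : ℕ) (hdim : Module.finrank F U = k)
    (hnd : ∀ u ∈ U, (∀ v ∈ U, Cfsg.hermForm n F q u v = 0) → u = 0) :
    ∃ e : (Fin k → F) ≃ₗ[F] U, ∀ x y, Cfsg.hermForm n F q (e x).1 (e y).1 = Cfsg.hermForm k F q x y := by
  classical
  subst hdim
  obtain ⟨b, hb⟩ := Cfsg.Agent.S0755.result (hermSigma hF) (hermSigma_ne_id hF)
    (fun a => herm_pow_pow hF a) (hermS hF U)
    ⟨fun x y => herm_form_conj hF n y.1 x.1⟩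
    ⟨fun x hx => Subtype.ext (hnd x.1 x.2 fun v hv => herm_eq_zero_symm hF (hx ⟨v, hv⟩)),
      fun y hy => Subtype.ext (hnd y.1 y.2 fun v hv => hy ⟨v, hv⟩)⟩
  refine ⟨b.equivFun.symm, fun x y => ?_⟩
  rw [← hermS_apply hF U, Module.Basis.equivFun_symm_apply, Module.Basis.equivFun_symm_apply]
  simp only [map_sum, LinearMap.sum_apply, LinearMap.map_smulₛₗ, LinearMap.smul_apply, map_smul, hb,
    smul_eq_mul, hermSigma_apply, Cfsg.hermForm]
  simp only [mul_ite, mul_one, mul_zero, Finset.sum_ite_eq', Finset.mem_univ,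
    if_true]

lemma herm_zero_left' (y : Fin n → F) : Cfsg.hermForm n F q 0 y = 0 := by
  simp [Cfsg.hermForm]

lemma herm_zero_right' (x : Fin n → F) : Cfsg.hermForm n F q x 0 = 0 := by
  have := herm_q_pos hF
  have h0 : (0 : F) ^ q = 0 := zero_pow (by omega)
  simp [Cfsg.hermForm, h0]

lemma herm_nondeg_right (y : Fin n → F) (h : ∀ x, Cfsg.hermForm n F q x y = 0) : y = 0 := by
  classical
  funext i
  have := h (Pi.single i 1)
  simp only [Cfsg.hermForm, Pi.single_apply, ite_mul, one_mul, zero_mul, Finset.sum_ite_eq',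
    Finset.mem_univ, if_true] at this
  exact pow_eq_zero_iff (by have := herm_q_pos hF; omega) |>.1 this

/-- the orthogonal complement. -/
def hermPerp (q : ℕ) (W : Submodule F (Fin n → F)) : Submodule F (Fin n → F) where
  carrier := {v | ∀ w ∈ W, Cfsg.hermForm n F q v w = 0}
  add_mem' {a b} ha hb w hw := by rw [herm_add_left, ha w hw, hb w hw, add_zero]
  zero_mem' w _ := by simp [Cfsg.hermForm]
  smul_mem' c a ha w hw := by rw [herm_smul_left, ha w hw, mul_zero]

theorem gu_stab_nondeg (n k : ℕ) (hk : k ≤ n) (W : Submodule F (Fin n → F))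
    (hWk : Module.finrank F W = k)
    (hW : ∀ u ∈ W, (∀ v ∈ W, Cfsg.hermForm n F q u v = 0) → u = 0) :
    Nonempty (↥((Cfsg.stabilizing (Cfsg.glToMat (Fin n) F) (W : Set (Fin n → F))).subgroupOf
      (Cfsg.GU n F q)) ≃* ↥(Cfsg.GU k F q) × ↥(Cfsg.GU (n - k) F q)) := by
  classical
  obtain ⟨e₁, he₁⟩ := exists_herm_equiv hF W k hWk hW
  obtain ⟨W', hW'⟩ : ∃ W', W' = hermPerp q W := ⟨_, rfl⟩
  have hmem' : ∀ v, v ∈ W' ↔ ∀ w ∈ W, Cfsg.hermForm n F q v w = 0 := fun v => by
    rw [hW']; rfl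
  have hdisj : Disjoint W W' := by
    rw [Submodule.disjoint_def]
    intro x hx hx'
    exact hW x hx ((hmem' x).1 hx')
  have hcod : Codisjoint W W' := by
    rw [codisjoint_iff, eq_top_iff]
    intro v _
    let φ : (Fin k → F) →ₗ[F] F := (hermL q v) ∘ₗ W.subtype ∘ₗ e₁.toLinearMap
    have hφ : ∀ y, φ y = Cfsg.hermForm n F q (e₁ y).1 v := fun y => rfl
    let c : Fin k → F := fun j => (φ (fun i => if j = i then 1 else 0)) ^ q
    have hc : ∀ y, Cfsg.hermForm k F q y c = φ y := by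
      intro y
      rw [LinearMap.pi_apply_eq_sum_univ φ y]
      simp only [Cfsg.hermForm, c, herm_pow_pow hF, smul_eq_mul]
    have h1 : v - (e₁ c).1 ∈ W' := by
      rw [hmem']
      intro w hw
      apply herm_eq_zero_symm hF
      obtain ⟨y, rfl⟩ : ∃ y, (e₁ y).1 = w := ⟨e₁.symm ⟨w, hw⟩, by simp⟩
      have h2 := herm_add_right hF (e₁ y).1 (v - (e₁ c).1) (e₁ c).1
      rw [sub_add_cancel, he₁, hc, hφ] at h2
      exact (add_eq_right.1 h2.symm)
    have : v = (e₁ c).1 + (v - (e₁ c).1) := by abel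
    rw [this]
    exact Submodule.add_mem_sup (e₁ c).2 h1
  have hc : IsCompl W W' := ⟨hdisj, hcod⟩
  have hfr : Module.finrank F W' = n - k := by
    have h1 := Submodule.finrank_add_eq_of_isCompl hc
    rw [hWk, Module.finrank_fintype_fun_eq_card, Fintype.card_fin] at h1
    omega
  obtain ⟨e₂, he₂⟩ := exists_herm_equiv hF W' (n - k) hfr (by
    intro x hx h
    apply herm_nondeg_right hF
    intro y
    apply herm_eq_zero_symm hF
    obtain ⟨w, hw, w', hw', rfl⟩ : ∃ w ∈ W, ∃ w' ∈ W', w + w' = y := by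
      have : y ∈ W ⊔ W' := by rw [hc.sup_eq_top]; exact Submodule.mem_top
      exact Submodule.mem_sup.1 this
    rw [herm_add_right hF, (hmem' x).1 hx w hw, h w' hw', add_zero])
  let e : ((Fin k → F) × (Fin (n - k) → F)) ≃ₗ[F] (Fin n → F) :=
    (e₁.prodCongr e₂).trans (Submodule.prodEquivOfIsCompl W W' hc)
  have he_apply : ∀ x, e x = (e₁ x.1 : Fin n → F) + (e₂ x.2 : Fin n → F) :=
    fun x => rfl
  have heq : (Cfsg.stabilizing (Cfsg.glToMat (Fin n) F) (W : Set (Fin n → F))).subgroupOf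
      (Cfsg.GU n F q) = Cfsg.stabilizing ((Cfsg.glToMat (Fin n) F).comp (Cfsg.GU n F q).subtype)
        (W : Set (Fin n → F)) := Subgroup.ext fun x => Iff.rfl
  rw [heq]
  refine stab_equiv_prod (isFormGroup_gu n q) (isFormGroup_gu k q) (isFormGroup_gu (n - k) q) e ?_
    (W : Set (Fin n → F)) ?_ ?_ ?_ ?_
  · intro x y
    rw [he_apply, he_apply, herm_add_left, herm_add_right hF, herm_add_right hF,
      (hmem' _).1 (e₂ x.2).2 _ (e₁ y.1).2, herm_eq_zero_symm hF ((hmem' _).1 (e₂ y.2).2 _ (e₁ x.1).2),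
      he₁, he₂]
    ring
  · intro v
    show v ∈ W ↔ ((e₁.prodCongr e₂).symm ((Submodule.prodEquivOfIsCompl W W' hc).symm v)).2 = 0
    rw [← Submodule.prodEquivOfIsCompl_symm_apply_snd_eq_zero W W' hc]
    show _ ↔ e₂.symm ((Submodule.prodEquivOfIsCompl W W' hc).symm v).2 = 0
    rw [LinearEquiv.map_eq_zero_iff]
  · intro y
    exact herm_zero_left' hF y
  · intro y
    exact herm_zero_right' hF y
  · intro y h
    exact herm_nondeg_right hF y h

end Cfsg.Agent.Lib.Helper18
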