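import Mathlib
import Cfsg.Prelude.Def_LieClassical
import Cfsg.Prelude.Def_ClassicalGeometry
import Cfsg.Agent.Lib.Helper18.StabProd
import Cfsg.Agent.Lib.Helper18.Parabolic3
import Cfsg.Agent.Lib.Helper18.StdForm
import Cfsg.Agent.S0752
set_option autoImplicit false

/-! Stabiliser of a nondegenerate subspace in `Sp`. -/

namespace Cfsg.Agent.Lib.Helper18

open Matrix

variable {F : Type*} [Field F]

lemma sympB_eq_form (m : ℕ) (u v : Fin m ⊕ Fin m → F) : sympB m F u v = Cfsg.sympForm m F u v :=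
  sympB_apply u v

lemma isFormGroup_sp (m : ℕ) : IsFormGroup (Cfsg.spToMat m F) (Cfsg.sympForm m F) := by
  refine ⟨Subtype.val_injective, fun M => ⟨?_, ?_⟩⟩
  · rintro ⟨h, rfl⟩
    refine ⟨sp_det_ne_zero' h, fun u v => ?_⟩
    rw [← sympB_eq_form, ← sympB_eq_form]
    exact sympB_mulVec h.1 h.2 u v
  · rintro ⟨-, h⟩
    refine ⟨⟨M, mem_sp_of_preserve M fun u v => ?_⟩, rfl⟩
    rw [sympB_eq_form, sympB_eq_form]
    exact h u v

theorem exists_symp_equiv_field {V : Type*} [AddCommGroup V] [Module F V] [FiniteDimensional F V]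
    (B : LinearMap.BilinForm F V) (hB : B.IsAlt)
    (hnd : ∀ x, (∀ y, B x y = 0) → x = 0) (m : ℕ) (hdim : Module.finrank F V = 2 * m) :
    ∃ e : (Fin m ⊕ Fin m → F) ≃ₗ[F] V, ∀ u v, B (e u) (e v) = sympB m F u v := by
  classical
  obtain ⟨m', e0, f0, hm', h1, h2, h3⟩ :=
    Cfsg.Agent.S0752.exists_symp_family (2 * m) V B hB hnd hdim
  have : m' = m := by omega
  subst this
  let b : Fin m' ⊕ Fin m' → V := Sum.elim f0 e0
  have hb : ∀ c c', B (b c) (b c') = J (Fin m') F c c' := by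
    rintro (i | i) (l | l)
    · simpa [b, J] using h3 i l
    · show B (f0 i) (e0 l) = _
      rw [Cfsg.Agent.S0752.alt_swap B hB, h1 l i]
      simp [J, Matrix.one_apply, eq_comm]
    · show B (e0 i) (f0 l) = _
      rw [h1 i l]
      simp [J, Matrix.one_apply]
    · simpa [b, J] using h2 i l
  let L : (Fin m' ⊕ Fin m' → F) →ₗ[F] V := Fintype.linearCombination F b
  have hL : ∀ u v, B (L u) (L v) = sympB m' F u v := by
    intro u v
    show B (∑ c, u c • b c) (∑ c, v c • b c) = _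
    rw [sympB_apply]
    simp only [map_sum, LinearMap.sum_apply, map_smul, LinearMap.smul_apply, hb, smul_eq_mul,
      dotProduct, Matrix.mulVec, Finset.mul_sum]
    rw [Finset.sum_comm]
    apply Finset.sum_congr rfl
    intro c _
    apply Finset.sum_congr rfl
    intro c' _
    ring
  have hinj : Function.Injective L := by
    rw [← LinearMap.ker_eq_bot, LinearMap.ker_eq_bot']
    intro u hu
    by_contra hne
    obtain ⟨y, hy⟩ := sympB_nondeg u hne
    apply hy
    rw [← hL, hu]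
    simp
  have hfr : Module.finrank F (Fin m' ⊕ Fin m' → F) = Module.finrank F V := by
    rw [hdim, Module.finrank_fintype_fun_eq_card, Fintype.card_sum, Fintype.card_fin, two_mul]
  exact ⟨LinearEquiv.ofInjectiveOfFinrankEq L hinj hfr, hL⟩

theorem sp_stab_nondeg (m k : ℕ) (hk : k ≤ m) (W : Submodule F (Fin m ⊕ Fin m → F))
    (hWk : Module.finrank F W = 2 * k)
    (hW : ∀ u ∈ W, (∀ v ∈ W, Cfsg.sympForm m F u v = 0) → u = 0) :
    Nonempty (↥(Cfsg.stabilizing (Cfsg.spToMat m F) (W : Set (Fin m ⊕ Fin m → F))) ≃*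
      Matrix.symplecticGroup (Fin k) F × Matrix.symplecticGroup (Fin (m - k)) F) := by
  classical
  obtain ⟨B, hBdef⟩ : ∃ B, B = sympB m F := ⟨_, rfl⟩
  have hBf : ∀ u v, B u v = Cfsg.sympForm m F u v := fun u v => by rw [hBdef, sympB_eq_form]
  have halt : B.IsAlt := hBdef ▸ sympB_isAlt
  have hrefl : B.IsRefl := halt.isRefl
  obtain ⟨W', hW'⟩ : ∃ W', W' = B.orthogonal W := ⟨_, rfl⟩
  have hmem' : ∀ v, v ∈ W' ↔ ∀ w ∈ W, B w v = 0 := fun v => by
    rw [hW']; exact LinearMap.BilinForm.mem_orthogonal_iff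
  have hdisj : Disjoint W W' := by
    rw [Submodule.disjoint_def]
    intro x hx hx'
    refine hW x hx fun v hv => ?_
    rw [← hBf]
    exact hrefl _ _ ((hmem' x).1 hx' v hv)
  have hc : IsCompl W W' := by
    rw [hW'] at hdisj ⊢
    exact (LinearMap.BilinForm.isCompl_orthogonal_iff_disjoint hrefl).2 hdisj
  have hfr : Module.finrank F W' = 2 * (m - k) := by
    have h1 := Submodule.finrank_add_eq_of_isCompl hc
    rw [hWk, Module.finrank_fintype_fun_eq_card, Fintype.card_sum, Fintype.card_fin] at h1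
    omega
  obtain ⟨e₁, he₁⟩ := exists_symp_equiv_field (B.restrict W) (fun x => halt x.1) (by
    rintro ⟨x, hx⟩ h
    refine Subtype.ext (hW x hx fun v hv => ?_)
    rw [← hBf]
    exact h ⟨v, hv⟩) k hWk
  obtain ⟨e₂, he₂⟩ := exists_symp_equiv_field (B.restrict W') (fun x => halt x.1) (by
    rintro ⟨x, hx⟩ h
    apply Subtype.ext
    by_contra hne
    have hne' : x ≠ 0 := hne
    obtain ⟨y, hy⟩ := sympB_nondeg x hne'
    apply hy
    rw [← hBdef]
    obtain ⟨w, hw, w', hw', rfl⟩ : ∃ w ∈ W, ∃ w' ∈ W', w + w' = y := by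
      have : y ∈ W ⊔ W' := by rw [hc.sup_eq_top]; exact Submodule.mem_top
      exact Submodule.mem_sup.1 this
    rw [map_add, hrefl _ _ ((hmem' x).1 hx w hw), zero_add]
    exact h ⟨w', hw'⟩) (m - k) hfr
  let e : ((Fin k ⊕ Fin k → F) × (Fin (m - k) ⊕ Fin (m - k) → F)) ≃ₗ[F] (Fin m ⊕ Fin m → F) :=
    (e₁.prodCongr e₂).trans (Submodule.prodEquivOfIsCompl W W' hc)
  have he_apply : ∀ x, e x = (e₁ x.1 : Fin m ⊕ Fin m → F) + (e₂ x.2 : Fin m ⊕ Fin m → F) :=
    fun x => rfl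
  refine stab_equiv_prod (isFormGroup_sp m) (isFormGroup_sp k) (isFormGroup_sp (m - k)) e ?_
    (W : Set (Fin m ⊕ Fin m → F)) ?_ ?_ ?_ ?_
  · intro x y
    rw [he_apply, he_apply, ← hBf, map_add, map_add, LinearMap.add_apply, LinearMap.add_apply,
      (hmem' _).1 (e₂ y.2).2 _ (e₁ x.1).2, hrefl _ _ ((hmem' _).1 (e₂ x.2).2 _ (e₁ y.1).2),
      ← sympB_eq_form, ← sympB_eq_form, ← he₁, ← he₂]
    simp
  · intro v
    show v ∈ W ↔ ((e₁.prodCongr e₂).symm ((Submodule.prodEquivOfIsCompl W W' hc).symm v)).2 = 0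
    rw [← Submodule.prodEquivOfIsCompl_symm_apply_snd_eq_zero W W' hc]
    show _ ↔ e₂.symm ((Submodule.prodEquivOfIsCompl W W' hc).symm v).2 = 0
    rw [LinearEquiv.map_eq_zero_iff]
  · intro y
    rw [← sympB_eq_form]; simp
  · intro y
    rw [← sympB_eq_form]; simp
  · intro y h
    by_contra hne
    obtain ⟨z, hz⟩ := sympB_nondeg y hne
    apply hz
    rw [Cfsg.Agent.S0752.alt_swap _ sympB_isAlt, sympB_eq_form, h, neg_zero]

end Cfsg.Agent.Lib.Helper18
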