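import Mathlib
import Cfsg.Prelude.Def_LieExceptional
import Cfsg.Prelude.Def_KGroupFacts
import Cfsg.Agent.Lib.Helper18.SzSub4

/-! Automorphisms of Suzuki groups. -/

set_option autoImplicit false

namespace Cfsg.Agent.Lib.Helper18

open Cfsg Matrix

section out

/-- `Out` is invariant under isomorphism. -/
theorem card_Out_congr {G G' : Type*} [Group G] [Group G'] (e : G ≃* G') :
    Nat.card (Cfsg.Out G) = Nat.card (Cfsg.Out G') := by
  have he : (Cfsg.Inn G).map (MulAut.congr e).toMonoidHom = Cfsg.Inn G' := by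
    ext φ
    constructor
    · rintro ⟨_, ⟨g, rfl⟩, rfl⟩
      refine ⟨e g, ?_⟩
      ext x
      simp [MulAut.congr]
    · rintro ⟨g, rfl⟩
      refine ⟨_, ⟨e.symm g, rfl⟩, ?_⟩
      ext x
      simp [MulAut.congr]
  exact Nat.card_congr (QuotientGroup.congr (Cfsg.Inn G) (Cfsg.Inn G') (MulAut.congr e) he).toEquiv

end out

section emb

variable {F : Type*} [Field F] [Fintype F] {m : ℕ} (h : SzData F (2 ^ (m + 1)))
variable {K : Type*} [Field K] [Fintype K] {k : ℕ} (h0 : SzData K (2 ^ (k + 1)))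

/-- Normal form of an embedding, elementwise version. -/
theorem szEmb_normal' (hF2 : Even (Fintype.card F)) (Ψ : Sz K k →* Sz F m)
    (hΨ : Function.Injective Ψ) :
    ∃ g : Sz F m, (∀ a b, ∃ α β, g * Ψ (szTG h0 a b) * g⁻¹ = szTG h α β) ∧
      (∀ t0, ∃ t, g * Ψ (szDG h0 t0) * g⁻¹ = szDG h t) ∧
      g * Ψ (szWG h0) * g⁻¹ = szWG h := by
  have inj : ∀ (g : Sz F m) (Φ : Sz K k →* Sz F m), Function.Injective Φ →
      Function.Injective ((MulAut.conj g).toMonoidHom.comp Φ) := by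
    intro g Φ hΦ
    exact (MulAut.conj g).injective.comp hΦ
  obtain ⟨g1, A1⟩ := szEmb_A h h0 hF2 Ψ
  obtain ⟨g2, B1, B2⟩ := szEmb_B h h0 ((MulAut.conj g1).toMonoidHom.comp Ψ) (inj _ _ hΨ) A1
  obtain ⟨g3, C1, C2, C3⟩ := szEmb_C h h0
    ((MulAut.conj g2).toMonoidHom.comp ((MulAut.conj g1).toMonoidHom.comp Ψ))
    (inj _ _ (inj _ _ hΨ)) B1 B2
  have e : ∀ x, g3 * g2 * g1 * Ψ x * (g3 * g2 * g1)⁻¹ =
      g3 * ((MulAut.conj g2).toMonoidHom.comp ((MulAut.conj g1).toMonoidHom.comp Ψ)) x * g3⁻¹ := by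
    intro x
    simp [mul_assoc]
  refine ⟨g3 * g2 * g1, ?_, ?_, ?_⟩
  · intro a b; rw [e]; exact C1 a b
  · intro t0; rw [e]; exact C2 t0
  · rw [e]; exact C3

end emb

section aut

variable {F : Type*} [Field F] [Fintype F] {m : ℕ} (h : SzData F (2 ^ (m + 1)))

include h in
theorem szMap_mem (σ : F →+* F) {g : SpecialLinearGroup (Fin 4) F} (hg : g ∈ Sz F m) :
    SpecialLinearGroup.map σ g ∈ Sz F m := by
  have hle : Sz F m ≤ (Sz F m).comap (SpecialLinearGroup.map σ) := by
    apply Sz_le_of_gens h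
    · intro t
      rw [Subgroup.mem_comap, szMap_szD σ (fun _ => rfl)]
      exact szD_mem h _
    · rw [Subgroup.mem_comap, map_mul, szMap_szT σ (fun _ => rfl), szMap_szW]
      exact mul_mem (szT_mem h _ _) (szW_mem h)
  exact hle hg

/-- The endomorphism of the Suzuki group induced by a field endomorphism. -/
def szFieldHom (σ : F →+* F) : Sz F m →* Sz F m :=
  ((SpecialLinearGroup.map σ).comp (Sz F m).subtype).codRestrict (Sz F m)
    (fun g => szMap_mem h σ g.2)

theorem szFieldHom_T (σ : F →+* F) (a b : F) :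
    szFieldHom h σ (szTG h a b) = szTG h (σ a) (σ b) :=
  Subtype.ext (szMap_szT σ (fun _ => rfl) a b)

theorem szFieldHom_D (σ : F →+* F) (t : Fˣ) :
    szFieldHom h σ (szDG h t) = szDG h (Units.map σ.toMonoidHom t) :=
  Subtype.ext (szMap_szD σ (fun _ => rfl) t)

theorem szFieldHom_W (σ : F →+* F) : szFieldHom h σ (szWG h) = szWG h :=
  Subtype.ext (szMap_szW σ)

theorem szFieldHom_injective (σ : F →+* F) : Function.Injective (szFieldHom h σ) := by
  intro a b hab
  apply Subtype.ext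
  apply szMap_injective σ
  exact congrArg Subtype.val hab

/-- The field automorphism of the Suzuki group. -/
noncomputable def szFieldAut (σ : F →+* F) : MulAut (Sz F m) :=
  MulEquiv.ofBijective (szFieldHom h σ)
    (Finite.injective_iff_bijective.1 (szFieldHom_injective h σ))

theorem szFieldAut_apply (σ : F →+* F) (x : Sz F m) : szFieldAut h σ x = szFieldHom h σ x := rfl

/-- An endomorphism in normal form is a field endomorphism. -/
theorem szEmb_field (Ψ : Sz F m →* Sz F m) (hΨ : Function.Injective Ψ)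
    (P1 : ∀ a b, ∃ α β, Ψ (szTG h a b) = szTG h α β)
    (P2 : ∀ t0, ∃ t, Ψ (szDG h t0) = szDG h t)
    (P3 : Ψ (szWG h) = szWG h) : ∃ σ : F →+* F, Ψ = szFieldHom h σ := by
  have T11 := szEmb_T11 h h Ψ hΨ P1 P3
  choose α β hαβ using P1
  choose χ hχ using P2
  have hmul : ∀ a b c d, α (a + c) (b + d + a ^ (2 ^ (m + 1)) * c) = α a b + α c d := by
    intro a b c d
    have e := congrArg Ψ (szTG_mul h a b c d)
    rw [map_mul, hαβ, hαβ, hαβ, szTG_mul] at e
    exact (szTG_inj h e).1.symm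
  have hz : ∀ b, α 0 b = 0 := by
    intro b
    have e := congrArg Ψ (szTG_mul h 0 b 0 b)
    rw [map_mul, hαβ, szTG_mul] at e
    have e0 : szTG h (0 + 0) (b + b + 0 ^ (2 ^ (m + 1)) * 0) = 1 := by
      rw [← szTG_zero h]
      congr 1
      · ring
      · rw [h.add_self]; ring
    rw [e0, map_one, ← szTG_zero h] at e
    have e1 := (szTG_inj h e).2
    rw [h.add_self, zero_add, ← pow_succ] at e1
    exact pow_eq_zero_iff (by omega) |>.1 e1
  have hab : ∀ a b, α a b = α a 0 := by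
    intro a b
    have e := hmul a 0 0 b
    rw [hz, add_zero, add_zero, mul_zero, add_zero, zero_add] at e
    exact e
  have hadd : ∀ x y, α (x + y) 0 = α x 0 + α y 0 := by
    intro x y
    rw [← hmul x 0 y 0]
    exact (hab _ _).symm
  have hone : α 1 0 = 1 := by
    rw [← hab 1 1]
    rw [hαβ] at T11
    exact (szTG_inj h T11).1
  have hzero : α 0 0 = 0 := hz 0
  have hequi : ∀ (t : Fˣ) (a : F), α ((t : F) ^ 2 * a) 0 = ((χ t : Fˣ) : F) ^ 2 * α a 0 := by
    intro t a
    have e := congrArg Ψ (szDG_conj_szTG h t a 0)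
    rw [map_mul, map_mul, map_inv, hχ, hαβ, hαβ, szDG_conj_szTG, mul_zero] at e
    exact (szTG_inj h e).1.symm
  have hsq : ∀ t : Fˣ, α ((t : F) ^ 2) 0 = ((χ t : Fˣ) : F) ^ 2 := by
    intro t
    have e := hequi t 1
    rw [mul_one, hone, mul_one] at e
    exact e
  have hmulσ : ∀ x y, α (x * y) 0 = α x 0 * α y 0 := by
    intro x y
    by_cases hx : x = 0
    · rw [hx, zero_mul, hzero, zero_mul]
    · obtain ⟨t, ht⟩ := h.exists_unit_sq hx
      rw [← ht, hequi, hsq]
  let σ : F →+* F :=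
    { toFun := fun x => α x 0
      map_one' := hone
      map_mul' := hmulσ
      map_zero' := hzero
      map_add' := hadd }
  have hσ : ∀ x, σ x = α x 0 := fun _ => rfl
  refine ⟨σ, ?_⟩
  apply MonoidHom.eq_of_eqOn_dense (szG_closure h)
  rintro g (⟨t, rfl⟩ | hg | hg)
  · rw [hχ, szFieldHom_D]
    congr 1
    apply Units.ext
    apply h.sq_inj
    rw [← hsq]
    change _ = σ t ^ 2
    rw [← map_pow, hσ]
  · rw [hg, T11, szFieldHom_T, map_one]
  · rw [Set.mem_singleton_iff] at hg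
    rw [hg, P3, szFieldHom_W]

end aut

end Cfsg.Agent.Lib.Helper18
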