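import Mathlib
import Cfsg.Prelude.Def_LieExceptional
import Cfsg.Prelude.Def_KGroupFacts
import Cfsg.Agent.Lib.Helper18.SzOut1
import Cfsg.Agent.Lib.Helper18.SzL2
import Cfsg.Agent.H14.RingAutFin

/-! The outer automorphism group of a Suzuki group. -/

set_option autoImplicit false

namespace Cfsg.Agent.Lib.Helper18

open Cfsg Matrix

section aut

variable {F : Type*} [Field F] [Fintype F] {m : ℕ} (h : SzData F (2 ^ (m + 1)))

theorem szOut_surj (hF2 : Even (Fintype.card F)) (Ψ : MulAut (Sz F m)) :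
    ∃ σ : F →+* F,
      (QuotientGroup.mk (szFieldAut h σ) : Cfsg.Out (Sz F m)) = QuotientGroup.mk Ψ := by
  obtain ⟨g, P1, P2, P3⟩ := szEmb_normal' h h hF2 Ψ.toMonoidHom Ψ.injective
  obtain ⟨σ, hσ⟩ := szEmb_field h ((MulAut.conj g).toMonoidHom.comp Ψ.toMonoidHom)
    ((MulAut.conj g).injective.comp Ψ.injective) P1 P2 P3
  refine ⟨σ, ?_⟩
  have e : szFieldAut h σ = MulAut.conj g * Ψ := by
    apply MulEquiv.ext
    intro x
    exact (DFunLike.congr_fun hσ x).symm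
  have h1 : (QuotientGroup.mk (MulAut.conj g) : Cfsg.Out (Sz F m)) = 1 :=
    (QuotientGroup.eq_one_iff _).2 (⟨g, rfl⟩ : MulAut.conj g ∈ Cfsg.Inn (Sz F m))
  rw [e, QuotientGroup.mk_mul, h1, one_mul]

theorem szOut_inj (σ ρ : F →+* F)
    (hh : (QuotientGroup.mk (szFieldAut h σ) : Cfsg.Out (Sz F m)) =
      QuotientGroup.mk (szFieldAut h ρ)) : σ = ρ := by
  obtain ⟨g, hg⟩ := QuotientGroup.eq.1 hh
  have hg' : szFieldAut h σ * MulAut.conj g = szFieldAut h ρ := by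
    rw [hg]; group
  obtain ⟨g', hgdef⟩ : ∃ g', g' = szFieldHom h σ g := ⟨_, rfl⟩
  have key : ∀ x, g' * szFieldHom h σ x * g'⁻¹ = szFieldHom h ρ x := by
    intro x
    have e := DFunLike.congr_fun hg' x
    change szFieldHom h σ (g * x * g⁻¹) = szFieldHom h ρ x at e
    rw [map_mul, map_mul, map_inv, ← hgdef] at e
    exact e
  have k1 : g' * szTG h 1 0 * g'⁻¹ = szTG h 1 0 := by
    have e := key (szTG h 1 0)
    rw [szFieldHom_T, szFieldHom_T, map_one, map_one, map_zero, map_zero] at e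
    exact e
  have k1' : szT (2 ^ (m + 1)) (1 : F) 0 * g'.1 = g'.1 * szT (2 ^ (m + 1)) 1 0 := by
    have e := congrArg Subtype.val k1
    change g'.1 * szT _ 1 0 * g'.1⁻¹ = szT _ 1 0 at e
    exact (mul_inv_eq_iff_eq_mul.1 e).symm
  have hinf : g'.1 • suzukiPointInfinity F = suzukiPointInfinity F := by
    have e : szT (2 ^ (m + 1)) (1 : F) 0 • (g'.1 • suzukiPointInfinity F) =
        g'.1 • suzukiPointInfinity F := by
      rw [← mul_smul, k1', mul_smul, szT_smul_inf]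
    rcases mem_suzukiOvoid_iff.1 (Sz_smul_mem g'.2 (szInf_mem m)) with e1 | ⟨x, y, e1⟩
    · exact e1
    · rw [e1] at e
      exact absurd (szT_fix_imp h e).1 one_ne_zero
  obtain ⟨c, hc0, hc1⟩ := h.exists_ne
  have k2 := key (szDG h (Units.mk0 c hc0))
  rw [szFieldHom_D, szFieldHom_D] at k2
  obtain ⟨t1, ht1⟩ : ∃ t1, t1 = Units.map σ.toMonoidHom (Units.mk0 c hc0) := ⟨_, rfl⟩
  obtain ⟨t2, ht2⟩ : ∃ t2, t2 = Units.map ρ.toMonoidHom (Units.mk0 c hc0) := ⟨_, rfl⟩
  rw [← ht1, ← ht2] at k2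
  have ht2' : t2 ≠ 1 := by
    intro hcon
    rw [hcon] at ht2
    have e := congrArg Units.val ht2
    change (1 : F) = ρ c at e
    rw [← map_one ρ] at e
    exact hc1 (ρ.injective e).symm
  have k2' : szD (2 ^ (m + 1)) t2 * g'.1 = g'.1 * szD (2 ^ (m + 1)) t1 := by
    have e := congrArg Subtype.val k2
    change g'.1 * szD _ t1 * g'.1⁻¹ = szD _ t2 at e
    rw [← e]; group
  have hzero : g'.1 • szP (2 ^ (m + 1)) (0 : F) 0 = szP (2 ^ (m + 1)) 0 0 := by
    have e : szD (2 ^ (m + 1)) t2 • (g'.1 • szP (2 ^ (m + 1)) (0 : F) 0) =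
        g'.1 • szP (2 ^ (m + 1)) (0 : F) 0 := by
      rw [← mul_smul, k2', mul_smul, szD_smul_zero h]
    rcases mem_suzukiOvoid_iff.1 (Sz_smul_mem g'.2 (szP_mem (m := m) (0 : F) 0)) with e1 | ⟨x, y, e1⟩
    · exfalso
      rw [← hinf] at e1
      exact szP_ne_inf _ _ _ (smul_left_cancel _ e1)
    · rw [e1]
      rw [e1] at e
      by_contra hne
      apply ht2'
      apply szD_fix_imp h _ e
      rintro ⟨rfl, rfl⟩; exact hne rfl
  obtain ⟨u, hu⟩ := szG_two_point h hinf hzero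
  have hu1 : u = 1 := by
    rw [hu, szDG_conj_szTG] at k1
    have e := (szTG_inj h k1).1
    apply Units.ext
    apply h.sq_inj
    rw [mul_one] at e
    rw [e]; simp
  rw [hu1, szDG_one] at hu
  ext a
  have e := key (szTG h a 0)
  rw [hu, one_mul, inv_one, mul_one, szFieldHom_T, szFieldHom_T] at e
  exact (szTG_inj h e).1

theorem card_Out_Sz (hm : 1 ≤ m) (hF : Fintype.card F = 2 ^ (2 * m + 1)) :
    Nat.card (Cfsg.Out (Sz F m)) = 2 * m + 1 := by
  have h := szData_of_card hm hF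
  have hF2 : Even (Fintype.card F) := by
    rw [hF, pow_succ]
    exact even_two.mul_left _
  have : Fact (Nat.Prime 2) := ⟨Nat.prime_two⟩
  obtain ⟨e⟩ := Cfsg.Agent.H14.ringAut_equiv_zmod (F := F) (p := 2) (f := 2 * m + 1) (by omega) hF
  have hcard : Nat.card (F ≃+* F) = 2 * m + 1 := by
    rw [Nat.card_congr e.toEquiv, Nat.card_congr Multiplicative.toAdd, Nat.card_zmod]
  rw [← hcard]
  symm
  apply Nat.card_congr
  refine Equiv.ofBijective
    (fun σ : F ≃+* F => (QuotientGroup.mk (szFieldAut h σ.toRingHom) : Cfsg.Out (Sz F m))) ⟨?_, ?_⟩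
  · intro σ ρ hh
    exact RingEquiv.toRingHom_injective (szOut_inj h _ _ hh)
  · intro y
    obtain ⟨Ψ, rfl⟩ := QuotientGroup.mk_surjective y
    obtain ⟨σ, hσ⟩ := szOut_surj h hF2 Ψ
    refine ⟨RingEquiv.ofBijective σ (Finite.injective_iff_bijective.1 σ.injective), ?_⟩
    rw [← hσ]
    rfl

theorem card_Out_LieSz (hm : 1 ≤ m) (hF : Fintype.card F = 2 ^ (2 * m + 1)) :
    Nat.card (Cfsg.Out (Cfsg.Lie.Sz F (2 ^ (m + 1)))) = 2 * m + 1 := by
  rw [← card_Out_Sz hm hF]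
  exact (card_Out_congr (LieSzEquiv (szData_of_card hm hF))).symm

end aut

end Cfsg.Agent.Lib.Helper18
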