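import Mathlib
import Cfsg.Agent.S2616
import Cfsg.Agent.Lib.Helper15.Disc

set_option linter.unusedSimpArgs false
set_option linter.unusedSectionVars false

/-! type of an even-dimensional symmetric bilinear form over a finite field of odd order via the
discriminant; discriminant of a tensor product -/

namespace Cfsg.Agent.Lib.Helper18

open Module Cfsg.Agent.Lib.Helper15

section disc

variable {F : Type*} [Field F] {V : Type*} [AddCommGroup V] [Module F V]

theorem det_toMatrix_change {ι ι' : Type*} [Fintype ι] [DecidableEq ι] [Fintype ι'] [DecidableEq ι']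
    (B : LinearMap.BilinForm F V) (b : Basis ι F V) (b' : Basis ι' F V) :
    ∃ d : F, d ≠ 0 ∧ (LinearMap.BilinForm.toMatrix b' B).det
      = d ^ 2 * (LinearMap.BilinForm.toMatrix b B).det := by
  let e : ι ≃ ι' := b.indexEquiv b'
  let b'' : Basis ι' F V := b.reindex e
  have h1 : (LinearMap.BilinForm.toMatrix b'' B).det = (LinearMap.BilinForm.toMatrix b B).det := by
    have : LinearMap.BilinForm.toMatrix b'' B
        = Matrix.reindex e e (LinearMap.BilinForm.toMatrix b B) := by
      ext i j
      simp [LinearMap.BilinForm.toMatrix_apply, b'']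
    rw [this, Matrix.det_reindex_self]
  have h2 := LinearMap.BilinForm.toMatrix_mul_basis_toMatrix (b := b'') b' B
  refine ⟨(b''.toMatrix b').det, ?_, ?_⟩
  · have := b''.isUnit_det b'
    rw [Basis.det_apply] at this
    exact this.ne_zero
  · rw [← h2, Matrix.det_mul, Matrix.det_mul, Matrix.det_transpose, ← h1]
    ring

theorem det_fromBlocks_zero11 {m : ℕ} (P P' R : Matrix (Fin m) (Fin m) F) :
    (Matrix.fromBlocks 0 P P' R).det = (-1) ^ m * (P.det * P'.det) := by
  have h : Matrix.fromBlocks 0 P P' R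
      = Matrix.fromBlocks P 0 R P' * Matrix.fromBlocks (0 : Matrix (Fin m) (Fin m) F) 1 1 0 := by
    rw [Matrix.fromBlocks_multiply]
    simp
  rw [h, Matrix.det_mul, det_antidiag, Matrix.det_fromBlocks_zero₁₂]
  ring

/-- a Lagrangian forces the signed discriminant to be a square -/
theorem isSquare_disc_of_lagrangian [FiniteDimensional F V] {m : ℕ} (hV : finrank F V = 2 * m)
    (B : LinearMap.BilinForm F V) (hS : B.IsSymm)
    {ι : Type*} [Fintype ι] [DecidableEq ι] (b : Basis ι F V)
    (X : Submodule F V) (hX : finrank F X = m) (hX0 : ∀ x ∈ X, ∀ y ∈ X, B x y = 0) :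
    IsSquare ((-1) ^ m * (LinearMap.BilinForm.toMatrix b B).det) := by
  obtain ⟨Y, hY⟩ := Submodule.exists_isCompl X
  have hYd : finrank F Y = m := by
    have := Submodule.finrank_add_eq_of_isCompl hY
    omega
  let bX : Basis (Fin m) F X := Module.finBasisOfFinrankEq F X hX
  let bY : Basis (Fin m) F Y := Module.finBasisOfFinrankEq F Y hYd
  let b' : Basis (Fin m ⊕ Fin m) F V := (bX.prod bY).map (Submodule.prodEquivOfIsCompl X Y hY)
  have hl : ∀ i, b' (Sum.inl i) = (bX i : V) := by
    intro i
    simp [b']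
  have hr : ∀ i, b' (Sum.inr i) = (bY i : V) := by
    intro i
    simp [b']
  have hM : LinearMap.BilinForm.toMatrix b' B
      = Matrix.fromBlocks 0 (Matrix.of fun i j => B (bX i) (bY j))
        (Matrix.of fun i j => B (bX i) (bY j)).transpose (Matrix.of fun i j => B (bY i) (bY j)) := by
    ext i j
    rcases i with i | i <;> rcases j with j | j
    · simp only [LinearMap.BilinForm.toMatrix_apply, hl, Matrix.fromBlocks_apply₁₁,
        Matrix.zero_apply]
      exact hX0 _ (bX i).2 _ (bX j).2
    · simp only [LinearMap.BilinForm.toMatrix_apply, hl, hr, Matrix.fromBlocks_apply₁₂,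
        Matrix.of_apply]
    · simp only [LinearMap.BilinForm.toMatrix_apply, hl, hr, Matrix.fromBlocks_apply₂₁,
        Matrix.of_apply, Matrix.transpose_apply]
      exact hS.eq _ _
    · simp only [LinearMap.BilinForm.toMatrix_apply, hl, hr, Matrix.fromBlocks_apply₂₂,
        Matrix.of_apply]
  obtain ⟨d, hd, h⟩ := det_toMatrix_change B b' b
  rw [h, hM, det_fromBlocks_zero11, Matrix.det_transpose]
  refine ⟨(-1) ^ m * d * (Matrix.of fun i j => B (bX i) (bY j)).det, by ring⟩

theorem polar_toQ (B : LinearMap.BilinForm F V) (hS : B.IsSymm) (x y : V) :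
    QuadraticMap.polar (LinearMap.BilinMap.toQuadraticMap B) x y = 2 * B x y := by
  rw [LinearMap.BilinMap.polar_toQuadraticMap, hS.eq y x]
  ring

theorem gram_toQ {ι : Type*} [Fintype ι] [DecidableEq ι] (B : LinearMap.BilinForm F V)
    (hS : B.IsSymm) (b : Basis ι F V) :
    gram (LinearMap.BilinMap.toQuadraticMap B) b = (2 : F) • LinearMap.BilinForm.toMatrix b B := by
  ext i j
  simp only [gram, Matrix.of_apply, Matrix.smul_apply, smul_eq_mul,
    LinearMap.BilinForm.toMatrix_apply]
  exact polar_toQ B hS _ _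

theorem exists_lagrangian_of_isSquare [Finite F] (h2 : (2 : F) ≠ 0) [FiniteDimensional F V]
    {m : ℕ} (hm : 1 ≤ m) (hV : finrank F V = 2 * m)
    (B : LinearMap.BilinForm F V) (hS : B.IsSymm) (hB : B.Nondegenerate)
    {ι : Type*} [Fintype ι] [DecidableEq ι] (b : Basis ι F V)
    (hsq : IsSquare ((-1) ^ m * (LinearMap.BilinForm.toMatrix b B).det)) :
    ∃ X : Submodule F V, finrank F X = m ∧ ∀ x ∈ X, ∀ y ∈ X, B x y = 0 := by
  classical
  obtain ⟨Q, hQ⟩ : ∃ Q : QuadraticForm F V, Q = LinearMap.BilinMap.toQuadraticMap B := ⟨_, rfl⟩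
  have hpol : ∀ x y, QuadraticMap.polar Q x y = 2 * B x y := by
    intro x y
    rw [hQ]
    exact polar_toQ B hS x y
  have hnd : (QuadraticMap.polarBilin Q).Nondegenerate := by
    refine (LinearMap.BilinForm.nondegenerate_iff_det_ne_zero b).2 ?_
    rw [← gram_eq_toMatrix, hQ, gram_toQ B hS, Matrix.det_smul]
    exact mul_ne_zero (pow_ne_zero _ h2) ((LinearMap.BilinForm.nondegenerate_iff_det_ne_zero b).1 hB)
  rcases Cfsg.Agent.S2616.result hm hV Q hnd with ⟨b₀, h1, h2', h3⟩ |
    ⟨b₀, ζ, hζ, h1, h2', h3, h4, h5, h6, h7⟩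
  · refine ⟨Submodule.span F (Set.range (b₀ ∘ Sum.inl)), ?_, ?_⟩
    · rw [finrank_span_eq_card (b₀.linearIndependent.comp _ Sum.inl_injective), Fintype.card_fin]
    · have hB0 : ∀ i j, B (b₀ (Sum.inl i)) (b₀ (Sum.inl j)) = 0 := by
        intro i j
        have := (h3 i j).1
        rw [hpol] at this
        exact (mul_eq_zero.1 this).resolve_left h2
      have step1 : ∀ j, ∀ x ∈ Submodule.span F (Set.range (b₀ ∘ Sum.inl)),
          B x (b₀ (Sum.inl j)) = 0 := by
        intro j x hx
        have : Submodule.span F (Set.range (b₀ ∘ Sum.inl))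
            ≤ LinearMap.ker (B.flip (b₀ (Sum.inl j))) := by
          rw [Submodule.span_le]
          rintro _ ⟨i, rfl⟩
          exact hB0 i j
        exact this hx
      intro x hx y hy
      have : Submodule.span F (Set.range (b₀ ∘ Sum.inl)) ≤ LinearMap.ker (B x) := by
        rw [Submodule.span_le]
        rintro _ ⟨j, rfl⟩
        exact step1 j x hx
      exact this hy
  · exfalso
    have hself : ∀ x, QuadraticMap.polar Q x x = 2 * Q x := by
      intro x
      rw [QuadraticMap.polar_self]
      simp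
    have hG : gram Q b₀ = Matrix.fromBlocks (Matrix.fromBlocks 0 1 1 0) 0 0 !![2, 1; 1, 2 * ζ] := by
      ext i j
      simp only [gram, Matrix.of_apply]
      rcases i with (i | i) | i <;> rcases j with (j | j) | j
      · simpa using (h3 i j).1
      · simpa [Matrix.one_apply] using h2' i j
      · simpa using (h4 i j).1
      · rw [QuadraticMap.polar_comm]
        simpa [Matrix.one_apply, eq_comm] using h2' j i
      · simpa using (h3 i j).2
      · simpa using (h4 i j).2
      · rw [QuadraticMap.polar_comm]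
        simpa using (h4 j i).1
      · rw [QuadraticMap.polar_comm]
        simpa using (h4 j i).2
      · fin_cases i <;> fin_cases j
        · simp [h5]
        · simpa using h6
        · rw [QuadraticMap.polar_comm]
          simpa using h6
        · simp [h7]
    obtain ⟨d, hd, h⟩ := det_toMatrix_change B b₀ b
    have hdet := congrArg Matrix.det hG
    rw [hQ, gram_toQ B hS, Matrix.det_smul, Matrix.det_fromBlocks_zero₂₁, det_antidiag,
      Matrix.det_fin_two_of] at hdet
    have hcard : Fintype.card ((Fin (m - 1) ⊕ Fin (m - 1)) ⊕ Fin 2) = 2 * m := by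
      simp only [Fintype.card_sum, Fintype.card_fin]
      omega
    rw [hcard] at hdet
    rw [h] at hsq
    have e1 : (-1 : F) ^ m * (d ^ 2 * (LinearMap.BilinForm.toMatrix b₀ B).det)
        = d ^ 2 * ((-1) ^ m * (LinearMap.BilinForm.toMatrix b₀ B).det) := by ring
    rw [e1, isSquare_sq_mul_iff hd, ← isSquare_sq_mul_iff (pow_ne_zero m h2)] at hsq
    have e2 : ((2 : F) ^ m) ^ 2 * ((-1) ^ m * (LinearMap.BilinForm.toMatrix b₀ B).det)
        = 1 - 4 * ζ := by
      obtain ⟨r, rfl⟩ : ∃ r, m = r + 1 := ⟨m - 1, by omega⟩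
      simp only [Nat.add_sub_cancel] at hdet
      have e3 : ((2 : F) ^ (r + 1)) ^ 2 * ((-1) ^ (r + 1) * (LinearMap.BilinForm.toMatrix b₀ B).det)
          = (-1) ^ (r + 1) * (2 ^ (2 * (r + 1)) * (LinearMap.BilinForm.toMatrix b₀ B).det) := by
        ring
      rw [e3, hdet]
      have e4 : ((-1 : F) ^ r) * (-1) ^ r = 1 := by
        rw [← mul_pow]
        simp
      linear_combination (1 - 4 * ζ) * e4
    rw [e2] at hsq
    obtain ⟨s, hs⟩ := hsq
    apply hζ ((s - 1) / 2)
    field_simp
    linear_combination (-1 : F) * hs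

end disc

section tensor

open TensorProduct

variable {F : Type*} [Field F] {U W : Type*} [AddCommGroup U] [Module F U]
  [AddCommGroup W] [Module F W]

theorem toMatrix_tmul {ι κ : Type*} [Fintype ι] [DecidableEq ι] [Fintype κ] [DecidableEq κ]
    (B₁ : LinearMap.BilinForm F U) (B₂ : LinearMap.BilinForm F W)
    (b : Basis ι F U) (c : Basis κ F W) :
    LinearMap.BilinForm.toMatrix (b.tensorProduct c) (B₁.tmul B₂)
      = Matrix.kroneckerMap (· * ·) (LinearMap.BilinForm.toMatrix b B₁)
        (LinearMap.BilinForm.toMatrix c B₂) := by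
  ext ⟨i, j⟩ ⟨i', j'⟩
  simp [LinearMap.BilinForm.toMatrix_apply, Basis.tensorProduct_apply,
    LinearMap.BilinForm.tensorDistrib_tmul, mul_comm]

theorem det_toMatrix_tmul {ι κ : Type*} [Fintype ι] [DecidableEq ι] [Fintype κ] [DecidableEq κ]
    (B₁ : LinearMap.BilinForm F U) (B₂ : LinearMap.BilinForm F W)
    (b : Basis ι F U) (c : Basis κ F W) :
    (LinearMap.BilinForm.toMatrix (b.tensorProduct c) (B₁.tmul B₂)).det
      = (LinearMap.BilinForm.toMatrix b B₁).det ^ Fintype.card κ
        * (LinearMap.BilinForm.toMatrix c B₂).det ^ Fintype.card ι := by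
  rw [toMatrix_tmul]
  exact Matrix.det_kronecker _ _

end tensor

end Cfsg.Agent.Lib.Helper18
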